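import Mathlib

/-! Involutions of `A₆`. -/

namespace Cfsg.Agent.Lib.Helper14.A6Root

set_option maxRecDepth 100000 in
theorem ord : ∀ g : Equiv.Perm (Fin 6), Equiv.Perm.sign g = 1 → g^3 = 1 ∨ g^4 = 1 ∨ g^5 = 1 := by
  decide +kernel

set_option maxRecDepth 100000 in
theorem conj0 : ∀ a : Equiv.Perm (Fin 6), Equiv.Perm.sign a = 1 → a * a = 1 → a ≠ 1 →
    ∃ g : Equiv.Perm (Fin 6), Equiv.Perm.sign g = 1 ∧
      a = g * (Equiv.swap 0 1 * Equiv.swap 2 3) * g⁻¹ := by
  decide +kernel

theorem orderOf_cases (g : alternatingGroup (Fin 6)) :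
    orderOf g = 1 ∨ orderOf g = 2 ∨ orderOf g = 3 ∨ orderOf g = 4 ∨ orderOf g = 5 := by
  have hs : Equiv.Perm.sign g.1 = 1 := Equiv.Perm.mem_alternatingGroup.1 g.2
  rcases ord g.1 hs with h | h | h
  · have h' : g ^ 3 = 1 := Subtype.ext h
    have hd := orderOf_dvd_of_pow_eq_one h'
    rcases (Nat.dvd_prime (by norm_num : Nat.Prime 3)).1 hd with h | h <;> simp [h]
  · have h' : g ^ 4 = 1 := Subtype.ext h
    have hd := orderOf_dvd_of_pow_eq_one h'
    have hle := Nat.le_of_dvd (by norm_num) hd
    generalize orderOf g = n at *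
    interval_cases n <;> first | omega | (exfalso; revert hd; decide)
  · have h' : g ^ 5 = 1 := Subtype.ext h
    have hd := orderOf_dvd_of_pow_eq_one h'
    rcases (Nat.dvd_prime (by norm_num : Nat.Prime 5)).1 hd with h | h <;> simp [h]

def a0 : alternatingGroup (Fin 6) := ⟨Equiv.swap 0 1 * Equiv.swap 2 3, Equiv.Perm.mem_alternatingGroup.2 (by decide)⟩

theorem orderOf_a0 : orderOf a0 = 2 :=
  orderOf_eq_prime (Subtype.ext (by decide)) (fun h => absurd (congrArg Subtype.val h) (by decide))

theorem mul_self_of_order {G : Type*} [Group G] {a : G} (h : orderOf a = 2) : a * a = 1 := by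
  have := pow_orderOf_eq_one a
  rwa [h, pow_two] at this

theorem exists_conj (a : alternatingGroup (Fin 6)) (h : orderOf a = 2) :
    ∃ g : alternatingGroup (Fin 6), a = g * a0 * g⁻¹ := by
  have h1 : a.1 * a.1 = 1 := congrArg Subtype.val (mul_self_of_order h)
  have h2 : a.1 ≠ 1 := by
    intro h3
    have : a = 1 := Subtype.ext h3
    rw [this, orderOf_one] at h
    omega
  obtain ⟨g, hg, hag⟩ := conj0 a.1 (Equiv.Perm.mem_alternatingGroup.1 a.2) h1 h2
  exact ⟨⟨g, Equiv.Perm.mem_alternatingGroup.2 hg⟩, Subtype.ext hag⟩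

theorem closure_eq_top : Subgroup.closure {g : alternatingGroup (Fin 6) | orderOf g = 2} = ⊤ := by
  have hN : (Subgroup.closure {g : alternatingGroup (Fin 6) | orderOf g = 2}).Normal := by
    constructor
    intro n hn g
    induction hn using Subgroup.closure_induction with
    | mem x hx =>
      apply Subgroup.subset_closure
      have hx' : orderOf x = 2 := hx
      change orderOf (g * x * g⁻¹) = 2
      rw [← hx']
      exact orderOf_injective (MulAut.conj g).toMonoidHom (MulAut.conj g).injective x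
    | one => simp
    | mul x y _ _ hx hy =>
      have : g * (x*y) * g⁻¹ = (g*x*g⁻¹) * (g*y*g⁻¹) := by group
      rw [this]; exact mul_mem hx hy
    | inv x _ hx =>
      have : g * x⁻¹ * g⁻¹ = (g*x*g⁻¹)⁻¹ := by group
      rw [this]; exact inv_mem hx
  haveI : IsSimpleGroup (alternatingGroup (Fin 6)) := alternatingGroup.isSimpleGroup (by simp)
  rcases hN.eq_bot_or_eq_top with h | h
  · exfalso
    have : a0 ∈ Subgroup.closure {g : alternatingGroup (Fin 6) | orderOf g = 2} :=
      Subgroup.subset_closure orderOf_a0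
    rw [h, Subgroup.mem_bot] at this
    have h2 := orderOf_a0
    rw [this, orderOf_one] at h2
    omega
  · exact h

end Cfsg.Agent.Lib.Helper14.A6Root
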