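import Mathlib

set_option autoImplicit false

namespace Cfsg.Agent.Lib.Helper14.Ord24

variable {G : Type*} [Group G]

theorem conj_mem_pair {x z : G} (hx : orderOf x = 3) (hz : z ∈ Subgroup.zpowers x) (hz1 : z ≠ 1) :
    z = x ∨ z = x⁻¹ := by
  obtain ⟨j, rfl⟩ := Subgroup.mem_zpowers_iff.1 hz
  have h3 : x ^ 3 = 1 := hx ▸ pow_orderOf_eq_one x
  rw [← zpow_mod_orderOf, hx] at hz1 ⊢
  have h1 : 0 ≤ j % (3 : ℕ) := Int.emod_nonneg _ (by norm_num)
  have h2 : j % (3 : ℕ) < 3 := Int.emod_lt_of_pos _ (by norm_num)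
  obtain h | h | h : j % (3 : ℕ) = 0 ∨ j % (3 : ℕ) = 1 ∨ j % (3 : ℕ) = 2 := by omega
  · rw [h] at hz1; simp at hz1
  · left; rw [h]; simp
  · right
    rw [h]
    apply eq_inv_of_mul_eq_one_left
    have : x ^ (2 : ℤ) * x = x ^ 3 := by
      rw [show (2 : ℤ) = ((2 : ℕ) : ℤ) from rfl, zpow_natCast, ← pow_succ]
    rw [this, h3]

/-- a subgroup normalizing `⟨x⟩` and meeting `C(x)` trivially has at most one non-identity element -/
theorem eq_of_ne_one {x : G} (hx : orderOf x = 3) (M : Subgroup G)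
    (hN : ∀ m ∈ M, m * x * m⁻¹ ∈ Subgroup.zpowers x) (hC : ∀ m ∈ M, Commute m x → m = 1)
    (m₁ m₂ : G) (h₁ : m₁ ∈ M) (h₂ : m₂ ∈ M) (n₁ : m₁ ≠ 1) (n₂ : m₂ ≠ 1) : m₁ = m₂ := by
  have hx1 : x ≠ 1 := by
    rintro rfl
    rw [orderOf_one] at hx
    omega
  have inv : ∀ m ∈ M, m ≠ 1 → m * x * m⁻¹ = x⁻¹ := by
    intro m hm hm1
    rcases conj_mem_pair hx (hN m hm) (by simpa using hx1) with h | h
    · exfalso
      apply hm1
      apply hC m hm
      exact mul_inv_eq_iff_eq_mul.1 h
    · exact h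
  have e1 := inv m₁ h₁ n₁
  have e2 := inv m₂⁻¹ (M.inv_mem h₂) (by simpa using n₂)
  have h3 : Commute (m₁ * m₂⁻¹) x := by
    have : (m₁ * m₂⁻¹) * x * (m₁ * m₂⁻¹)⁻¹ = x := by
      calc (m₁ * m₂⁻¹) * x * (m₁ * m₂⁻¹)⁻¹ = m₁ * (m₂⁻¹ * x * m₂⁻¹⁻¹) * m₁⁻¹ := by group
        _ = m₁ * x⁻¹ * m₁⁻¹ := by rw [e2]
        _ = (m₁ * x * m₁⁻¹)⁻¹ := by group
        _ = x := by rw [e1, inv_inv]
    exact mul_inv_eq_iff_eq_mul.1 this
  exact mul_inv_eq_one.1 (hC _ (M.mul_mem h₁ (M.inv_mem h₂)) h3)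

variable [Finite G]

theorem main (h : Nat.card G = 24) (h6 : ∀ g : G, orderOf g ≠ 6) :
    Nonempty (G ≃* Equiv.Perm (Fin 4)) := by
  classical
  haveI : Fact (Nat.Prime 3) := ⟨Nat.prime_three⟩
  haveI : Fact (Nat.Prime 2) := ⟨Nat.prime_two⟩
  have key : ∀ t x : G, orderOf t = 2 → orderOf x = 3 → ¬ Commute t x := by
    intro t x ht hx hc
    apply h6 (t * x)
    rw [hc.orderOf_mul_eq_mul_orderOf_of_coprime (by rw [ht, hx]; decide), ht, hx]
  obtain ⟨x, hx⟩ := exists_prime_orderOf_dvd_card' (G := G) 3 (by rw [h]; decide)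
  obtain ⟨P, hP⟩ := (IsPGroup.of_card (p := 3) (n := 1) (by
    rw [Nat.card_zpowers, hx, pow_one] : Nat.card (Subgroup.zpowers x) = 3 ^ 1)).exists_le_sylow
  have cardS : ∀ Q : Sylow 3 G, Nat.card Q = 3 := by
    intro Q
    obtain ⟨n, hn⟩ := IsPGroup.iff_card.1 Q.isPGroup'
    have h1 := Subgroup.card_mul_index (Q : Subgroup G)
    rw [h] at h1
    have h2 := Q.not_dvd_index
    rw [hn] at h1 ⊢
    rcases n with _ | _ | n
    · exfalso
      apply h2
      rw [pow_zero, one_mul] at h1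
      rw [h1]
      decide
    · rfl
    · exfalso
      have : 9 ∣ 24 := by
        rw [← h1, pow_succ, pow_succ]
        exact ⟨3 ^ n * (Q : Subgroup G).index, by ring⟩
      omega
  have eqS : ∀ (y : G) (Q : Sylow 3 G), orderOf y = 3 → y ∈ Q → (Q : Subgroup G) = Subgroup.zpowers y := by
    intro y Q hy hyQ
    symm
    apply Subgroup.eq_of_le_of_card_ge (Subgroup.zpowers_le.2 hyQ)
    rw [cardS, Nat.card_zpowers, hy]
  have hPx : (P : Subgroup G) = Subgroup.zpowers x := eqS x P hx (hP (Subgroup.mem_zpowers x))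
  -- elements of prime order
  have prime_pow : ∀ c : G, c ≠ 1 → ∃ k : ℕ, orderOf (c ^ k) = 2 ∨ orderOf (c ^ k) = 3 := by
    intro c hc
    have h1 : orderOf c ≠ 1 := fun h => hc (orderOf_eq_one_iff.1 h)
    obtain ⟨p, hp, hpd⟩ := Nat.exists_prime_and_dvd h1
    have h2 : p ∣ 24 := h ▸ hpd.trans (orderOf_dvd_natCard c)
    have h3 : p = 2 ∨ p = 3 := by
      have : p ∣ 2 ^ 3 * 3 := by norm_num; exact h2
      rcases (Nat.Prime.dvd_mul hp).1 this with h | h
      · left; exact (Nat.prime_dvd_prime_iff_eq hp Nat.prime_two).1 (hp.dvd_of_dvd_pow h)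
      · right; exact (Nat.prime_dvd_prime_iff_eq hp Nat.prime_three).1 h
    refine ⟨orderOf c / p, ?_⟩
    rw [orderOf_pow_orderOf_div (orderOf_pos c).ne' hpd]
    exact h3
  have hidx : (P : Subgroup G).index = 8 := by
    have h1 := Subgroup.card_mul_index (P : Subgroup G)
    rw [h, cardS] at h1
    omega
  have hn3 : Nat.card (Sylow 3 G) = 1 ∨ Nat.card (Sylow 3 G) = 4 := by
    have h1 := card_sylow_modEq_one 3 G
    have h2 := P.card_dvd_index
    rw [hidx] at h2
    have h3 : Nat.card (Sylow 3 G) ≤ 8 := Nat.le_of_dvd (by norm_num) h2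
    unfold Nat.ModEq at h1
    interval_cases hh : Nat.card (Sylow 3 G) <;> simp_all
  have conjP : ∀ g : G, g • P = P → g * x * g⁻¹ ∈ Subgroup.zpowers x := by
    intro g hg
    rw [Sylow.smul_eq_iff_mem_normalizer, Subgroup.mem_set_normalizer_iff] at hg
    rw [← hPx]
    exact (hg x).1 (hP (Subgroup.mem_zpowers x))
  rcases hn3 with hn3 | hn3
  · exfalso
    have hsub : Subsingleton (Sylow 3 G) := Finite.card_le_one_iff_subsingleton.1 hn3.le
    obtain ⟨S⟩ : Nonempty (Sylow 2 G) := inferInstance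
    have hcS : 2 < Nat.card S := by
      obtain ⟨n, hn⟩ := IsPGroup.iff_card.1 S.isPGroup'
      have h1 := Subgroup.card_mul_index (S : Subgroup G)
      rw [h] at h1
      have h2 := S.not_dvd_index
      rw [hn] at h1 ⊢
      rcases n with _ | _ | n
      · exfalso
        apply h2
        rw [pow_zero, one_mul] at h1
        rw [h1]
        decide
      · exfalso
        apply h2
        rw [zero_add, pow_one] at h1
        have : (S : Subgroup G).index = 12 := by omega
        rw [this]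
        decide
      · have : 1 ≤ 2 ^ n := Nat.one_le_two_pow
        rw [pow_succ, pow_succ]
        omega
    have hC : ∀ m ∈ (S : Subgroup G), Commute m x → m = 1 := by
      intro m hm hc
      by_contra hm1
      obtain ⟨k, hk | hk⟩ := prime_pow m hm1
      · exact key _ x hk hx (hc.pow_left k)
      · obtain ⟨j, hj⟩ := (IsPGroup.iff_orderOf.1 S.isPGroup') ⟨m ^ k, (S : Subgroup G).pow_mem hm k⟩
        rw [Subgroup.orderOf_mk, hk] at hj
        have : 2 ∣ 3 := by
          rcases j with _ | j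
          · simp at hj
          · rw [hj, pow_succ]; exact dvd_mul_left _ _
        omega
    have huniq := eq_of_ne_one hx (S : Subgroup G) (fun m _ => conjP m (Subsingleton.elim _ _)) hC
    haveI := Fintype.ofFinite S
    rw [Nat.card_eq_fintype_card, Fintype.two_lt_card_iff] at hcS
    obtain ⟨a, b, c, hab, hac, hbc⟩ := hcS
    by_cases ha : a = 1
    · have hb : b.1 ≠ 1 := fun hb => hab (by rw [ha]; exact (Subtype.ext hb).symm)
      have hc : c.1 ≠ 1 := fun hc => hac (by rw [ha]; exact (Subtype.ext hc).symm)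
      exact hbc (Subtype.ext (huniq b.1 c.1 b.2 c.2 hb hc))
    · have ha' : a.1 ≠ 1 := fun h => ha (Subtype.ext h)
      by_cases hb : b = 1
      · have hc : c.1 ≠ 1 := fun hc => hbc (by rw [hb]; exact (Subtype.ext hc).symm)
        exact hac (Subtype.ext (huniq a.1 c.1 a.2 c.2 ha' hc))
      · have hb' : b.1 ≠ 1 := fun h => hb (Subtype.ext h)
        exact hab (Subtype.ext (huniq a.1 b.1 a.2 b.2 ha' hb'))
  · let φ := MulAction.toPermHom G (Sylow 3 G)
    have hK : ∀ k ∈ φ.ker, ∀ Q : Sylow 3 G, k • Q = Q := by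
      intro k hk Q
      have := congrArg (fun f => f Q) (MonoidHom.mem_ker.1 hk)
      exact this
    have hA : ∀ y ∈ φ.ker, orderOf y ≠ 3 := by
      intro y hy hy3
      have hall : ∀ Q : Sylow 3 G, (Q : Subgroup G) = Subgroup.zpowers y := by
        intro Q
        apply eqS y Q hy3
        have hp : IsPGroup 3 (Subgroup.zpowers y) := IsPGroup.of_card (n := 1) (by
          rw [Nat.card_zpowers, hy3, pow_one])
        have h1 := hp.inf_normalizer_sylow Q
        have h2 : y ∈ Subgroup.zpowers y ⊓ Subgroup.normalizer (Q : Set G) :=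
          ⟨Subgroup.mem_zpowers y, Sylow.smul_eq_iff_mem_normalizer.1 (hK y hy Q)⟩
        rw [h1] at h2
        exact h2.2
      have hsub : Subsingleton (Sylow 3 G) :=
        ⟨fun Q₁ Q₂ => Sylow.ext (by rw [hall Q₁, hall Q₂])⟩
      have := Finite.card_le_one_iff_subsingleton.2 hsub
      omega
    have hC : ∀ m ∈ φ.ker, Commute m x → m = 1 := by
      intro m hm hc
      by_contra hm1
      obtain ⟨k, hk | hk⟩ := prime_pow m hm1
      · exact key _ x hk hx (hc.pow_left k)
      · exact hA _ (φ.ker.pow_mem hm k) hk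
    have huniq := eq_of_ne_one hx φ.ker (fun m hm => conjP m (hK m hm P)) hC
    have hinj : Function.Injective φ := by
      rw [← MonoidHom.ker_eq_bot_iff, eq_bot_iff]
      intro t ht
      rw [Subgroup.mem_bot]
      by_contra ht1
      apply ht1
      apply hC t ht
      have h1 : x * t * x⁻¹ = t := by
        apply huniq _ _ ((inferInstance : φ.ker.Normal).conj_mem t ht x) ht _ ht1
        simpa using ht1
      exact (mul_inv_eq_iff_eq_mul.1 h1).symm
    have hbij : Function.Bijective φ := by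
      rw [Nat.bijective_iff_injective_and_card]
      refine ⟨hinj, ?_⟩
      rw [h, Nat.card_perm, hn3]
      rfl
    have e1 : Sylow 3 G ≃ Fin 4 := by
      haveI := Fintype.ofFinite (Sylow 3 G)
      exact Fintype.equivFinOfCardEq (by rw [← Nat.card_eq_fintype_card, hn3])
    exact ⟨(MulEquiv.ofBijective φ hbij).trans e1.permCongrHom⟩

end Cfsg.Agent.Lib.Helper14.Ord24
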