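import Mathlib
import Cfsg.Agent.Lib.Helper14.Ord24

set_option autoImplicit false

namespace Cfsg.Agent.Lib.Helper14.AutQ8

abbrev Q := QuaternionGroup 2

def cond (u v : Q) : Prop := u ^ 2 ≠ 1 ∧ v ^ 2 ≠ 1 ∧ v ≠ u ∧ v ≠ u⁻¹

instance (u v : Q) : Decidable (cond u v) := by unfold cond; infer_instance

def f (u v : Q) : Q → Q
  | .a k => u ^ k.val
  | .xa k => v * u ^ k.val

set_option maxRecDepth 100000 in
theorem f_mul : ∀ u v : Q, cond u v → ∀ g h : Q, f u v (g * h) = f u v g * f u v h := by
  decide +kernel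

set_option maxRecDepth 100000 in
theorem f_inj : ∀ u v : Q, cond u v → ∀ g h : Q, f u v g = f u v h → g = h := by
  decide +kernel

set_option maxRecDepth 100000 in
theorem f_six : ∀ u v : Q, cond u v → (∀ g : Q, (f u v)^[6] g = g) →
    (∀ g : Q, (f u v)^[2] g = g) ∨ (∀ g : Q, (f u v)^[3] g = g) := by
  decide +kernel

set_option maxRecDepth 100000 in
theorem card_cond : Fintype.card {p : Q × Q // cond p.1 p.2} = 24 := by
  decide +kernel

theorem a_eq : ∀ k : ZMod 4, (QuaternionGroup.a k : Q) = (QuaternionGroup.a 1) ^ k.val := by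
  decide +kernel

theorem xa_eq : ∀ k : ZMod 4,
    (QuaternionGroup.xa k : Q) = QuaternionGroup.xa 0 * (QuaternionGroup.a 1) ^ k.val := by
  decide +kernel

theorem apply_eq (φ : MulAut Q) (g : Q) :
    φ g = f (φ (QuaternionGroup.a 1)) (φ (QuaternionGroup.xa 0)) g := by
  cases g with
  | a k =>
    have h := a_eq k
    calc φ (QuaternionGroup.a k) = φ ((QuaternionGroup.a 1) ^ k.val) := congrArg φ h
      _ = _ := by rw [map_pow]; rfl
  | xa k =>
    have h := xa_eq k
    calc φ (QuaternionGroup.xa k) = φ (QuaternionGroup.xa 0 * (QuaternionGroup.a 1) ^ k.val) :=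
          congrArg φ h
      _ = _ := by rw [map_mul, map_pow]; rfl

theorem cond_aut (φ : MulAut Q) : cond (φ (QuaternionGroup.a 1)) (φ (QuaternionGroup.xa 0)) := by
  refine ⟨?_, ?_, ?_, ?_⟩
  · rw [← map_pow, Ne, EmbeddingLike.map_eq_one_iff]
    decide +kernel
  · rw [← map_pow, Ne, EmbeddingLike.map_eq_one_iff]
    decide +kernel
  · rw [Ne, EmbeddingLike.apply_eq_iff_eq]
    decide +kernel
  · rw [← map_inv, Ne, EmbeddingLike.apply_eq_iff_eq]
    decide +kernel

noncomputable def mkAut (u v : Q) (h : cond u v) : MulAut Q :=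
  MulEquiv.ofBijective (MonoidHom.mk' (f u v) (f_mul u v h))
    (Finite.injective_iff_bijective.1 (fun g k hgk => f_inj u v h g k hgk))

theorem mkAut_apply (u v : Q) (h : cond u v) (g : Q) : mkAut u v h g = f u v g := rfl

noncomputable def E : MulAut Q ≃ {p : Q × Q // cond p.1 p.2} :=
  Equiv.ofBijective (fun φ => ⟨(φ (QuaternionGroup.a 1), φ (QuaternionGroup.xa 0)), cond_aut φ⟩) (by
    constructor
    · intro φ ψ h
      have h1 : φ (QuaternionGroup.a 1) = ψ (QuaternionGroup.a 1) :=
        congrArg (fun x => x.1.1) h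
      have h2 : φ (QuaternionGroup.xa 0) = ψ (QuaternionGroup.xa 0) :=
        congrArg (fun x => x.1.2) h
      ext g
      rw [apply_eq φ, apply_eq ψ, h1, h2]
    · rintro ⟨⟨u, v⟩, h⟩
      refine ⟨mkAut u v h, ?_⟩
      apply Subtype.ext
      apply Prod.ext
      · change f u v (QuaternionGroup.a 1) = u
        exact pow_one u
      · change f u v (QuaternionGroup.xa 0) = v
        change v * u ^ 0 = v
        simp)

theorem card_aut : Nat.card (MulAut Q) = 24 := by
  rw [Nat.card_congr E, Nat.card_eq_fintype_card, card_cond]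

theorem pow_apply (φ : MulAut Q) (k : ℕ) (g : Q) : (φ ^ k) g = (⇑φ)^[k] g := by
  induction k with
  | zero => rfl
  | succ k ih => rw [pow_succ', MulAut.mul_apply, ih, Function.iterate_succ_apply']

theorem main : Nonempty (MulAut Q ≃* Equiv.Perm (Fin 4)) := by
  apply Ord24.main card_aut
  intro φ hφ
  have hf : (⇑φ : Q → Q) = f (φ (QuaternionGroup.a 1)) (φ (QuaternionGroup.xa 0)) :=
    funext (apply_eq φ)
  have h6 : φ ^ 6 = 1 := by rw [← hφ]; exact pow_orderOf_eq_one φ
  have := f_six _ _ (cond_aut φ) (by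
    intro g
    rw [← hf, ← pow_apply, h6]; rfl)
  rw [← hf] at this
  rcases this with h | h
  · have h2 : φ ^ 2 = 1 := by
      ext g
      rw [pow_apply, h]; rfl
    have := orderOf_dvd_of_pow_eq_one h2
    rw [hφ] at this
    revert this; decide
  · have h2 : φ ^ 3 = 1 := by
      ext g
      rw [pow_apply, h]; rfl
    have := orderOf_dvd_of_pow_eq_one h2
    rw [hφ] at this
    revert this; decide

end Cfsg.Agent.Lib.Helper14.AutQ8
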