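import Mathlib

set_option autoImplicit false

namespace Cfsg.Agent.Lib.Helper14

/-- For a finite cyclic group `C` of order `m`, `C / Cⁿ` is cyclic of order `gcd n m`. -/
theorem exists_hom_zmod_gcd {C : Type*} [CommGroup C] [Finite C] [IsCyclic C] (n m : ℕ)
    (hm : Nat.card C = m) :
    ∃ ψ : C →* Multiplicative (ZMod (Nat.gcd n m)), Function.Surjective ψ ∧
      ∀ x, ψ x = 1 ↔ ∃ y, y ^ n = x := by
  have hm0 : m ≠ 0 := by rw [← hm]; exact Nat.card_pos.ne'
  haveI : NeZero (Nat.gcd n m) := ⟨(Nat.gcd_pos_of_pos_right n (Nat.pos_of_ne_zero hm0)).ne'⟩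
  have h1 : Nat.card (C ⧸ (powMonoidHom n : C →* C).range) =
      Nat.card (Multiplicative (ZMod (Nat.gcd n m))) := by
    rw [Nat.card_eq_fintype_card (α := Multiplicative (ZMod (Nat.gcd n m))),
      Fintype.card_multiplicative, ZMod.card]
    have := IsCyclic.index_powMonoidHom_range (G := C) n
    rw [hm, Nat.gcd_comm] at this
    exact this
  refine ⟨(mulEquivOfCyclicCardEq h1).toMonoidHom.comp
    (QuotientGroup.mk' (powMonoidHom n : C →* C).range), ?_, ?_⟩
  · exact (mulEquivOfCyclicCardEq h1).surjective.comp (QuotientGroup.mk'_surjective _)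
  · intro x
    simp only [MonoidHom.comp_apply, MulEquiv.toMonoidHom_eq_coe, MonoidHom.coe_coe,
      EmbeddingLike.map_eq_one_iff, QuotientGroup.mk'_apply, QuotientGroup.eq_one_iff]
    rfl

end Cfsg.Agent.Lib.Helper14
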