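import Cfsg.Agent.Lib.Helper14.Nilp

set_option autoImplicit false

namespace Cfsg.Agent.Lib.Helper14

open Module Polynomial

variable {K V : Type*} [Field K] [AddCommGroup V] [Module K V] [FiniteDimensional K V]

theorem commute_aeval {A : Type*} [Ring A] [Algebra K A] {g x : A} (h : Commute g x) (p : K[X]) :
    Commute g (aeval x p) := by
  induction p using Polynomial.induction_on' with
  | add p q hp hq => rw [map_add]; exact hp.add_right hq
  | monomial n a =>
    rw [aeval_monomial]
    exact (Algebra.commute_algebraMap_right a g).mul_right (h.pow_right n)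

/-- a vector not killed by `N^(n-1)` is cyclic for a regular nilpotent `N` -/
theorem exists_aeval_apply_eq (N : End K V) (hN : IsNilpotent N) (hreg : finrank K (LinearMap.ker N) ≤ 1)
    (v : V) (hv : (N ^ (finrank K V - 1)) v ≠ 0) (w : V) : ∃ p : K[X], (aeval N p) v = w := by
  let Φ : K[X] →ₗ[K] V := (LinearMap.applyₗ v).comp (aeval N).toLinearMap
  have hΦ : ∀ p, Φ p = (aeval N p) v := fun p => rfl
  set W := LinearMap.range Φ with hW
  have hinv : ∀ x ∈ W, N x ∈ W := by
    rintro _ ⟨p, rfl⟩
    refine ⟨X * p, ?_⟩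
    rw [hΦ, hΦ, map_mul, aeval_X]; rfl
  have hWeq := eq_ker_pow_finrank_of_invariant N hN hreg W hinv
  have hvW : v ∈ W := ⟨1, by rw [hΦ]; simp⟩
  have hkill : (N ^ finrank K W) v = 0 := by
    rw [hWeq] at hvW
    exact hvW
  have hle : finrank K W ≤ finrank K V := Submodule.finrank_le W
  have hge : finrank K V ≤ finrank K W := by
    by_contra hlt
    apply hv
    have : finrank K V - 1 = (finrank K V - 1 - finrank K W) + finrank K W := by omega
    rw [this, pow_add, Module.End.mul_apply, hkill, map_zero]
  have htop : W = ⊤ := Submodule.eq_top_of_finrank_eq (le_antisymm hle hge)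
  have : w ∈ W := htop ▸ Submodule.mem_top
  obtain ⟨p, hp⟩ := this
  exact ⟨p, hp⟩

theorem finrank_ker_pow_pred (N : End K V) (hn : 1 ≤ finrank K V) (hN : N ^ finrank K V = 0)
    (hreg : finrank K (LinearMap.ker N) ≤ 1) :
    finrank K (LinearMap.ker (N ^ (finrank K V - 1))) = finrank K V - 1 := by
  apply le_antisymm
  · calc _ ≤ (finrank K V - 1) * finrank K (LinearMap.ker N) := finrank_ker_pow_le N _
      _ ≤ (finrank K V - 1) * 1 := Nat.mul_le_mul_left _ hreg
      _ = _ := by ring
  · have h1 := LinearMap.finrank_range_add_finrank_ker (N ^ (finrank K V - 1))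
    have h2 : finrank K (LinearMap.range (N ^ (finrank K V - 1))) ≤ finrank K (LinearMap.ker N) := by
      apply Submodule.finrank_mono
      rintro _ ⟨x, rfl⟩
      rw [LinearMap.mem_ker, ← Module.End.mul_apply, ← pow_succ', Nat.sub_add_cancel hn, hN]
      rfl
    omega

end Cfsg.Agent.Lib.Helper14
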