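import Mathlib

set_option autoImplicit false

namespace Cfsg.Agent.Lib.Helper14.Dih2

open Matrix

variable {F : Type*} [Field F]

/-- the binary norm form -/
def N2 (a b : F) (w : Fin 2 → F) : F := w 0 ^ 2 + a * w 0 * w 1 + b * w 1 ^ 2

/-- multiplication by `u + v θ` -/
def M (a b u v : F) : Matrix (Fin 2) (Fin 2) F := !![u, -b * v; v, u + a * v]

/-- conjugation -/
def X (a : F) : Matrix (Fin 2) (Fin 2) F := !![1, a; 0, -1]

theorem N2_M (a b u v : F) (w : Fin 2 → F) :
    N2 a b (M a b u v *ᵥ w) = (u ^ 2 + a * u * v + b * v ^ 2) * N2 a b w := by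
  simp only [N2, M, Matrix.mulVec, Matrix.of_apply, dotProduct, Fin.sum_univ_two, Matrix.cons_val_zero,
    Matrix.cons_val_one, Matrix.cons_val']
  ring

theorem N2_X (a b : F) (w : Fin 2 → F) : N2 a b (X a *ᵥ w) = N2 a b w := by
  simp only [N2, X, Matrix.mulVec, Matrix.of_apply, dotProduct, Fin.sum_univ_two, Matrix.cons_val_zero,
    Matrix.cons_val_one, Matrix.cons_val']
  ring

theorem X_mul_X (a : F) : X a * X a = 1 := by
  rw [X, Matrix.mul_fin_two, Matrix.one_fin_two]
  congr 1
  simp

theorem Mbar_mul_M (a b u v : F) :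
    M a b (u + a * v) (-v) * M a b u v = (u ^ 2 + a * u * v + b * v ^ 2) • 1 := by
  rw [M, M, Matrix.mul_fin_two, Matrix.one_fin_two, Matrix.smul_of, Matrix.smul_cons, Matrix.smul_cons]
  ext i j
  fin_cases i <;> fin_cases j <;> simp <;> ring

theorem M_mul_Mbar (a b u v : F) :
    M a b u v * M a b (u + a * v) (-v) = (u ^ 2 + a * u * v + b * v ^ 2) • 1 := by
  rw [M, M, Matrix.mul_fin_two, Matrix.one_fin_two, Matrix.smul_of, Matrix.smul_cons, Matrix.smul_cons]
  ext i j
  fin_cases i <;> fin_cases j <;> simp <;> ring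

theorem X_mul_M (a b u v : F) : X a * M a b u v = M a b (u + a * v) (-v) * X a := by
  rw [M, M, X, Matrix.mul_fin_two, Matrix.mul_fin_two]
  ext i j
  fin_cases i <;> fin_cases j <;> simp <;> ring

/-- an isometry fixing the first basis vector is `1` or `X` -/
theorem eq_one_or_eq_X (a b : F) (hd : 4 * b - a ^ 2 ≠ 0) (H : Matrix (Fin 2) (Fin 2) F)
    (hH : ∀ w, N2 a b (H *ᵥ w) = N2 a b w) (h00 : H 0 0 = 1) (h10 : H 1 0 = 0) :
    H = 1 ∨ H = X a := by
  set s := H 0 1 with hs
  set t := H 1 1 with ht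
  have E1 : s ^ 2 + a * s * t + b * t ^ 2 = b := by
    have := hH ![0, 1]
    simp only [N2, Matrix.mulVec, dotProduct, Fin.sum_univ_two, Matrix.cons_val_zero,
      Matrix.cons_val_one] at this
    rw [← hs, ← ht] at this
    linear_combination this
  have E2 : (1 + s) ^ 2 + a * (1 + s) * t + b * t ^ 2 = 1 + a + b := by
    have := hH ![1, 1]
    simp only [N2, Matrix.mulVec, dotProduct, Fin.sum_univ_two, Matrix.cons_val_zero,
      Matrix.cons_val_one] at this
    rw [← hs, ← ht, h00, h10] at this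
    linear_combination this
  have E3 : 2 * s + a * t = a := by linear_combination E2 - E1
  set l := (a * s + 2 * b * (t - 1)) / (a ^ 2 - 4 * b) with hl
  have hd' : a ^ 2 - 4 * b ≠ 0 := by
    intro h
    apply hd
    linear_combination -h
  have hs' : s = a * l := by
    rw [hl, mul_div_assoc', eq_div_iff hd']
    linear_combination (-2 * b) * E3
  have ht' : t = 1 - 2 * l := by
    have h5 : 2 * l = 1 - t := by
      rw [hl, mul_div_assoc', div_eq_iff hd']
      linear_combination (a) * E3
    linear_combination h5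
  have h3 : (a ^ 2 - 4 * b) * (l * (l - 1)) = 0 := by
    rw [hs', ht'] at E1
    linear_combination -E1
  rcases mul_eq_zero.1 h3 with h | h
  · exact absurd h hd'
  · rcases mul_eq_zero.1 h with h | h
    · left
      rw [h] at hs' ht'
      rw [Matrix.eta_fin_two H, Matrix.one_fin_two, h00, h10, ← hs, ← ht, hs', ht']
      simp
    · right
      have h' : l = 1 := by linear_combination h
      rw [h'] at hs' ht'
      rw [Matrix.eta_fin_two H, X, h00, h10, ← hs, ← ht, hs', ht']
      norm_num

/-- classification of the isometries of the binary form -/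
theorem classify (a b : F) (hd : 4 * b - a ^ 2 ≠ 0) (A : Matrix (Fin 2) (Fin 2) F)
    (hA : ∀ w, N2 a b (A *ᵥ w) = N2 a b w) :
    ∃ u v : F, u ^ 2 + a * u * v + b * v ^ 2 = 1 ∧ (A = M a b u v ∨ A = M a b u v * X a) := by
  set u := A 0 0 with hu
  set v := A 1 0 with hv
  have hN : u ^ 2 + a * u * v + b * v ^ 2 = 1 := by
    have := hA ![1, 0]
    simp only [N2, Matrix.mulVec, dotProduct, Fin.sum_univ_two, Matrix.cons_val_zero,
      Matrix.cons_val_one] at this
    rw [← hu, ← hv] at this
    linear_combination this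
  refine ⟨u, v, hN, ?_⟩
  have hNbar : (u + a * v) ^ 2 + a * (u + a * v) * (-v) + b * (-v) ^ 2 = 1 := by
    linear_combination hN
  have h1 := eq_one_or_eq_X a b hd (M a b (u + a * v) (-v) * A) (by
    intro w
    rw [← Matrix.mulVec_mulVec, N2_M, hNbar, one_mul, hA]) (by
    rw [Matrix.mul_apply, Fin.sum_univ_two, ← hu, ← hv]
    simp only [M, Matrix.of_apply, Matrix.cons_val_zero, Matrix.cons_val_one, Matrix.cons_val']
    linear_combination hN) (by
    rw [Matrix.mul_apply, Fin.sum_univ_two, ← hu, ← hv]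
    simp only [M, Matrix.of_apply, Matrix.cons_val_zero, Matrix.cons_val_one, Matrix.cons_val']
    ring)
  have h2 : A = M a b u v * (M a b (u + a * v) (-v) * A) := by
    rw [← Matrix.mul_assoc, M_mul_Mbar, hN, one_smul, Matrix.one_mul]
  rcases h1 with h | h
  · left
    rw [h2, h, Matrix.mul_one]
  · right
    rw [h2, h]

end Cfsg.Agent.Lib.Helper14.Dih2
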