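import Cfsg.Agent.Lib.Helper14.FXMat

/-! Existence of semisimple matrices with a prescribed characteristic polynomial. -/

set_option autoImplicit false

namespace Cfsg.Agent.Lib.Helper14

open Polynomial Module

universe u

variable {F : Type u} [Field F]

theorem exists_matrix_irreducible [Finite F] {f : F[X]} (hf1 : f.Monic) (hf2 : Irreducible f)
    (hf0 : f.coeff 0 ≠ 0) :
    ∃ (k : ℕ) (A : Matrix (Fin k) (Fin k) F) (m : ℕ), (m : F) ≠ 0 ∧ A ^ m = 1 ∧ A.charpoly = f := by
  classical
  haveI := finite_Kq hf1.ne_zero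
  haveI : (Ideal.span {f}).IsMaximal := PrincipalIdealRing.isMaximal_of_irreducible hf2
  letI : Field (Kq f) := Ideal.Quotient.field _
  haveI : Finite (Kq f) := Module.finite_of_finite F
  letI := Fintype.ofFinite (Kq f)
  letI := Fintype.ofFinite F
  let b := Module.finBasis F (Kq f)
  have hr : (Ideal.Quotient.mk (Ideal.span {f}) X : Kq f) ≠ 0 := by
    intro h0
    rw [Ideal.Quotient.eq_zero_iff_mem, Ideal.mem_span_singleton] at h0
    have h1 : f = X := Polynomial.eq_of_monic_of_associated hf1 monic_X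
      (hf2.associated_of_dvd Polynomial.irreducible_X h0)
    rw [h1] at hf0
    simp at hf0
  have hpow := FiniteField.pow_card_sub_one_eq_one _ hr
  refine ⟨_, LinearMap.toMatrix b b (Xact F (Kq f)), Fintype.card (Kq f) - 1, ?_, ?_, ?_⟩
  · have h1 : 1 ≤ Fintype.card (Kq f) := Fintype.card_pos
    rw [Nat.cast_sub h1]
    have h2 : ((Fintype.card (Kq f) : ℕ) : F) = 0 := by
      rw [Module.card_eq_pow_finrank (K := F) (V := Kq f), Nat.cast_pow, FiniteField.cast_card_eq_zero,
        zero_pow]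
      rw [finrank_quotient_span_eq_natDegree]
      exact hf2.natDegree_pos.ne'
    rw [h2]; simp
  · rw [LinearMap.toMatrix_pow]
    have : Xact F (Kq f) ^ (Fintype.card (Kq f) - 1) = 1 := by
      refine LinearMap.ext fun y => ?_
      rw [Xact_pow_apply]
      induction y using Submodule.Quotient.induction_on with | _ a => ?_
      change (Ideal.Quotient.mk (Ideal.span {f}) (X ^ (Fintype.card (Kq f) - 1) * a) : Kq f)
        = Ideal.Quotient.mk (Ideal.span {f}) a
      rw [map_mul, map_pow, hpow, one_mul]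
    rw [this]
    exact LinearMap.toMatrix_one b
  · rw [LinearMap.charpoly_toMatrix]
    exact cp_Kq hf1

theorem exists_matrix_charpoly [Finite F] (d : ℕ) : ∀ c : F[X], c.natDegree = d → c.Monic →
    c.coeff 0 ≠ 0 → ∃ (ι : Type) (_ : Fintype ι) (_ : DecidableEq ι) (A : Matrix ι ι F) (m : ℕ),
      (m : F) ≠ 0 ∧ A ^ m = 1 ∧ A.charpoly = c := by
  induction d using Nat.strong_induction_on with
  | _ d ih =>
    intro c hd hc1 hc0
    by_cases hd0 : d = 0
    · have : c = 1 := Polynomial.eq_one_of_monic_natDegree_zero hc1 (by rw [hd, hd0])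
      refine ⟨Fin 0, inferInstance, inferInstance, 0, 1, by simp, Subsingleton.elim _ _, ?_⟩
      rw [this, Matrix.charpoly_isEmpty]
    · obtain ⟨f, hf1, hf2, c', rfl⟩ := Polynomial.exists_monic_irreducible_factor c
        (Polynomial.not_isUnit_of_natDegree_pos c (by omega))
      have hc1' : c'.Monic := hf1.of_mul_monic_left hc1
      rw [Polynomial.mul_coeff_zero] at hc0
      have hlt : c'.natDegree < d := by
        rw [Polynomial.natDegree_mul hf1.ne_zero hc1'.ne_zero] at hd
        have := hf2.natDegree_pos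
        omega
      obtain ⟨k, A, m, hm, hA, hAc⟩ := exists_matrix_irreducible hf1 hf2 (left_ne_zero_of_mul hc0)
      obtain ⟨ι, _, _, A', m', hm', hA', hAc'⟩ := ih _ hlt c' rfl hc1' (right_ne_zero_of_mul hc0)
      refine ⟨Fin k ⊕ ι, inferInstance, inferInstance, Matrix.fromBlocks A 0 0 A', m * m', ?_, ?_, ?_⟩
      · rw [Nat.cast_mul]; exact mul_ne_zero hm hm'
      · rw [Matrix.fromBlocks_diagonal_pow, pow_mul, hA, one_pow, mul_comm, pow_mul, hA', one_pow,
          Matrix.fromBlocks_one]
      · rw [Matrix.charpoly_fromBlocks_zero₁₂, hAc, hAc']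

theorem exists_matrix_fin_charpoly [Finite F] {n : ℕ} (c : F[X]) (hn : c.natDegree = n) (hc1 : c.Monic)
    (hc0 : c.coeff 0 ≠ 0) : ∃ (A : Matrix (Fin n) (Fin n) F) (m : ℕ),
      (m : F) ≠ 0 ∧ A ^ m = 1 ∧ A.charpoly = c := by
  obtain ⟨ι, _, _, A, m, hm, hA, hAc⟩ := exists_matrix_charpoly _ c rfl hc1 hc0
  have hcard : Fintype.card ι = n := by
    rw [← hn, ← hAc, Matrix.charpoly_natDegree_eq_dim]
  let e := Fintype.equivFinOfCardEq hcard
  refine ⟨Matrix.reindexAlgEquiv F F e A, m, hm, ?_, ?_⟩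
  · rw [← map_pow, hA, map_one]
  · rw [Matrix.coe_reindexAlgEquiv, Matrix.charpoly_reindex, hAc]

end Cfsg.Agent.Lib.Helper14
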