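import Cfsg.Agent.Lib.Helper14.FXMat

/-! Simple `F[X]`-modules over a finite field: dimension, endomorphisms. -/

set_option autoImplicit false

namespace Cfsg.Agent.Lib.Helper14

open Polynomial Module

universe u v

variable {F : Type u} [Field F]

/-- the class of `X` in `F[X]/(f)` -/
noncomputable def rootK (f : F[X]) : Kq f := Ideal.Quotient.mk (Ideal.span {f}) X

theorem smul_Kq (f : F[X]) (p : F[X]) (y : Kq f) :
    p • y = Ideal.Quotient.mk (Ideal.span {f}) p * y := by
  induction y using Submodule.Quotient.induction_on with | _ a => ?_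
  rfl

theorem X_pow_smul_Kq (f : F[X]) (k : ℕ) (y : Kq f) : (X ^ k : F[X]) • y = rootK f ^ k * y := by
  rw [smul_Kq, map_pow]; rfl

/-- `F[X]`-linear endomorphisms of `F[X]/(f)` are multiplications. -/
theorem linearMap_Kq_apply {f : F[X]} (φ : Kq f →ₗ[F[X]] Kq f) (y : Kq f) : φ y = φ 1 * y := by
  obtain ⟨a, rfl⟩ := Ideal.Quotient.mk_surjective y
  have h1 : (Ideal.Quotient.mk (Ideal.span {f}) a : Kq f) = a • (1 : Kq f) := by
    rw [smul_Kq, mul_one]
  rw [h1, map_smul, smul_Kq, smul_Kq, mul_one, mul_comm]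

theorem rootK_ne_zero {f : F[X]} (hf1 : f.Monic) (hf2 : Irreducible f) (hf0 : f ≠ X) : rootK f ≠ 0 := by
  intro h0
  unfold rootK at h0
  rw [Ideal.Quotient.eq_zero_iff_mem, Ideal.mem_span_singleton] at h0
  exact hf0 (Polynomial.eq_of_monic_of_associated hf1 monic_X
      (hf2.associated_of_dvd Polynomial.irreducible_X h0))

/-- The degree of an irreducible polynomial over the field with `q` elements is the order of `q`
modulo the multiplicative order of its root. -/
theorem natDegree_eq_orderOf [Fintype F] {f : F[X]} (hf1 : f.Monic) (hf2 : Irreducible f)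
    (hf0 : f ≠ X) :
    f.natDegree = orderOf ((Fintype.card F : ℕ) : ZMod (orderOf (rootK f))) := by
  haveI := finite_Kq hf1.ne_zero
  haveI : (Ideal.span {f}).IsMaximal := PrincipalIdealRing.isMaximal_of_irreducible hf2
  letI : Field (Kq f) := Ideal.Quotient.field _
  haveI : Finite (Kq f) := Module.finite_of_finite F
  rw [← finrank_quotient_span_eq_natDegree, ← FiniteField.orderOf_frobeniusAlgHom F (Kq f)]
  rw [orderOf_eq_orderOf_iff]
  intro e
  have hr := rootK_ne_zero hf1 hf2 hf0
  have hq1 : 1 ≤ Fintype.card F ^ e := Nat.one_le_pow _ _ Fintype.card_pos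
  have h1 : FiniteField.frobeniusAlgHom F (Kq f) ^ e = 1 ↔ rootK f ^ (Fintype.card F ^ e) = rootK f := by
    constructor
    · intro h
      have := DFunLike.congr_fun h (rootK f)
      rwa [AlgHom.coe_pow, FiniteField.coe_frobeniusAlgHom, pow_iterate, AlgHom.one_apply] at this
    · intro h
      apply Ideal.Quotient.algHom_ext
      apply Polynomial.algHom_ext
      change (FiniteField.frobeniusAlgHom F (Kq f) ^ e) (rootK f) = rootK f
      rwa [AlgHom.coe_pow, FiniteField.coe_frobeniusAlgHom, pow_iterate]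
  have h2 : rootK f ^ (Fintype.card F ^ e) = rootK f ↔ rootK f ^ (Fintype.card F ^ e - 1) = 1 := by
    constructor
    · intro h
      apply mul_right_cancel₀ hr
      rw [← pow_succ, Nat.sub_add_cancel hq1, h, one_mul]
    · intro h
      calc rootK f ^ (Fintype.card F ^ e) = rootK f ^ (Fintype.card F ^ e - 1 + 1) := by
            rw [Nat.sub_add_cancel hq1]
        _ = rootK f := by rw [pow_succ, h, one_mul]
  rw [h1, h2, ← orderOf_dvd_iff_pow_eq_one, ← Nat.cast_pow, ← (ZMod.natCast_eq_zero_iff _ _),
    Nat.cast_sub hq1, sub_eq_zero, Nat.cast_one]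

end Cfsg.Agent.Lib.Helper14
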