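import Mathlib
import Cfsg.Agent.Lib.Helper14.SUOrder

set_option autoImplicit false

namespace Cfsg.Agent.Lib.Helper14

open Matrix

variable {F : Type*} [Field F] [Fintype F] {q n : ℕ}

/-- a matrix commuting with `SU` is scalar -/
theorem scalar_of_commute_su (hF : Fintype.card F = q ^ 2) (A : Matrix (Fin n) (Fin n) F)
    (hg : ∀ s : Cfsg.SU n F q, s.1.1 * A = A * s.1.1) (a b : Fin n) (hab : a ≠ b) :
    A a b = 0 ∧ A a a = A b b := by
  classical
  have hoff : ∀ a b : Fin n, a ≠ b → A a b = 0 := by
    intro a b hab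
    obtain ⟨l, hl, hl2⟩ := exists_norm_one_sq_ne_one hF
    have hl0 : l ≠ 0 := by
      rintro rfl
      rw [zero_pow (Nat.succ_ne_zero q)] at hl
      exact zero_ne_one hl
    set d : Fin n → F := Function.update (Function.update 1 a l) b l⁻¹ with hd
    have hda : d a = l := by simp [hd, hab]
    have hdb : d b = l⁻¹ := by simp [hd]
    have hdet : (Matrix.diagonal d).det = 1 := by
      rw [Matrix.det_diagonal, hd, Finset.prod_update_of_mem (Finset.mem_univ _)]
      have : ∏ x ∈ Finset.univ \ {b}, Function.update (1 : Fin n → F) a l x = l := by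
        rw [Finset.prod_update_of_mem (by simp [hab])]
        simp
      rw [this, inv_mul_cancel₀ hl0]
    have hpres : ∀ i, d i ^ (q + 1) = 1 := by
      intro i
      by_cases hib : i = b
      · subst hib; rw [hdb, inv_pow, hl, inv_one]
      · by_cases hia : i = a
        · subst hia; rw [hda, hl]
        · simp [hd, hib, hia]
    have h1 := hg (suMk (Matrix.diagonal d) hdet (diagonal_preserves d hpres))
    have h2 := congrArg (fun s : Matrix (Fin n) (Fin n) F => s a b) h1
    change (Matrix.diagonal d * A) a b = (A * Matrix.diagonal d) a b at h2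
    rw [Matrix.diagonal_mul, Matrix.mul_diagonal, hda, hdb] at h2
    have h3 : A a b * (l - l⁻¹) = 0 := by linear_combination h2
    rcases mul_eq_zero.1 h3 with h | h
    · exact h
    · exfalso
      apply hl2
      have : l = l⁻¹ := sub_eq_zero.1 h
      rw [pow_two]
      nth_rewrite 2 [this]
      exact mul_inv_cancel₀ hl0
  refine ⟨hoff a b hab, ?_⟩
  have h1 := hg (suMk (suW F a b) (suW_det hab) (suW_preserves hF a b))
  have h2 := congrArg (fun s : Matrix (Fin n) (Fin n) F => s a b) h1
  change (suW F a b * A) a b = (A * suW F a b) a b at h2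
  rw [Matrix.mul_apply, Matrix.mul_apply, Finset.sum_eq_single b, Finset.sum_eq_single a,
    suW_apply hab] at h2
  · simpa using h2.symm
  · intro k _ hk
    rw [hoff a k (Ne.symm hk), zero_mul]
  · simp
  · intro k _ hk
    rw [hoff k b hk, mul_zero]
  · simp

/-- a matrix commuting with `SU` is scalar -/
theorem eq_diagonal_of_commute_su (hF : Fintype.card F = q ^ 2) (hn : 1 ≤ n)
    (A : Matrix (Fin n) (Fin n) F)
    (hg : ∀ s : Cfsg.SU n F q, s.1.1 * A = A * s.1.1) :
    A = Matrix.diagonal fun _ => A ⟨0, hn⟩ ⟨0, hn⟩ := by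
  ext a b
  by_cases hab : a = b
  · subst hab
    rw [Matrix.diagonal_apply_eq]
    by_cases ha : a = ⟨0, hn⟩
    · rw [ha]
    · exact (scalar_of_commute_su hF A hg a _ ha).2
  · rw [Matrix.diagonal_apply_ne _ hab]
    exact (scalar_of_commute_su hF A hg a b hab).1

/-- scalar element of `GU` -/
noncomputable def guScalar (hF : Fintype.card F = q ^ 2) (n : ℕ) (l : F) (hl : l ^ (q + 1) = 1) :
    Cfsg.GU n F q :=
  guMk hF (Matrix.diagonal fun _ => l) (diagonal_preserves _ fun _ => hl)

theorem guScalar_val (hF : Fintype.card F = q ^ 2) (n : ℕ) (l : F) (hl : l ^ (q + 1) = 1) :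
    (guScalar hF n l hl).1.1 = Matrix.diagonal fun _ => l := rfl

theorem guScalar_mem_center (hF : Fintype.card F = q ^ 2) (n : ℕ) (l : F)
    (hl : l ^ (q + 1) = 1) : guScalar hF n l hl ∈ Subgroup.center (Cfsg.GU n F q) := by
  rw [Subgroup.mem_center_iff]
  intro x
  apply Subtype.ext
  apply Units.ext
  change x.1.1 * (Matrix.diagonal fun _ => l) = (Matrix.diagonal fun _ => l) * x.1.1
  ext i j
  rw [Matrix.mul_diagonal, Matrix.diagonal_mul, mul_comm]

theorem guDet_guScalar (hF : Fintype.card F = q ^ 2) (n : ℕ) (l : F) (hl : l ^ (q + 1) = 1) :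
    ((guDet F q n (guScalar hF n l hl) : Fˣ) : F) = l ^ n := by
  change (Matrix.diagonal fun _ => l).det = l ^ n
  rw [Matrix.det_diagonal]
  simp

/-- central elements of `GU` are scalars -/
theorem exists_eq_guScalar_of_mem_center (hF : Fintype.card F = q ^ 2) (hn : 1 ≤ n)
    (g : Cfsg.GU n F q) (hg : g ∈ Subgroup.center (Cfsg.GU n F q)) :
    ∃ (l : F) (hl : l ^ (q + 1) = 1), g = guScalar hF n l hl := by
  rw [Subgroup.mem_center_iff] at hg
  have hdiag := eq_diagonal_of_commute_su hF hn g.1.1 (fun s => by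
    have := hg ⟨Matrix.SpecialLinearGroup.toGL s.1, s.2⟩
    exact congrArg (fun t : Cfsg.GU n F q => t.1.1) this)
  set i0 : Fin n := ⟨0, hn⟩
  set l := g.1.1 i0 i0 with hl
  have hlq : l ^ (q + 1) = 1 := by
    have := g.2 (Pi.single i0 1) (Pi.single i0 1)
    change Cfsg.hermForm n F q (g.1.1 *ᵥ _) (g.1.1 *ᵥ _) = _ at this
    rw [hdiag, hermForm_single_right (q_ne_zero hF)] at this
    have h2 : (Matrix.diagonal fun _ => l) *ᵥ (Pi.single i0 1 : Fin n → F) =
        l • (Pi.single i0 1 : Fin n → F) := by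
      ext k
      rw [Matrix.mulVec_diagonal]; rfl
    rw [h2, hermForm_smul_left, hermForm_smul_right, hermForm_single_right (q_ne_zero hF)] at this
    rw [pow_succ']
    simpa using this
  exact ⟨l, hlq, Subtype.ext (Units.ext hdiag)⟩

end Cfsg.Agent.Lib.Helper14
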