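import Mathlib
import Cfsg.Agent.Lib.Helper14.SubField
import Cfsg.Agent.Lib.Helper15.Forms
import Cfsg.Agent.Lib.Helper15.PlusLagr
import Cfsg.Agent.Lib.Helper15.Bridge
import Cfsg.Agent.Lib.Helper15.Similarity
import Cfsg.Agent.Lib.Helper15.MinusForm

set_option autoImplicit false
open Cfsg Polynomial
open scoped Matrix

namespace Cfsg.Agent.Lib.Helper14

open Cfsg.Agent.Lib.Helper15

/-- a quadratic polynomial over `𝔽_q` splits over `𝔽_{q²}` -/
theorem exists_embedding_with_roots {F K : Type*} [Field F] [Fintype F] [Field K] [Fintype K] {q : ℕ}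
    (hF : Fintype.card F = q) (hK : Fintype.card K = q ^ 2) (a c : F) :
    ∃ (ι : F →+* K) (α β : K), α + β = ι a ∧ α * β = ι c := by
  classical
  obtain ⟨f, hf⟩ : ∃ f : F[X], f = X ^ 2 - C a * X + C c := ⟨_, rfl⟩
  have hdeg : f.natDegree = 2 := by rw [hf]; compute_degree!
  have hmonic : f.Monic := by rw [hf]; monicity!
  by_cases hirr : Irreducible f
  · have := Fact.mk hirr
    have hfin : Module.finrank F (AdjoinRoot f) = 2 := by
      rw [(AdjoinRoot.powerBasis hmonic.ne_zero).finrank, AdjoinRoot.powerBasis_dim, hdeg]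
    have : Module.Finite F (AdjoinRoot f) := (AdjoinRoot.powerBasis hmonic.ne_zero).finite
    have : Finite (AdjoinRoot f) := Module.finite_of_finite F
    have : Fintype (AdjoinRoot f) := Fintype.ofFinite _
    have hcard : Fintype.card (AdjoinRoot f) = Fintype.card K := by
      rw [Module.card_eq_pow_finrank (K := F), hfin, hF, hK]
    let e : AdjoinRoot f ≃+* K := FiniteField.ringEquivOfCardEq hcard
    have h0 : aeval (AdjoinRoot.root f) f = 0 := by rw [AdjoinRoot.aeval_eq, AdjoinRoot.mk_self]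
    have h1 : AdjoinRoot.root f * (algebraMap F _ a - AdjoinRoot.root f) = algebraMap F _ c := by
      have h0' : aeval (AdjoinRoot.root f) (X ^ 2 - C a * X + C c : F[X]) = 0 := by
        rw [← hf]; exact h0
      simp only [map_add, map_sub, map_mul, map_pow, aeval_X, aeval_C] at h0'
      linear_combination -h0'
    refine ⟨(e : AdjoinRoot f →+* K).comp (algebraMap F (AdjoinRoot f)), e (AdjoinRoot.root f),
      e (algebraMap F _ a - AdjoinRoot.root f), ?_, ?_⟩
    · rw [← map_add]; simp
    · rw [← map_mul, h1]; simp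
  · have hroots : f.roots ≠ 0 := fun h =>
      hirr ((hmonic.irreducible_iff_roots_eq_zero_of_degree_le_three (by omega) (by omega)).mpr h)
    obtain ⟨r, hr⟩ := Multiset.exists_mem_of_ne_zero hroots
    have hr' : f.eval r = 0 := (mem_roots hmonic.ne_zero).mp hr
    rw [hf] at hr'
    simp only [eval_add, eval_sub, eval_mul, eval_pow, eval_X, eval_C] at hr'
    obtain ⟨ι⟩ := exists_ringHom_of_card hF hK two_ne_zero
    refine ⟨ι, ι r, ι (a - r), ?_, ?_⟩
    · rw [← map_add]; congr 1; ring
    · rw [← map_mul]; congr 1; linear_combination -hr'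

section Nat

variable {F K : Type*} [Field F] [Field K] {n : Type} [Fintype n] [DecidableEq n]

/-- base change of an isometry is an isometry -/
theorem map_preserves (ι : F →+* K) (QF : QuadraticForm F (n → F)) (QK : QuadraticForm K (n → K))
    (hnat : ∀ v, QK (ι ∘ v) = ι (QF v)) (M : Matrix n n F) (hM : ∀ u, QF (M *ᵥ u) = QF u)
    (u : n → K) : QK ((M.map ι) *ᵥ u) = QK u := by
  have hmv : ∀ v : n → F, (M.map ι) *ᵥ (ι ∘ v) = ι ∘ (M *ᵥ v) := by
    intro v
    ext i
    exact (RingHom.map_mulVec ι M v i).symm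
  have hb : ∀ i : n, (Pi.basisFun K n) i = ι ∘ (Pi.single i (1 : F)) := by
    intro i
    ext j
    by_cases h : j = i
    · subst h; simp
    · simp [h]
  have hadd : ∀ v w : n → F, (ι ∘ v) + (ι ∘ w) = ι ∘ (v + w) := by
    intro v w
    ext i
    simp
  have key : QK.comp (Matrix.toLin' (M.map ι)) = QK := by
    apply quadForm_ext_basis (Pi.basisFun K n)
    · intro i
      rw [QuadraticMap.comp_apply, Matrix.toLin'_apply, hb, hmv, hnat, hnat, hM]
    · intro i j
      simp only [QuadraticMap.polar, QuadraticMap.comp_apply, Matrix.toLin'_apply, hb, hadd, hmv, hnat,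
        hM]
  have := congrArg (fun Q => Q u) key
  simpa using this

theorem qMinus_nat (ι : F →+* K) (k : ℕ) (a c : F) (v : (Fin k ⊕ Fin k) ⊕ Fin 2 → F) :
    qMinus k K (ι a) (ι c) (ι ∘ v) = ι (qMinus k F a c v) := by
  rw [coe_qMinus, coe_qMinus]
  simp [quadFormMinus, map_sum]

end Nat

section L

variable {K : Type*} [Field K]

/-- the change of coordinates splitting the binary part -/
def splitL (k : ℕ) (α β : K) :
    ((Fin k ⊕ Fin k) ⊕ Fin 2 → K) →ₗ[K] (Fin (k + 1) ⊕ Fin (k + 1) → K) where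
  toFun v := Sum.elim
    (Fin.cons (v (.inr 0) + α * v (.inr 1)) (fun j => v (.inl (.inl j))))
    (Fin.cons (v (.inr 0) + β * v (.inr 1)) (fun j => v (.inl (.inr j))))
  map_add' v w := by
    ext i
    rcases i with i | i <;> refine Fin.cases ?_ (fun j => ?_) i <;> simp <;> ring
  map_smul' t v := by
    ext i
    rcases i with i | i <;> refine Fin.cases ?_ (fun j => ?_) i <;> simp <;> ring

theorem qPlus_splitL (k : ℕ) (α β : K) (v : (Fin k ⊕ Fin k) ⊕ Fin 2 → K) :
    qPlus (k + 1) K (splitL k α β v) = qMinus k K (α + β) (α * β) v := by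
  rw [coe_qPlus, coe_qMinus]
  simp only [quadFormPlus, quadFormMinus, splitL, LinearMap.coe_mk, AddHom.coe_mk, Sum.elim_inl,
    Sum.elim_inr, Fin.sum_univ_succ, Fin.cons_zero, Fin.cons_succ]
  ring

theorem splitL_injective (k : ℕ) (α β : K) (h : α ≠ β) : Function.Injective (splitL k α β) := by
  rw [← LinearMap.ker_eq_bot, LinearMap.ker_eq_bot']
  intro v hv
  have h1 : ∀ i, splitL k α β v i = 0 := fun i => by rw [hv]; rfl
  have e1 := h1 (.inl 0)
  have e2 := h1 (.inr 0)
  simp only [splitL, LinearMap.coe_mk, AddHom.coe_mk, Sum.elim_inl, Sum.elim_inr, Fin.cons_zero] at e1 e2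
  have e3 : (α - β) * v (.inr 1) = 0 := by linear_combination e1 - e2
  have e4 : v (.inr 1) = 0 := by
    rcases mul_eq_zero.1 e3 with h' | h'
    · exact absurd (sub_eq_zero.1 h') h
    · exact h'
  have e5 : v (.inr 0) = 0 := by rw [e4] at e1; simpa using e1
  ext i
  rcases i with (j | j) | j
  · have := h1 (.inl j.succ)
    simpa [splitL] using this
  · have := h1 (.inr j.succ)
    simpa [splitL] using this
  · fin_cases j
    · exact e5
    · exact e4

/-- `splitL` as an equivalence -/
noncomputable def splitE (k : ℕ) (α β : K) (h : α ≠ β) :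
    ((Fin k ⊕ Fin k) ⊕ Fin 2 → K) ≃ₗ[K] (Fin (k + 1) ⊕ Fin (k + 1) → K) :=
  LinearMap.linearEquivOfInjective (splitL k α β) (splitL_injective k α β h) (by
    simp only [Module.finrank_fintype_fun_eq_card, Fintype.card_sum, Fintype.card_fin]; omega)

theorem splitE_apply (k : ℕ) (α β : K) (h : α ≠ β) (v : (Fin k ⊕ Fin k) ⊕ Fin 2 → K) :
    splitE k α β h v = splitL k α β v := rfl

end L

/-- `O⁻_{2m}(q)` embeds in `O⁺_{2m}(q²)` -/
theorem exists_minus_hom_plus {F K : Type*} [Field F] [Fintype F] [Field K] [Fintype K] {q : ℕ}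
    (hF : Fintype.card F = q) (hK : Fintype.card K = q ^ 2) (k : ℕ) (a c : F)
    (hac : ∀ z₁ z₂ : F, z₁ ^ 2 + a * z₁ * z₂ + c * z₂ ^ 2 = 0 → z₁ = 0 ∧ z₂ = 0) :
    ∃ φ : ↥(isometryGroup F (quadFormMinus k F a c)) →* ↥(isometryGroup K (quadFormPlus (k + 1) K)),
      Function.Injective φ := by
  classical
  obtain ⟨ι, α, β, hab, hmul⟩ := exists_embedding_with_roots hF hK a c
  have hne : α ≠ β := by
    intro h
    have h1 := aniso_disc_ne_zero a c hac
    apply h1
    apply ι.injective
    rw [map_zero, map_sub, map_mul, map_pow, ← hab, ← hmul, h, map_ofNat]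
    ring
  rw [← coe_qPlus, ← coe_qMinus]
  set E := splitE k α β hne with hE
  have hEq : ∀ v, qPlus (k + 1) K (E v) = qMinus k K (ι a) (ι c) v := by
    intro v
    rw [hE, splitE_apply, qPlus_splitL, hab, hmul]
  let T : ↥(isometryGroup F (qMinus k F a c)) → Module.End K (Fin (k + 1) ⊕ Fin (k + 1) → K) :=
    fun g => E.toLinearMap ∘ₗ
      Matrix.toLin' (Matrix.map (g.1.1) ι) ∘ₗ E.symm.toLinearMap
  have hT : ∀ g, IsIso (qPlus (k + 1) K) (T g) := by
    intro g x
    simp only [T, LinearMap.comp_apply, LinearEquiv.coe_coe, Matrix.toLin'_apply]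
    rw [hEq, map_preserves ι (qMinus k F a c) (qMinus k K (ι a) (ι c)) (qMinus_nat ι k a c) _
      (isometry_apply _ g), ← hEq, LinearEquiv.apply_symm_apply]
  have hTmul : ∀ g h, T (g * h) = T g * T h := by
    intro g h
    refine LinearMap.ext (fun x => ?_)
    simp only [T, LinearMap.comp_apply, LinearEquiv.coe_coe, Matrix.toLin'_apply, Module.End.mul_apply,
      LinearEquiv.symm_apply_apply, Subgroup.coe_mul, Units.val_mul, Matrix.map_mul,
      Matrix.mulVec_mulVec]
  refine ⟨MonoidHom.mk' (fun g => ofEnd _ (qPlus_nondegenerate (k + 1) K) (T g) (hT g)) ?_, ?_⟩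
  · intro g h
    apply toEnd_injective
    rw [map_mul, toEnd_ofEnd, toEnd_ofEnd, toEnd_ofEnd, hTmul]
  · intro g h hgh
    have h1 : T g = T h := by
      have := congrArg (toEnd _) hgh
      simpa only [MonoidHom.mk'_apply, toEnd_ofEnd] using this
    apply isometry_ext
    have h2 : Matrix.map (g.1.1) ι = Matrix.map (h.1.1) ι := by
      apply matrix_ext_mulVec
      intro x
      have := congrArg (fun f => E.symm (f (E x))) h1
      simpa only [T, LinearMap.comp_apply, LinearEquiv.coe_coe, Matrix.toLin'_apply,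
        LinearEquiv.symm_apply_apply] using this
    exact Matrix.map_injective ι.injective h2

end Cfsg.Agent.Lib.Helper14
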