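import Mathlib
import Cfsg.Agent.Lib.Helper14.MinusPlus
import Cfsg.Agent.Lib.Helper15.Count7
import Cfsg.Agent.Lib.Helper15.NormalForm

set_option autoImplicit false
open Cfsg
open scoped Matrix

namespace Cfsg.Agent.Lib.Helper14

open Cfsg.Agent.Lib.Helper15 Module

universe u v

section Iso

variable {F : Type u} {V : Type v} [Field F] [AddCommGroup V] [Module F V] [FiniteDimensional F V]

omit [FiniteDimensional F V] in
theorem equivFun_basis_eq_single {κ : Type*} [Fintype κ] [DecidableEq κ] (b : Module.Basis κ F V) (i : κ) :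
    b.equivFun (b i) = Pi.single i 1 := by
  ext j
  rw [b.equivFun_self, Pi.single_apply]
  by_cases h : i = j
  · subst h; simp
  · rw [if_neg h, if_neg (Ne.symm h)]

/-- a full hyperbolic family gives an isometry with the standard plus form -/
theorem exists_isometry_plus {Q : QuadraticForm F V} {k : ℕ} {e f : Fin (k + 1) → V}
    (h : IsHypFamily Q e f) (hV : finrank F V = 2 * (k + 1)) :
    ∃ L : V ≃ₗ[F] (Fin (k + 1) ⊕ Fin (k + 1) → F), ∀ v, qPlus (k + 1) F (L v) = Q v := by
  obtain ⟨b, hbe, hbf⟩ := h.exists_basis hV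
  obtain ⟨ha, hb, hc⟩ := h
  refine ⟨b.equivFun, ?_⟩
  have key : (qPlus (k + 1) F).comp (b.equivFun : V →ₗ[F] _) = Q := by
    apply quadForm_ext_basis b
    · intro i
      rw [QuadraticMap.comp_apply, LinearEquiv.coe_coe, equivFun_basis_eq_single]
      rcases i with i | i
      · rw [(isHypPair_qPlus (k + 1) F i).2.1, hbe, (ha i).1]
      · rw [(isHypPair_qPlus (k + 1) F i).2.2.1, hbf, (ha i).2]
    · intro i j
      have e1 : QuadraticMap.polar ((qPlus (k + 1) F).comp (b.equivFun : V →ₗ[F] _)) (b i) (b j) =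
          QuadraticMap.polar (qPlus (k + 1) F) (Pi.single i 1) (Pi.single j 1) := by
        simp only [QuadraticMap.polar, QuadraticMap.comp_apply, LinearEquiv.coe_coe, map_add,
          equivFun_basis_eq_single]
      rw [e1]
      rcases i with i | i
      · rw [(isHypPair_qPlus (k + 1) F i).2.2.2.1, hbe]
        rcases j with j | j
        · rw [hbe, (hc i j).1]; simp
        · rw [hbf, hb i j]
          by_cases hij : i = j
          · subst hij; simp
          · simp [hij, Ne.symm hij]
      · rw [(isHypPair_qPlus (k + 1) F i).2.2.2.2, hbf]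
        rcases j with j | j
        · rw [hbe, QuadraticMap.polar_comm, hb j i]
          by_cases hij : i = j
          · subst hij; simp
          · simp [hij, Ne.symm hij]
        · rw [hbf, (hc i j).2]; simp
  intro v
  have := congrArg (fun q => q v) key
  simpa using this

/-- hyperbolic pairs together with a plane `[1, a, c]` give an isometry with the standard minus form -/
theorem exists_isometry_minus {Q : QuadraticForm F V} {k : ℕ} {e f : Fin k → V} {x y : V} {a c : F}
    (h : IsHypFamily Q e f)
    (hxy : ∀ i, QuadraticMap.polar Q (e i) x = 0 ∧ QuadraticMap.polar Q (e i) y = 0 ∧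
      QuadraticMap.polar Q (f i) x = 0 ∧ QuadraticMap.polar Q (f i) y = 0)
    (h1 : Q x = 1) (h2 : QuadraticMap.polar Q x y = a) (h3 : Q y = c) (hd : 4 * c - a ^ 2 ≠ 0)
    (hV : finrank F V = 2 * (k + 1)) :
    ∃ L : V ≃ₗ[F] ((Fin k ⊕ Fin k) ⊕ Fin 2 → F), ∀ v, qMinus k F a c (L v) = Q v := by
  obtain ⟨ha, hb, hc⟩ := h
  have hli : LinearIndependent F (Sum.elim (Sum.elim e f) ![x, y]) := by
    apply linearIndependent_of_dual (QuadraticMap.polarBilin Q) _
      (Sum.elim (Sum.elim f e) ![(4 * c - a ^ 2)⁻¹ • ((2 * c) • x - a • y),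
        (4 * c - a ^ 2)⁻¹ • ((2 : F) • y - a • x)])
    rintro ((i | i) | i) ((j | j) | j)
    · simp [hb i j]
    · simp [(hc i j).1]
    · fin_cases j <;> simp [(hxy i).1, (hxy i).2.1]
    · simp [(hc i j).2]
    · simp [QuadraticMap.polar_comm Q (f i) (e j), hb j i, eq_comm]
    · fin_cases j <;> simp [(hxy i).2.2.1, (hxy i).2.2.2]
    · fin_cases i <;> simp [QuadraticMap.polar_comm Q _ (f j), (hxy j).2.2.1, (hxy j).2.2.2]
    · fin_cases i <;> simp [QuadraticMap.polar_comm Q _ (e j), (hxy j).1, (hxy j).2.1]
    · fin_cases i <;> fin_cases j <;>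
        simp [QuadraticMap.polar_self, h1, h2, h3, QuadraticMap.polar_comm Q y x] <;> field_simp <;>
        first
          | ring1
          | (right; ring1)
          | (right; trivial)
  obtain ⟨b, hb0⟩ : ∃ b : Module.Basis ((Fin k ⊕ Fin k) ⊕ Fin 2) F V,
      ⇑b = Sum.elim (Sum.elim e f) ![x, y] :=
    ⟨basisOfLinearIndependentOfCardEqFinrank hli (by simp [hV]; ring), by simp⟩
  have hbe : ∀ i, b (Sum.inl (Sum.inl i)) = e i := fun i => by rw [hb0]; rfl
  have hbf : ∀ i, b (Sum.inl (Sum.inr i)) = f i := fun i => by rw [hb0]; rfl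
  have hbx : b (Sum.inr 0) = x := by rw [hb0]; rfl
  have hby : b (Sum.inr 1) = y := by rw [hb0]; rfl
  refine ⟨b.equivFun, ?_⟩
  have key : (qMinus k F a c).comp (b.equivFun : V →ₗ[F] _) = Q := by
    apply quadForm_ext_basis b
    · intro i
      rw [QuadraticMap.comp_apply, LinearEquiv.coe_coe, equivFun_basis_eq_single]
      rcases i with (i | i) | i
      · rw [(isHypPair_qMinus k F a c i).2.1, hbe, (ha i).1]
      · rw [(isHypPair_qMinus k F a c i).2.2.1, hbf, (ha i).2]
      · fin_cases i
        · show qMinus k F a c (Pi.single (Sum.inr 0) 1) = Q (b (Sum.inr 0))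
          rw [hbx, h1, coe_qMinus]; simp [quadFormMinus]
        · show qMinus k F a c (Pi.single (Sum.inr 1) 1) = Q (b (Sum.inr 1))
          rw [hby, h3, coe_qMinus]; simp [quadFormMinus]
    · intro i j
      have e1 : QuadraticMap.polar ((qMinus k F a c).comp (b.equivFun : V →ₗ[F] _)) (b i) (b j) =
          QuadraticMap.polar (qMinus k F a c) (Pi.single i 1) (Pi.single j 1) := by
        simp only [QuadraticMap.polar, QuadraticMap.comp_apply, LinearEquiv.coe_coe, map_add,
          equivFun_basis_eq_single]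
      rw [e1]
      rcases i with (i | i) | i
      · rw [(isHypPair_qMinus k F a c i).2.2.2.1, hbe]
        rcases j with (j | j) | j
        · rw [hbe, (hc i j).1]; simp
        · rw [hbf, hb i j]
          by_cases hij : i = j
          · subst hij; simp
          · simp [hij, Ne.symm hij]
        · fin_cases j
          · show _ = QuadraticMap.polar Q (e i) (b (Sum.inr 0))
            rw [hbx, (hxy i).1]; simp
          · show _ = QuadraticMap.polar Q (e i) (b (Sum.inr 1))
            rw [hby, (hxy i).2.1]; simp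
      · rw [(isHypPair_qMinus k F a c i).2.2.2.2, hbf]
        rcases j with (j | j) | j
        · rw [hbe, QuadraticMap.polar_comm, hb j i]
          by_cases hij : i = j
          · subst hij; simp
          · simp [hij, Ne.symm hij]
        · rw [hbf, (hc i j).2]; simp
        · fin_cases j
          · show _ = QuadraticMap.polar Q (f i) (b (Sum.inr 0))
            rw [hbx, (hxy i).2.2.1]; simp
          · show _ = QuadraticMap.polar Q (f i) (b (Sum.inr 1))
            rw [hby, (hxy i).2.2.2]; simp
      · rcases j with (j | j) | j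
        · rw [QuadraticMap.polar_comm, (isHypPair_qMinus k F a c j).2.2.2.1, hbe,
            QuadraticMap.polar_comm Q]
          fin_cases i
          · show _ = QuadraticMap.polar Q (e j) (b (Sum.inr 0))
            rw [hbx, (hxy j).1]; simp
          · show _ = QuadraticMap.polar Q (e j) (b (Sum.inr 1))
            rw [hby, (hxy j).2.1]; simp
        · rw [QuadraticMap.polar_comm, (isHypPair_qMinus k F a c j).2.2.2.2, hbf,
            QuadraticMap.polar_comm Q]
          fin_cases i
          · show _ = QuadraticMap.polar Q (f j) (b (Sum.inr 0))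
            rw [hbx, (hxy j).2.2.1]; simp
          · show _ = QuadraticMap.polar Q (f j) (b (Sum.inr 1))
            rw [hby, (hxy j).2.2.2]; simp
        · rw [coe_qMinus, polar_quadFormMinus]
          fin_cases i <;> fin_cases j
          · show _ = QuadraticMap.polar Q (b (Sum.inr 0)) (b (Sum.inr 0))
            rw [hbx, QuadraticMap.polar_self, h1]; simp
          · show _ = QuadraticMap.polar Q (b (Sum.inr 0)) (b (Sum.inr 1))
            rw [hbx, hby, h2]; simp
          · show _ = QuadraticMap.polar Q (b (Sum.inr 1)) (b (Sum.inr 0))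
            rw [hbx, hby, QuadraticMap.polar_comm, h2]; simp
          · show _ = QuadraticMap.polar Q (b (Sum.inr 1)) (b (Sum.inr 1))
            rw [hby, QuadraticMap.polar_self, h3]; simp
  intro v
  have := congrArg (fun q => q v) key
  simpa using this

end Iso

section Typ

variable {F : Type u} {V : Type v} [Field F] [AddCommGroup V] [Module F V]

theorem zeros_eq_of_isometry {V' : Type*} [AddCommGroup V'] [Module F V'] (Q : QuadraticForm F V)
    (Q' : QuadraticForm F V') (L : V ≃ₗ[F] V') (h : ∀ v, Q' (L v) = Q v) : zeros Q = zeros Q' :=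
  Nat.card_congr (L.toEquiv.subtypeEquiv (fun v => by
    show Q v = 0 ↔ Q' (L v) = 0
    rw [h v]))

theorem aniso_of_ell (ζ : F) (hζ : ∀ t : F, t ^ 2 + t + ζ ≠ 0) (z₁ z₂ : F)
    (h : z₁ ^ 2 + 1 * z₁ * z₂ + ζ * z₂ ^ 2 = 0) : z₁ = 0 ∧ z₂ = 0 := by
  by_cases h2 : z₂ = 0
  · subst h2
    refine ⟨?_, rfl⟩
    have : z₁ ^ 2 = 0 := by linear_combination h
    exact pow_eq_zero_iff two_ne_zero |>.1 this
  · exfalso
    apply hζ (z₁ / z₂)
    field_simp
    linear_combination h

variable [Fintype F] [FiniteDimensional F V]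

theorem exists_hyp_of_zeros (k : ℕ) (Q : QuadraticForm F V)
    (hQ : (QuadraticMap.polarBilin Q).Nondegenerate) (hV : finrank F V = 2 * (k + 1))
    (hz : zeros Q + Fintype.card F ^ k = Fintype.card F ^ (k + 1) + Fintype.card F ^ (2 * k + 1)) :
    ∃ e f : Fin (k + 1) → V, IsHypFamily Q e f := by
  rcases even_nf k Q hQ hV with h | ⟨e, f, x, y, ζ, h⟩
  · exact h
  · exfalso
    have hq : 1 < Fintype.card F := Fintype.one_lt_card
    have han := aniso_of_ell ζ h.1
    obtain ⟨L, hL⟩ := exists_isometry_minus (a := 1) (c := ζ) h.2.1 h.2.2.1 h.2.2.2.1 h.2.2.2.2.1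
      h.2.2.2.2.2 (aniso_disc_ne_zero 1 ζ han) hV
    have h1 := zeros_eq_of_isometry Q _ L hL
    rw [(count_minus k 1 ζ han).1] at h1
    have h2 := zRec_two (Fintype.card F) k (by omega)
    have h3 : Fintype.card F ^ k < Fintype.card F ^ (k + 1) := Nat.pow_lt_pow_right hq (by omega)
    omega

theorem exists_ell_of_zeros (k : ℕ) (Q : QuadraticForm F V)
    (hQ : (QuadraticMap.polarBilin Q).Nondegenerate) (hV : finrank F V = 2 * (k + 1))
    (hz : zeros Q + Fintype.card F ^ (k + 1) = Fintype.card F ^ k + Fintype.card F ^ (2 * k + 1)) :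
    ∃ (e f : Fin k → V) (x y : V) (ζ : F), IsEllFamily Q e f x y ζ := by
  rcases even_nf k Q hQ hV with ⟨e, f, h⟩ | h
  · exfalso
    have hq : 1 < Fintype.card F := Fintype.one_lt_card
    obtain ⟨L, hL⟩ := exists_isometry_plus h hV
    have h1 := zeros_eq_of_isometry Q _ L hL
    rw [(count_plus (k + 1)).1] at h1
    have h2 := zRec_zero_succ (Fintype.card F) k (by omega)
    have h3 : Fintype.card F ^ k < Fintype.card F ^ (k + 1) := Nat.pow_lt_pow_right hq (by omega)
    omega
  · exact h

end Typ

section Hom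

variable {F : Type u} {V : Type v} [Field F] [AddCommGroup V] [Module F V]

/-- transport of an orthogonal representation to the matrix group of a standard form -/
theorem exists_hom_isometryGroup {G : Type*} [Group G] {κ : Type} [Fintype κ] [DecidableEq κ]
    (Q : QuadraticForm F V) (Q₀ : QuadraticForm F (κ → F))
    (hQ₀ : (QuadraticMap.polarBilin Q₀).Nondegenerate)
    (L : V ≃ₗ[F] (κ → F)) (hL : ∀ v, Q₀ (L v) = Q v) (ρ : G →* Module.End F V)
    (hρ : ∀ g v, Q (ρ g v) = Q v) (hinj : Function.Injective ρ) :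
    ∃ φ : G →* isometryGroup F Q₀, Function.Injective φ := by
  let T : G → Module.End F (κ → F) := fun g => L.toLinearMap ∘ₗ ρ g ∘ₗ L.symm.toLinearMap
  have hT : ∀ g, IsIso Q₀ (T g) := by
    intro g x
    simp only [T, LinearMap.comp_apply, LinearEquiv.coe_coe]
    rw [hL, hρ, ← hL, LinearEquiv.apply_symm_apply]
  have hTmul : ∀ g h, T (g * h) = T g * T h := by
    intro g h
    refine LinearMap.ext (fun x => ?_)
    simp only [T, LinearMap.comp_apply, LinearEquiv.coe_coe, Module.End.mul_apply,
      LinearEquiv.symm_apply_apply, map_mul]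
  refine ⟨MonoidHom.mk' (fun g => ofEnd _ hQ₀ (T g) (hT g)) ?_, ?_⟩
  · intro g h
    apply toEnd_injective
    rw [map_mul, toEnd_ofEnd, toEnd_ofEnd, toEnd_ofEnd, hTmul]
  · intro g h hgh
    have h1 : T g = T h := by
      have := congrArg (toEnd _) hgh
      simpa only [MonoidHom.mk'_apply, toEnd_ofEnd] using this
    apply hinj
    refine LinearMap.ext (fun x => ?_)
    have := congrArg (fun f => L.symm (f (L x))) h1
    simpa only [T, LinearMap.comp_apply, LinearEquiv.coe_coe, LinearEquiv.symm_apply_apply] using this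

/-- base change of isometry groups along a field embedding -/
theorem exists_baseChange_hom {K : Type*} [Field K] {n : Type} [Fintype n] [DecidableEq n] (ι : F →+* K)
    (QF : QuadraticForm F (n → F)) (QK : QuadraticForm K (n → K))
    (hQK : (QuadraticMap.polarBilin QK).Nondegenerate) (hnat : ∀ v, QK (ι ∘ v) = ι (QF v)) :
    ∃ φ : isometryGroup F QF →* isometryGroup K QK, Function.Injective φ := by
  let T : isometryGroup F QF → Module.End K (n → K) := fun g => Matrix.toLin' (Matrix.map (g.1.1) ι)
  have hT : ∀ g, IsIso QK (T g) := by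
    intro g x
    simp only [T, Matrix.toLin'_apply]
    exact map_preserves ι QF QK hnat _ (isometry_apply _ g) x
  have hTmul : ∀ g h, T (g * h) = T g * T h := by
    intro g h
    refine LinearMap.ext (fun x => ?_)
    simp only [T, Matrix.toLin'_apply, Module.End.mul_apply, Subgroup.coe_mul, Units.val_mul,
      Matrix.map_mul, Matrix.mulVec_mulVec]
  refine ⟨MonoidHom.mk' (fun g => ofEnd _ hQK (T g) (hT g)) ?_, ?_⟩
  · intro g h
    apply toEnd_injective
    rw [map_mul, toEnd_ofEnd, toEnd_ofEnd, toEnd_ofEnd, hTmul]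
  · intro g h hgh
    have h1 : T g = T h := by
      have := congrArg (toEnd _) hgh
      simpa only [MonoidHom.mk'_apply, toEnd_ofEnd] using this
    apply isometry_ext
    have h2 : Matrix.map (g.1.1) ι = Matrix.map (h.1.1) ι := Matrix.toLin'.injective h1
    exact Matrix.map_injective ι.injective h2

theorem qPlus_nat {K : Type*} [Field K] (ι : F →+* K) (k : ℕ) (v : Fin k ⊕ Fin k → F) :
    qPlus k K (ι ∘ v) = ι (qPlus k F v) := by
  rw [coe_qPlus, coe_qPlus]
  simp [quadFormPlus, map_sum]

end Hom

end Cfsg.Agent.Lib.Helper14
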