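import Mathlib
import Cfsg.Agent.Lib.Helper14.QuadEmbed
import Cfsg.Agent.Lib.Helper14.GUOrder

set_option autoImplicit false
open Cfsg
open scoped Matrix

namespace Cfsg.Agent.Lib.Helper14

open Cfsg.Agent.Lib.Helper15 Module

namespace GUO

/-- a quadratic extension with a chosen generator -/
structure Data (K F : Type*) [Field K] [Field F] (q : ℕ) where
  ι : F →+* K
  α : K
  a : F
  b : F
  hα : α ∉ Set.range ι
  ha : ι a = α + α ^ q
  hb : ι b = α * α ^ q

variable {K F : Type*} [Field K] [Field F] {q : ℕ} (D : Data K F q)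

theorem lin_indep (x y : F) (h : D.ι x + D.α * D.ι y = 0) : x = 0 ∧ y = 0 := by
  have hy : y = 0 := by
    by_contra hy
    apply D.hα
    refine ⟨-x / y, ?_⟩
    have hy' : D.ι y ≠ 0 := (map_ne_zero D.ι).2 hy
    rw [map_div₀, map_neg]
    field_simp
    linear_combination -h
  subst hy
  refine ⟨?_, rfl⟩
  rw [map_zero, mul_zero, add_zero] at h
  exact (map_eq_zero D.ι).1 h

/-- coordinates -/
def Phi0 (n : ℕ) (z : Fin n × Fin 2 → F) : Fin n → K := fun i => D.ι (z (i, 0)) + D.α * D.ι (z (i, 1))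

theorem Phi0_add (n : ℕ) (z w : Fin n × Fin 2 → F) : Phi0 D n (z + w) = Phi0 D n z + Phi0 D n w := by
  ext i
  simp only [Phi0, Pi.add_apply, map_add]
  ring

theorem Phi0_smul (n : ℕ) (c : F) (z : Fin n × Fin 2 → F) : Phi0 D n (c • z) = D.ι c • Phi0 D n z := by
  ext i
  simp only [Phi0, Pi.smul_apply, smul_eq_mul, map_mul]
  ring

theorem Phi0_injective (n : ℕ) : Function.Injective (Phi0 D n) := by
  intro z w h
  ext ⟨i, c⟩
  have h1 := congrFun h i
  simp only [Phi0] at h1
  have h2 := lin_indep D (z (i, 0) - w (i, 0)) (z (i, 1) - w (i, 1)) (by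
    rw [map_sub, map_sub]; linear_combination h1)
  fin_cases c
  · exact sub_eq_zero.1 h2.1
  · exact sub_eq_zero.1 h2.2

/-- the quadratic form `Σ N(v_i)` in coordinates -/
noncomputable def Qn (n : ℕ) : QuadraticForm F (Fin n × Fin 2 → F) :=
  ∑ i : Fin n, (QuadraticMap.linMulLin (LinearMap.proj (i, 0)) (LinearMap.proj (i, 0)) +
    D.a • QuadraticMap.linMulLin (LinearMap.proj (i, 0)) (LinearMap.proj (i, 1)) +
    D.b • QuadraticMap.linMulLin (LinearMap.proj (i, 1)) (LinearMap.proj (i, 1)))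

theorem Qn_apply (n : ℕ) (z : Fin n × Fin 2 → F) :
    Qn D n z = ∑ i : Fin n, (z (i, 0) * z (i, 0) + D.a * (z (i, 0) * z (i, 1)) + D.b * (z (i, 1) * z (i, 1))) := by
  simp [Qn]

theorem polar_Qn (n : ℕ) (z w : Fin n × Fin 2 → F) :
    QuadraticMap.polar (Qn D n) z w = ∑ i : Fin n, (2 * z (i, 0) * w (i, 0) +
      D.a * (z (i, 0) * w (i, 1) + z (i, 1) * w (i, 0)) + 2 * D.b * z (i, 1) * w (i, 1)) := by
  unfold QuadraticMap.polar
  rw [Qn_apply, Qn_apply, Qn_apply, ← Finset.sum_sub_distrib, ← Finset.sum_sub_distrib]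
  refine Finset.sum_congr rfl (fun i _ => ?_)
  simp only [Pi.add_apply]
  ring

section Fin

variable [Fintype K] [Fintype F]

theorem iota_pow (hF : Fintype.card F = q) (x : F) : D.ι x ^ q = D.ι x := by
  have h : x ^ q = x := by
    have := FiniteField.pow_card x
    rwa [hF] at this
  rw [← map_pow, h]

theorem iota_Qn (hK : Fintype.card K = q ^ 2) (hF : Fintype.card F = q) (n : ℕ) (z : Fin n × Fin 2 → F) :
    D.ι (Qn D n z) = hermForm n K q (Phi0 D n z) (Phi0 D n z) := by
  rw [Qn_apply, map_sum]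
  unfold hermForm
  refine Finset.sum_congr rfl (fun i _ => ?_)
  simp only [Phi0]
  rw [add_pow_q hK, mul_pow, iota_pow D hF, iota_pow D hF]
  simp only [map_add, map_mul, D.ha, D.hb]
  ring

theorem aniso (hK : Fintype.card K = q ^ 2) (hF : Fintype.card F = q) (z₁ z₂ : F)
    (h : z₁ ^ 2 + D.a * z₁ * z₂ + D.b * z₂ ^ 2 = 0) : z₁ = 0 ∧ z₂ = 0 := by
  apply lin_indep D
  have h1 : (D.ι z₁ + D.α * D.ι z₂) * (D.ι z₁ + D.α * D.ι z₂) ^ q = 0 := by
    rw [add_pow_q hK, mul_pow, iota_pow D hF, iota_pow D hF]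
    have := congrArg D.ι h
    simp only [map_add, map_mul, map_pow, D.ha, D.hb, map_zero] at this
    linear_combination this
  rcases mul_eq_zero.1 h1 with h2 | h2
  · exact h2
  · exact pow_eq_zero_iff (q_ne_zero hK) |>.1 h2

theorem Qn_nondegenerate (hK : Fintype.card K = q ^ 2) (hF : Fintype.card F = q) (n : ℕ) :
    (QuadraticMap.polarBilin (Qn D n)).Nondegenerate := by
  have hd := aniso_disc_ne_zero D.a D.b (aniso D hK hF)
  have key : ∀ z, (∀ w, QuadraticMap.polar (Qn D n) z w = 0) → z = 0 := by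
    intro z hz
    have h0 : ∀ i, 2 * z (i, 0) + D.a * z (i, 1) = 0 := by
      intro i
      have := hz (Pi.single (i, 0) 1)
      rw [polar_Qn, Finset.sum_eq_single i] at this
      · simpa using this
      · intro j _ hj
        simp [Pi.single_apply, hj]
      · simp
    have h1 : ∀ i, D.a * z (i, 0) + 2 * D.b * z (i, 1) = 0 := by
      intro i
      have := hz (Pi.single (i, 1) 1)
      rw [polar_Qn, Finset.sum_eq_single i] at this
      · simpa using this
      · intro j _ hj
        simp [Pi.single_apply, hj]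
      · simp
    ext ⟨i, c⟩
    have e0 : (4 * D.b - D.a ^ 2) * z (i, 0) = 0 := by linear_combination (2 * D.b) * h0 i - D.a * h1 i
    have e1 : (4 * D.b - D.a ^ 2) * z (i, 1) = 0 := by linear_combination 2 * h1 i - D.a * h0 i
    fin_cases c
    · exact (mul_eq_zero.1 e0).resolve_left hd
    · exact (mul_eq_zero.1 e1).resolve_left hd
  exact ⟨key, fun y hy => key y fun x => by
    have := hy x
    simp only [QuadraticMap.polarBilin_apply_apply] at this
    rw [QuadraticMap.polar_comm]; exact this⟩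

theorem Phi0_bijective (hK : Fintype.card K = q ^ 2) (hF : Fintype.card F = q) (n : ℕ) :
    Function.Bijective (Phi0 D n) := by
  rw [Fintype.bijective_iff_injective_and_card]
  refine ⟨Phi0_injective D n, ?_⟩
  simp only [Fintype.card_pi, Finset.prod_const, Finset.card_univ, Fintype.card_prod, Fintype.card_fin,
    hK, hF]
  rw [← pow_mul, mul_comm]

/-- coordinates as an equivalence -/
noncomputable def Phi (hK : Fintype.card K = q ^ 2) (hF : Fintype.card F = q) (n : ℕ) :
    (Fin n × Fin 2 → F) ≃ (Fin n → K) := Equiv.ofBijective _ (Phi0_bijective D hK hF n)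

theorem Phi_apply (hK : Fintype.card K = q ^ 2) (hF : Fintype.card F = q) (n : ℕ) (z : Fin n × Fin 2 → F) :
    Phi D hK hF n z = Phi0 D n z := rfl

theorem zeros_Qn (hK : Fintype.card K = q ^ 2) (hF : Fintype.card F = q) (n : ℕ) :
    zeros (Qn D n) = Nat.card {v : Fin n → K // hermForm n K q v v = 0} := by
  refine Nat.card_congr ((Phi D hK hF n).subtypeEquiv (fun z => ?_))
  rw [Phi_apply, ← iota_Qn D hK hF, map_eq_zero D.ι]

/-- the `F`-linear map induced by a `K`-matrix -/
noncomputable def rhoMat (hK : Fintype.card K = q ^ 2) (hF : Fintype.card F = q) (n : ℕ)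
    (A : Matrix (Fin n) (Fin n) K) : Module.End F (Fin n × Fin 2 → F) where
  toFun z := (Phi D hK hF n).symm (A *ᵥ Phi D hK hF n z)
  map_add' z w := by
    apply (Phi D hK hF n).injective
    rw [Equiv.apply_symm_apply, Phi_apply, Phi_apply D hK hF n (_ + _), Phi0_add, Phi0_add,
      ← Phi_apply D hK hF, ← Phi_apply D hK hF, ← Phi_apply D hK hF, ← Phi_apply D hK hF,
      Equiv.apply_symm_apply, Equiv.apply_symm_apply, Matrix.mulVec_add]
  map_smul' c z := by
    apply (Phi D hK hF n).injective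
    rw [Equiv.apply_symm_apply, Phi_apply, RingHom.id_apply, Phi_apply D hK hF n (_ • _), Phi0_smul,
      Phi0_smul, ← Phi_apply D hK hF, ← Phi_apply D hK hF, Equiv.apply_symm_apply, Matrix.mulVec_smul]

theorem Phi_rhoMat (hK : Fintype.card K = q ^ 2) (hF : Fintype.card F = q) (n : ℕ)
    (A : Matrix (Fin n) (Fin n) K) (z : Fin n × Fin 2 → F) :
    Phi D hK hF n (rhoMat D hK hF n A z) = A *ᵥ Phi D hK hF n z :=
  Equiv.apply_symm_apply _ _

/-- the representation of `GU_n(q)` on `F^{2n}` -/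
noncomputable def rho (hK : Fintype.card K = q ^ 2) (hF : Fintype.card F = q) (n : ℕ) :
    GU n K q →* Module.End F (Fin n × Fin 2 → F) where
  toFun g := rhoMat D hK hF n g.1.1
  map_one' := by
    refine LinearMap.ext (fun z => ?_)
    apply (Phi D hK hF n).injective
    rw [Phi_rhoMat]
    simp
  map_mul' g h := by
    refine LinearMap.ext (fun z => ?_)
    apply (Phi D hK hF n).injective
    rw [Phi_rhoMat, Module.End.mul_apply, Phi_rhoMat, Phi_rhoMat, Matrix.mulVec_mulVec]
    rfl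

theorem rho_injective (hK : Fintype.card K = q ^ 2) (hF : Fintype.card F = q) (n : ℕ) :
    Function.Injective (rho D hK hF n) := by
  intro g h hgh
  apply Subtype.ext
  apply Units.ext
  apply matrix_ext_mulVec
  intro v
  obtain ⟨z, rfl⟩ := (Phi D hK hF n).surjective v
  have := congrArg (fun f => Phi D hK hF n (f z)) hgh
  simp only [rho, MonoidHom.coe_mk, OneHom.coe_mk, Phi_rhoMat] at this
  exact this

theorem Qn_rho (hK : Fintype.card K = q ^ 2) (hF : Fintype.card F = q) (n : ℕ) (g : GU n K q)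
    (z : Fin n × Fin 2 → F) : Qn D n (rho D hK hF n g z) = Qn D n z := by
  apply D.ι.injective
  rw [iota_Qn D hK hF, iota_Qn D hK hF, ← Phi_apply D hK hF, ← Phi_apply D hK hF]
  show hermForm n K q (Phi D hK hF n (rhoMat D hK hF n g.1.1 z)) (Phi D hK hF n (rhoMat D hK hF n g.1.1 z)) = _
  rw [Phi_rhoMat, gu_preserves]

theorem finrank_eq (n : ℕ) : finrank F (Fin n × Fin 2 → F) = 2 * n := by
  rw [Module.finrank_fintype_fun_eq_card, Fintype.card_prod, Fintype.card_fin, Fintype.card_fin, mul_comm]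

/-- for even `n` the form is hyperbolic -/
theorem exists_hyp (hK : Fintype.card K = q ^ 2) (hF : Fintype.card F = q) (n : ℕ) (hn : Even n) :
    ∃ e f : Fin n → (Fin n × Fin 2 → F), IsHypFamily (Qn D n) e f := by
  rcases n with _ | k
  · exact ⟨fun i => i.elim0, fun i => i.elim0, fun i => i.elim0, fun i => i.elim0, fun i => i.elim0⟩
  · apply exists_hyp_of_zeros k (Qn D (k + 1)) (Qn_nondegenerate D hK hF _) (finrank_eq _)
    rw [zeros_Qn D hK hF, card_herm_zero hK, if_pos hn, hF, Nat.add_sub_cancel]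
    have hq := q_ge_two hK
    obtain ⟨A, hA⟩ : ∃ A, q ^ (k + 1) = A + 1 := ⟨q ^ (k + 1) - 1, by
      have : 0 < q ^ (k + 1) := by positivity
      omega⟩
    have e1 : q ^ (2 * k + 1) = q ^ (k + 1) * q ^ k := by rw [← pow_add]; congr 1; ring
    rw [e1, hA, Nat.add_sub_cancel]
    ring

theorem mem_range_of_pow (ι : F →+* K) (hF : Fintype.card F = q) (x : K) (hx : x ^ q = x) :
    x ∈ Set.range ι := by
  letI := ι.toAlgebra
  exact mem_range_algebraMap_of_pow_card (F := F) x (by rw [hF]; exact hx)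

theorem exists_data (hK : Fintype.card K = q ^ 2) (hF : Fintype.card F = q) : Nonempty (Data K F q) := by
  obtain ⟨ι⟩ := exists_ringHom_of_card hF hK two_ne_zero
  have hq := q_ge_two hK
  obtain ⟨α, hα⟩ : ∃ α, α ∉ Set.range ι := by
    by_contra hcon
    push Not at hcon
    have := Fintype.card_le_of_surjective ι hcon
    rw [hK, hF] at this
    nlinarith
  obtain ⟨a, ha⟩ := mem_range_of_pow ι hF (α + α ^ q) (by rw [add_pow_q hK, pow_q_q hK]; ring)
  obtain ⟨b, hb⟩ := mem_range_of_pow ι hF (α * α ^ q) (by rw [mul_pow, pow_q_q hK]; ring)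
  exact ⟨⟨ι, α, a, b, hα, ha, hb⟩⟩

theorem exists_data_of_aniso (hK : Fintype.card K = q ^ 2) (hF : Fintype.card F = q) (a b : F)
    (hab : ∀ z₁ z₂ : F, z₁ ^ 2 + a * z₁ * z₂ + b * z₂ ^ 2 = 0 → z₁ = 0 ∧ z₂ = 0) :
    ∃ D : Data K F q, D.a = a ∧ D.b = b := by
  obtain ⟨ι, α, β, h1, h2⟩ := exists_embedding_with_roots hF hK a b
  have hα : α ∉ Set.range ι := by
    rintro ⟨r, rfl⟩
    have hβ : β = ι (a - r) := by rw [map_sub]; linear_combination h1
    rw [hβ, ← map_mul] at h2
    have h3 := ι.injective h2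
    have := hab (-r) 1 (by linear_combination -h3)
    exact one_ne_zero this.2
  have hpow : ∀ x : F, ι x ^ q = ι x := by
    intro x
    have h : x ^ q = x := by
      have := FiniteField.pow_card x
      rwa [hF] at this
    rw [← map_pow, h]
  have hβ : α ^ q = β := by
    have e0 : α * α - ι a * α + ι b = 0 := by rw [← h1, ← h2]; ring
    have e1 : α ^ q * α ^ q - ι a * α ^ q + ι b = 0 := by
      have := congrArg (fun x => x ^ q) e0
      simp only [add_pow_q hK, sub_pow_q hK, mul_pow, hpow] at this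
      rw [this, zero_pow (q_ne_zero hK)]
    have e2 : (α ^ q - α) * (α ^ q - β) = 0 := by
      rw [← h1, ← h2] at e1
      linear_combination e1
    rcases mul_eq_zero.1 e2 with e3 | e3
    · exact absurd (mem_range_of_pow ι hF α (sub_eq_zero.1 e3)) hα
    · exact sub_eq_zero.1 e3
  exact ⟨⟨ι, α, a, b, hα, by rw [hβ, h1], by rw [hβ, h2]⟩, rfl, rfl⟩

/-- `GU_m(q) ≤ O⁺_{2m}(q)` for even `m` -/
theorem exists_gu_hom_plus (hK : Fintype.card K = q ^ 2) (hF : Fintype.card F = q) (m : ℕ) (hm : Even m) :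
    ∃ φ : GU m K q →* isometryGroup F (quadFormPlus m F), Function.Injective φ := by
  rcases m with _ | k
  · refine ⟨1, fun g h _ => ?_⟩
    exact Subtype.ext (Units.ext (Matrix.ext (fun i => i.elim0)))
  · obtain ⟨D⟩ := exists_data hK hF
    obtain ⟨e, f, h⟩ := exists_hyp D hK hF (k + 1) hm
    obtain ⟨L, hL⟩ := exists_isometry_plus h (finrank_eq _)
    rw [← coe_qPlus]
    exact exists_hom_isometryGroup (Qn D (k + 1)) _ (qPlus_nondegenerate _ _) L hL (rho D hK hF _)
      (Qn_rho D hK hF _) (rho_injective D hK hF _)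

omit [Fintype K] [Fintype F] in
/-- extension by zero -/
def ext0 (n : ℕ) : (Fin n × Fin 2 → F) →ₗ[F] (Fin (n + 1) × Fin 2 → F) where
  toFun w := fun p => Fin.cases 0 (fun j => w (j, p.2)) p.1
  map_add' w w' := by
    ext ⟨i, c⟩
    refine Fin.cases ?_ (fun j => ?_) i <;> simp
  map_smul' t w := by
    ext ⟨i, c⟩
    refine Fin.cases ?_ (fun j => ?_) i <;> simp

omit [Fintype K] [Fintype F] in
theorem ext0_zero (n : ℕ) (w : Fin n × Fin 2 → F) (c : Fin 2) : ext0 n w (0, c) = 0 := rfl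

omit [Fintype K] [Fintype F] in
theorem ext0_succ (n : ℕ) (w : Fin n × Fin 2 → F) (j : Fin n) (c : Fin 2) :
    ext0 n w (j.succ, c) = w (j, c) := rfl

omit [Fintype K] [Fintype F] in
theorem Qn_ext0 (n : ℕ) (w : Fin n × Fin 2 → F) : Qn D (n + 1) (ext0 n w) = Qn D n w := by
  rw [Qn_apply, Qn_apply, Fin.sum_univ_succ]
  simp only [ext0_zero, ext0_succ]
  ring

omit [Fintype K] [Fintype F] in
theorem polar_ext0 (n : ℕ) (w w' : Fin n × Fin 2 → F) :
    QuadraticMap.polar (Qn D (n + 1)) (ext0 n w) (ext0 n w') = QuadraticMap.polar (Qn D n) w w' := by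
  unfold QuadraticMap.polar
  rw [← map_add, Qn_ext0, Qn_ext0, Qn_ext0]

omit [Fintype K] [Fintype F] in
theorem polar_ext0_single (n : ℕ) (w : Fin n × Fin 2 → F) (c : Fin 2) :
    QuadraticMap.polar (Qn D (n + 1)) (ext0 n w) (Pi.single (0, c) 1) = 0 := by
  rw [polar_Qn, Fin.sum_univ_succ]
  simp only [ext0_zero]
  rw [Finset.sum_eq_zero]
  · ring
  · intro j _
    have h : ∀ c', (Pi.single ((0 : Fin (n + 1)), c) (1 : F) : Fin (n + 1) × Fin 2 → F) (j.succ, c') = 0 := by
      intro c'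
      rw [Pi.single_apply, if_neg]
      intro h
      exact Fin.succ_ne_zero j (congrArg Prod.fst h)
    rw [h, h]
    ring

/-- `GU_m(q) ≤ O⁻_{2m}(q)` for odd `m` -/
theorem exists_gu_hom_minus (hK : Fintype.card K = q ^ 2) (hF : Fintype.card F = q) (n : ℕ) (hn : Even n)
    (a b : F) (hab : ∀ z₁ z₂ : F, z₁ ^ 2 + a * z₁ * z₂ + b * z₂ ^ 2 = 0 → z₁ = 0 ∧ z₂ = 0) :
    ∃ φ : GU (n + 1) K q →* isometryGroup F (quadFormMinus n F a b), Function.Injective φ := by
  obtain ⟨D, rfl, rfl⟩ := exists_data_of_aniso hK hF a b hab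
  obtain ⟨e, f, ha, hb, hc⟩ := exists_hyp D hK hF n hn
  have hfam : IsHypFamily (Qn D (n + 1)) (fun i => ext0 n (e i)) (fun i => ext0 n (f i)) :=
    ⟨fun i => ⟨by rw [Qn_ext0]; exact (ha i).1, by rw [Qn_ext0]; exact (ha i).2⟩,
      fun i j => by rw [polar_ext0]; exact hb i j,
      fun i j => ⟨by rw [polar_ext0]; exact (hc i j).1, by rw [polar_ext0]; exact (hc i j).2⟩⟩
  obtain ⟨L, hL⟩ := exists_isometry_minus (Q := Qn D (n + 1)) (x := Pi.single (0, 0) 1)
    (y := Pi.single (0, 1) 1) (a := D.a) (c := D.b) hfam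
    (fun i => ⟨polar_ext0_single D n _ 0, polar_ext0_single D n _ 1, polar_ext0_single D n _ 0,
      polar_ext0_single D n _ 1⟩)
    (by
      rw [Qn_apply, Finset.sum_eq_single 0]
      · simp
      · intro j _ hj
        simp [hj]
      · simp)
    (by
      rw [polar_Qn, Finset.sum_eq_single 0]
      · simp
      · intro j _ hj
        simp [hj]
      · simp)
    (by
      rw [Qn_apply, Finset.sum_eq_single 0]
      · simp
      · intro j _ hj
        simp [hj]
      · simp)
    (aniso_disc_ne_zero D.a D.b hab) (finrank_eq _)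
  rw [← coe_qMinus]
  exact exists_hom_isometryGroup (Qn D (n + 1)) _ (qMinus_nondegenerate _ _ _ hab) L hL (rho D hK hF _)
    (Qn_rho D hK hF _) (rho_injective D hK hF _)

end Fin

end GUO

end Cfsg.Agent.Lib.Helper14
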