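import Mathlib
import Cfsg.Prelude.Def_Classical

set_option autoImplicit false

namespace Cfsg.Agent.Lib.Helper14

/-- the nontrivial character of `ZMod 2` -/
def chi2 (a : ZMod 2) : ℤ := if a = 0 then 1 else -1

theorem chi2_add (a b : ZMod 2) : chi2 (a + b) = chi2 a * chi2 b := by
  revert a b; decide

theorem chi2_zero : chi2 0 = 1 := rfl
theorem chi2_one : chi2 1 = -1 := rfl

theorem chi2_eq_one_iff (a : ZMod 2) : chi2 a = 1 ↔ a = 0 := by
  revert a; decide

theorem zmod2_add_self (a : ZMod 2) : a + a = 0 := by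
  revert a; decide

theorem zmod2_ne_zero (a : ZMod 2) : a ≠ 0 ↔ a = 1 := by
  revert a; decide

section

variable {V : Type*} [AddCommGroup V] [Fintype V]

/-- the Gauss sum of a function to `ZMod 2` -/
def gaussSum (q : V → ZMod 2) : ℤ := ∑ v, chi2 (q v)

theorem sum_chi2_additive (g : V → ZMod 2) (hg : ∀ u v, g (u + v) = g u + g v) (u₀ : V) (h0 : g u₀ = 1) :
    ∑ u, chi2 (g u) = 0 := by
  have h1 : ∑ u, chi2 (g u) = ∑ u, chi2 (g (u + u₀)) :=
    (Fintype.sum_equiv (Equiv.addRight u₀) _ _ (fun u => rfl)).symm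
  have h2 : ∑ u, chi2 (g (u + u₀)) = - ∑ u, chi2 (g u) := by
    rw [← Finset.sum_neg_distrib]
    apply Finset.sum_congr rfl
    intro u _
    rw [hg, h0, chi2_add, chi2_one]; ring
  omega

theorem gaussSum_sq (f : V → V → ZMod 2) (hf1 : ∀ u u' t, f (u + u') t = f u t + f u' t)
    (hnd : ∀ t, t ≠ 0 → ∃ u, f u t = 1) (hf0 : ∀ u, f u 0 = 0)
    (q : V → ZMod 2) (hq : ∀ u v, q (u + v) = q u + q v + f u v) :
    gaussSum q * gaussSum q = Fintype.card V := by
  classical
  have hq0 : q 0 = 0 := by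
    have := hq 0 0
    rw [add_zero, hf0, add_zero] at this
    have h2 := zmod2_add_self (q 0)
    rw [← this] at h2; exact h2
  unfold gaussSum
  rw [Finset.sum_mul_sum]
  have h1 : ∀ u : V, ∑ v, chi2 (q u) * chi2 (q v) = ∑ t, chi2 (q t) * chi2 (f u t) := by
    intro u
    rw [← Fintype.sum_equiv (Equiv.addLeft u) (fun t => chi2 (q u) * chi2 (q (u + t))) _ (fun t => rfl)]
    apply Finset.sum_congr rfl
    intro t _
    rw [← chi2_add, ← chi2_add, hq]
    congr 1
    have := zmod2_add_self (q u)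
    calc q u + (q u + q t + f u t) = (q u + q u) + (q t + f u t) := by ring
      _ = q t + f u t := by rw [this, zero_add]
  rw [Finset.sum_congr rfl (fun u _ => h1 u), Finset.sum_comm]
  have h2 : ∀ t : V, ∑ u, chi2 (q t) * chi2 (f u t) = if t = 0 then (Fintype.card V : ℤ) else 0 := by
    intro t
    rw [← Finset.mul_sum]
    split_ifs with ht
    · subst ht
      simp [hq0, hf0, chi2_zero]
    · obtain ⟨u₀, hu₀⟩ := hnd t ht
      rw [sum_chi2_additive (fun u => f u t) (fun u v => hf1 u v t) u₀ hu₀, mul_zero]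
  rw [Finset.sum_congr rfl (fun t _ => h2 t)]
  simp

theorem gaussSum_ne_zero [Nonempty V] (f : V → V → ZMod 2) (hf1 : ∀ u u' t, f (u + u') t = f u t + f u' t)
    (hnd : ∀ t, t ≠ 0 → ∃ u, f u t = 1) (hf0 : ∀ u, f u 0 = 0)
    (q : V → ZMod 2) (hq : ∀ u v, q (u + v) = q u + q v + f u v) : gaussSum q ≠ 0 := by
  intro h
  have := gaussSum_sq f hf1 hnd hf0 q hq
  rw [h, mul_zero] at this
  have h2 : 0 < Fintype.card V := Fintype.card_pos
  omega

theorem gaussSum_comp_equiv {W : Type*} [AddCommGroup W] [Fintype W] (q : W → ZMod 2) (g : V ≃ W) :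
    gaussSum (fun v => q (g v)) = gaussSum q :=
  Fintype.sum_equiv g _ _ (fun _ => rfl)

theorem gaussSum_translate (f : V → V → ZMod 2) (q : V → ZMod 2) (hq : ∀ u v, q (u + v) = q u + q v + f u v) (w : V) :
    gaussSum (fun v => q v + f v w) = chi2 (q w) * gaussSum q := by
  unfold gaussSum
  have h : ∑ v, chi2 (q v) = ∑ v, chi2 (q (v + w)) :=
    (Fintype.sum_equiv (Equiv.addRight w) _ _ (fun _ => rfl)).symm
  rw [h, Finset.mul_sum]
  apply Finset.sum_congr rfl
  intro v _
  rw [← chi2_add, hq]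
  congr 1
  have := zmod2_add_self (q w)
  calc q v + f v w = (q w + q w) + (q v + f v w) := by rw [this, zero_add]
    _ = _ := by ring

end

section plus

variable {F : Type*} [Field F] (m : ℕ)

theorem polar_quadFormPlus (u v : Fin m ⊕ Fin m → F) :
    Cfsg.quadFormPlus m F (u + v) - Cfsg.quadFormPlus m F u - Cfsg.quadFormPlus m F v =
      ∑ i : Fin m, (u (.inl i) * v (.inr i) + v (.inl i) * u (.inr i)) := by
  unfold Cfsg.quadFormPlus
  rw [← Finset.sum_sub_distrib, ← Finset.sum_sub_distrib]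
  apply Finset.sum_congr rfl
  intro i _
  simp only [Pi.add_apply]
  ring

/-- the polar form of the plus type form -/
def pf (u v : Fin m ⊕ Fin m → F) : F :=
  Cfsg.quadFormPlus m F (u + v) - Cfsg.quadFormPlus m F u - Cfsg.quadFormPlus m F v

theorem pf_eq (u v : Fin m ⊕ Fin m → F) :
    pf m u v = ∑ i : Fin m, (u (.inl i) * v (.inr i) + v (.inl i) * u (.inr i)) := polar_quadFormPlus m u v

theorem pf_add_left (u u' v : Fin m ⊕ Fin m → F) : pf m (u + u') v = pf m u v + pf m u' v := by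
  rw [pf_eq, pf_eq, pf_eq, ← Finset.sum_add_distrib]
  apply Finset.sum_congr rfl
  intro i _
  simp only [Pi.add_apply]; ring

theorem pf_comm (u v : Fin m ⊕ Fin m → F) : pf m u v = pf m v u := by
  rw [pf_eq, pf_eq]
  apply Finset.sum_congr rfl
  intro i _
  ring

theorem pf_add_right (u v v' : Fin m ⊕ Fin m → F) : pf m u (v + v') = pf m u v + pf m u v' := by
  rw [pf_comm, pf_add_left, pf_comm, pf_comm m v']

theorem pf_smul_left (c : F) (u v : Fin m ⊕ Fin m → F) : pf m (c • u) v = c * pf m u v := by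
  rw [pf_eq, pf_eq, Finset.mul_sum]
  apply Finset.sum_congr rfl
  intro i _
  simp only [Pi.smul_apply, smul_eq_mul]; ring

theorem pf_zero_right (u : Fin m ⊕ Fin m → F) : pf m u 0 = 0 := by
  rw [pf_eq]; simp

theorem pf_nondeg (t : Fin m ⊕ Fin m → F) (ht : t ≠ 0) : ∃ u, pf m u t = 1 := by
  classical
  have : ∃ x, t x ≠ 0 := by
    by_contra h
    push Not at h
    exact ht (funext h)
  obtain ⟨x, hx⟩ := this
  rcases x with i | i
  · refine ⟨Pi.single (Sum.inr i) (t (Sum.inl i))⁻¹, ?_⟩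
    rw [pf_eq, Finset.sum_eq_single i]
    · simp [hx]
    · intro j _ hj
      simp [hj]
    · simp
  · refine ⟨Pi.single (Sum.inl i) (t (Sum.inr i))⁻¹, ?_⟩
    rw [pf_eq, Finset.sum_eq_single i]
    · simp [hx]
    · intro j _ hj
      simp [hj]
    · simp

end plus

end Cfsg.Agent.Lib.Helper14
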