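import Cfsg.Agent.Lib.Helper14.GaussTwo

set_option autoImplicit false

namespace Cfsg.Agent.Lib.Helper14

section

variable {V : Type*} [AddCommGroup V] [Fintype V]

open Classical in
/-- totally singular subgroups: cardinality bound, and sign of the Gauss sum in the extremal case -/
theorem totallySingular_card (f : V → V → ZMod 2) (hf1 : ∀ u u' t, f (u + u') t = f u t + f u' t)
    (hf2 : ∀ u t t', f u (t + t') = f u t + f u t')
    (hnd : ∀ t, t ≠ 0 → ∃ u, f u t = 1)
    (q : V → ZMod 2) (hq : ∀ u v, q (u + v) = q u + q v + f u v)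
    (U : AddSubgroup V) (hU : ∀ u ∈ U, q u = 0) :
    Nat.card U * Nat.card U ≤ Fintype.card V ∧
      (Nat.card U * Nat.card U = Fintype.card V → gaussSum q = Nat.card U) := by
  have hf0 : ∀ u, f u 0 = 0 := by
    intro u
    have := hf2 u 0 0
    rw [add_zero] at this
    have h2 := zmod2_add_self (f u 0)
    rw [← this] at h2; exact h2
  set P : Finset V := Finset.univ.filter (fun v => ∀ u ∈ U, f v u = 0) with hP
  have hcardU : (Nat.card U : ℤ) = Fintype.card U := by rw [Nat.card_eq_fintype_card]
  have L1 : ∀ v : V, ∑ u : U, chi2 (f v u) = if v ∈ P then (Fintype.card U : ℤ) else 0 := by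
    intro v
    split_ifs with hv
    · have hv' : ∀ u ∈ U, f v u = 0 := (Finset.mem_filter.mp hv).2
      rw [Finset.sum_congr rfl (fun (u : U) _ => by rw [hv' u u.2, chi2_zero])]
      simp
    · have hv' : ∃ u ∈ U, f v u ≠ 0 := by
        by_contra h
        push Not at h
        exact hv (Finset.mem_filter.mpr ⟨Finset.mem_univ _, h⟩)
      obtain ⟨u₀, hu₀, hne⟩ := hv'
      exact sum_chi2_additive (fun u : U => f v u) (fun a b => by simp [hf2]) ⟨u₀, hu₀⟩ ((zmod2_ne_zero _).mp hne)
  have L2 : ∑ v : V, ∑ u : U, chi2 (f v u) = Fintype.card V := by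
    rw [Finset.sum_comm]
    have : ∀ u : U, ∑ v : V, chi2 (f v u) = if u = 0 then (Fintype.card V : ℤ) else 0 := by
      intro u
      split_ifs with hu
      · subst hu
        simp [hf0, chi2_zero]
      · have hu' : (u : V) ≠ 0 := fun h => hu (Subtype.ext h)
        obtain ⟨v₀, hv₀⟩ := hnd u hu'
        exact sum_chi2_additive (fun v => f v u) (fun a b => hf1 a b u) v₀ hv₀
    rw [Finset.sum_congr rfl (fun u _ => this u)]
    simp
  have L2' : (P.card : ℤ) * Fintype.card U = Fintype.card V := by
    rw [← L2, Finset.sum_congr rfl (fun v _ => L1 v), Finset.sum_ite_mem]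
    simp
  have L3 : (Fintype.card U : ℤ) * gaussSum q = Fintype.card U * ∑ v ∈ P, chi2 (q v) := by
    have h1 : (Fintype.card U : ℤ) * gaussSum q = ∑ u : U, ∑ v : V, chi2 (q (v + u)) := by
      have : ∀ u : U, ∑ v : V, chi2 (q (v + u)) = gaussSum q := by
        intro u
        exact Fintype.sum_equiv (Equiv.addRight (u : V)) _ _ (fun _ => rfl)
      rw [Finset.sum_congr rfl (fun u _ => this u)]
      simp
    rw [h1, Finset.sum_comm]
    have h2 : ∀ v : V, ∑ u : U, chi2 (q (v + u)) = chi2 (q v) * ∑ u : U, chi2 (f v u) := by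
      intro v
      rw [Finset.mul_sum]
      apply Finset.sum_congr rfl
      intro u _
      rw [hq, hU u u.2, add_zero, chi2_add]
    rw [Finset.sum_congr rfl (fun v _ => h2 v), Finset.sum_congr rfl (fun v _ => by rw [L1 v])]
    rw [Finset.mul_sum]
    simp only [mul_ite, mul_zero]
    rw [Finset.sum_ite_mem]
    simp only [Finset.univ_inter]
    apply Finset.sum_congr rfl
    intro v _; ring
  have hUP : ∀ u ∈ U, u ∈ P := by
    intro u hu
    refine Finset.mem_filter.mpr ⟨Finset.mem_univ _, ?_⟩
    intro u' hu'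
    have := hq u u'
    rw [hU u hu, hU u' hu', hU _ (U.add_mem hu hu')] at this
    simpa using this.symm
  set UF : Finset V := Finset.univ.filter (fun v => v ∈ U) with hUF
  have hUFcard : UF.card = Fintype.card U := by
    rw [hUF, Fintype.card_subtype]
  have hsub : UF ⊆ P := by
    intro v hv
    exact hUP v (Finset.mem_filter.mp hv).2
  have hle : Fintype.card U ≤ P.card := by
    rw [← hUFcard]; exact Finset.card_le_card hsub
  have hUpos : 0 < Fintype.card U := Fintype.card_pos
  have L2'' : P.card * Fintype.card U = Fintype.card V := by exact_mod_cast L2'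
  rw [Nat.card_eq_fintype_card]
  constructor
  · rw [← L2'']
    exact Nat.mul_le_mul_right _ hle
  · intro heq
    have hPU : P.card = Fintype.card U := by
      rw [← L2''] at heq
      exact (Nat.eq_of_mul_eq_mul_right hUpos heq).symm
    have hPeq : UF = P := Finset.eq_of_subset_of_card_le hsub (by rw [hUFcard, hPU])
    have h3 : ∑ v ∈ P, chi2 (q v) = Fintype.card U := by
      rw [← hPeq, Finset.sum_congr rfl (fun v hv => by rw [hU v (Finset.mem_filter.mp hv).2, chi2_zero])]
      simp [hUFcard]
    rw [h3] at L3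
    have hne : (Fintype.card U : ℤ) ≠ 0 := by exact_mod_cast hUpos.ne'
    exact mul_left_cancel₀ hne L3

end

end Cfsg.Agent.Lib.Helper14
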