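import Cfsg.Agent.Lib.Helper14.GaussTwoB

set_option autoImplicit false

namespace Cfsg.Agent.Lib.Helper14

open Module

section

variable {V : Type*} [AddCommGroup V] [Module (ZMod 2) V] [Fintype V]

theorem totallySingular_finrank (f : V → V → ZMod 2) (hf1 : ∀ u u' t, f (u + u') t = f u t + f u' t)
    (hf2 : ∀ u t t', f u (t + t') = f u t + f u t')
    (hnd : ∀ t, t ≠ 0 → ∃ u, f u t = 1)
    (q : V → ZMod 2) (hq : ∀ u v, q (u + v) = q u + q v + f u v)
    (U : Submodule (ZMod 2) V) (hU : ∀ u ∈ U, q u = 0) :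
    2 * finrank (ZMod 2) U ≤ finrank (ZMod 2) V ∧
      (2 * finrank (ZMod 2) U = finrank (ZMod 2) V → gaussSum q = 2 ^ finrank (ZMod 2) U) := by
  have hfin : Module.Finite (ZMod 2) V := Module.Finite.of_finite
  obtain ⟨h1, h2⟩ := totallySingular_card f hf1 hf2 hnd q hq U.toAddSubgroup hU
  have hcU : Nat.card U.toAddSubgroup = 2 ^ finrank (ZMod 2) U := by
    have := Module.natCard_eq_pow_finrank (K := ZMod 2) (V := U)
    rw [Nat.card_zmod] at this
    exact this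
  have hcV : Fintype.card V = 2 ^ finrank (ZMod 2) V := by
    have := Module.natCard_eq_pow_finrank (K := ZMod 2) (V := V)
    rw [Nat.card_zmod, Nat.card_eq_fintype_card] at this
    exact this
  rw [hcU, hcV, ← pow_add, ← two_mul] at h1 h2
  constructor
  · exact (Nat.pow_le_pow_iff_right (by norm_num)).mp h1
  · intro h
    rw [h2 (by rw [h])]
    push_cast; rfl

end

/-- the standard totally singular subspace of the plus form -/
def iotaPlus (k : ℕ) : (Fin k → ZMod 2) →ₗ[ZMod 2] (Fin k ⊕ Fin k → ZMod 2) where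
  toFun x := Sum.elim x 0
  map_add' x y := by ext (i | i) <;> simp
  map_smul' c x := by ext (i | i) <;> simp

theorem iotaPlus_injective (k : ℕ) : Function.Injective (iotaPlus k) := by
  intro x y h
  funext i
  exact congrFun h (Sum.inl i)

theorem quadFormPlus_iotaPlus (k : ℕ) (x : Fin k → ZMod 2) : Cfsg.quadFormPlus k (ZMod 2) (iotaPlus k x) = 0 := by
  unfold Cfsg.quadFormPlus iotaPlus
  simp

theorem finrank_range_iotaPlus (k : ℕ) : finrank (ZMod 2) (LinearMap.range (iotaPlus k)) = k := by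
  rw [LinearMap.finrank_range_of_inj (iotaPlus_injective k)]; simp

theorem quadFormPlus_polar (k : ℕ) (u v : Fin k ⊕ Fin k → ZMod 2) :
    Cfsg.quadFormPlus k (ZMod 2) (u + v) = Cfsg.quadFormPlus k (ZMod 2) u + Cfsg.quadFormPlus k (ZMod 2) v + pf k u v := by
  unfold pf; ring

theorem finrank_plus (k : ℕ) : finrank (ZMod 2) (Fin k ⊕ Fin k → ZMod 2) = 2 * k := by
  simp; ring

theorem gaussSum_quadFormPlus (k : ℕ) : gaussSum (Cfsg.quadFormPlus k (ZMod 2)) = 2 ^ k := by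
  have h := (totallySingular_finrank (pf k) (pf_add_left k) (pf_add_right k) (pf_nondeg k)
    (Cfsg.quadFormPlus k (ZMod 2)) (quadFormPlus_polar k) (LinearMap.range (iotaPlus k)) (by
      rintro _ ⟨x, rfl⟩; exact quadFormPlus_iotaPlus k x)).2
  rw [finrank_range_iotaPlus, finrank_plus] at h
  exact h rfl

/-- polar form of the minus type form over the field with two elements -/
def pfm (k : ℕ) (u v : (Fin k ⊕ Fin k) ⊕ Fin 2 → ZMod 2) : ZMod 2 :=
  Cfsg.quadFormMinus k (ZMod 2) 1 1 (u + v) - Cfsg.quadFormMinus k (ZMod 2) 1 1 u - Cfsg.quadFormMinus k (ZMod 2) 1 1 v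

theorem pfm_eq (k : ℕ) (u v : (Fin k ⊕ Fin k) ⊕ Fin 2 → ZMod 2) :
    pfm k u v = ∑ i : Fin k, (u (.inl (.inl i)) * v (.inl (.inr i)) + v (.inl (.inl i)) * u (.inl (.inr i))) +
      (u (.inr 0) * v (.inr 1) + v (.inr 0) * u (.inr 1)) := by
  unfold pfm Cfsg.quadFormMinus
  have h2 : (2 : ZMod 2) = 0 := by decide
  have hs : ∑ i : Fin k, (u + v) (.inl (.inl i)) * (u + v) (.inl (.inr i)) =
      ∑ i : Fin k, u (.inl (.inl i)) * u (.inl (.inr i)) + ∑ i : Fin k, v (.inl (.inl i)) * v (.inl (.inr i)) +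
      ∑ i : Fin k, (u (.inl (.inl i)) * v (.inl (.inr i)) + v (.inl (.inl i)) * u (.inl (.inr i))) := by
    rw [← Finset.sum_add_distrib, ← Finset.sum_add_distrib]
    apply Finset.sum_congr rfl
    intro i _
    simp only [Pi.add_apply]; ring
  rw [hs]
  simp only [Pi.add_apply]
  linear_combination (u (.inr 0) * v (.inr 0) + u (.inr 1) * v (.inr 1)) * h2

theorem pfm_add_left (k : ℕ) (u u' v : (Fin k ⊕ Fin k) ⊕ Fin 2 → ZMod 2) :
    pfm k (u + u') v = pfm k u v + pfm k u' v := by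
  rw [pfm_eq, pfm_eq, pfm_eq]
  have : ∑ i : Fin k, ((u + u') (.inl (.inl i)) * v (.inl (.inr i)) + v (.inl (.inl i)) * (u + u') (.inl (.inr i))) =
      ∑ i : Fin k, (u (.inl (.inl i)) * v (.inl (.inr i)) + v (.inl (.inl i)) * u (.inl (.inr i))) +
      ∑ i : Fin k, (u' (.inl (.inl i)) * v (.inl (.inr i)) + v (.inl (.inl i)) * u' (.inl (.inr i))) := by
    rw [← Finset.sum_add_distrib]
    apply Finset.sum_congr rfl
    intro i _
    simp only [Pi.add_apply]; ring
  rw [this]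
  simp only [Pi.add_apply]; ring

theorem pfm_comm (k : ℕ) (u v : (Fin k ⊕ Fin k) ⊕ Fin 2 → ZMod 2) : pfm k u v = pfm k v u := by
  rw [pfm_eq, pfm_eq]
  congr 1
  · apply Finset.sum_congr rfl
    intro i _; ring
  · ring

theorem pfm_add_right (k : ℕ) (u v v' : (Fin k ⊕ Fin k) ⊕ Fin 2 → ZMod 2) :
    pfm k u (v + v') = pfm k u v + pfm k u v' := by
  rw [pfm_comm, pfm_add_left, pfm_comm, pfm_comm k v']

theorem pfm_nondeg (k : ℕ) (t : (Fin k ⊕ Fin k) ⊕ Fin 2 → ZMod 2) (ht : t ≠ 0) : ∃ u, pfm k u t = 1 := by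
  classical
  have : ∃ x, t x ≠ 0 := by
    by_contra h
    push Not at h
    exact ht (funext h)
  obtain ⟨x, hx⟩ := this
  have hx1 := (zmod2_ne_zero _).mp hx
  rcases x with (i | i) | j
  · refine ⟨Pi.single (Sum.inl (Sum.inr i)) 1, ?_⟩
    rw [pfm_eq, Finset.sum_eq_single i]
    · simp [hx1]
    · intro j _ hj
      simp [hj]
    · simp
  · refine ⟨Pi.single (Sum.inl (Sum.inl i)) 1, ?_⟩
    rw [pfm_eq, Finset.sum_eq_single i]
    · simp [hx1]
    · intro j _ hj
      simp [hj]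
    · simp
  · fin_cases j
    · refine ⟨Pi.single (Sum.inr 1) 1, ?_⟩
      rw [pfm_eq]
      simp at hx1
      simp [hx1]
    · refine ⟨Pi.single (Sum.inr 0) 1, ?_⟩
      rw [pfm_eq]
      simp at hx1
      simp [hx1]

theorem quadFormMinus_polar (k : ℕ) (u v : (Fin k ⊕ Fin k) ⊕ Fin 2 → ZMod 2) :
    Cfsg.quadFormMinus k (ZMod 2) 1 1 (u + v) =
      Cfsg.quadFormMinus k (ZMod 2) 1 1 u + Cfsg.quadFormMinus k (ZMod 2) 1 1 v + pfm k u v := by
  unfold pfm; ring

theorem gaussSum_quadFormMinus (k : ℕ) : gaussSum (Cfsg.quadFormMinus k (ZMod 2) 1 1) = - 2 ^ (k + 1) := by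
  have h1 : gaussSum (Cfsg.quadFormMinus k (ZMod 2) 1 1) =
      ∑ p : (Fin k ⊕ Fin k → ZMod 2) × (Fin 2 → ZMod 2),
        chi2 (Cfsg.quadFormPlus k (ZMod 2) p.1) * chi2 (p.2 0 ^ 2 + 1 * p.2 0 * p.2 1 + 1 * p.2 1 ^ 2) := by
    unfold gaussSum
    apply Fintype.sum_equiv (Equiv.sumArrowEquivProdArrow (Fin k ⊕ Fin k) (Fin 2) (ZMod 2))
    intro v
    rw [← chi2_add]
    rfl
  rw [h1, Fintype.sum_prod_type]
  simp_rw [← Finset.mul_sum]
  rw [← Finset.sum_mul]
  have h2 : ∑ z : Fin 2 → ZMod 2, chi2 (z 0 ^ 2 + 1 * z 0 * z 1 + 1 * z 1 ^ 2) = -2 := by decide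
  rw [h2]
  have h3 := gaussSum_quadFormPlus k
  unfold gaussSum at h3
  rw [h3]; ring

/-- the standard totally singular subspace of the minus form -/
def iotaMinus (k : ℕ) : (Fin k → ZMod 2) →ₗ[ZMod 2] ((Fin k ⊕ Fin k) ⊕ Fin 2 → ZMod 2) where
  toFun x := Sum.elim (Sum.elim x 0) 0
  map_add' x y := by ext ((i | i) | i) <;> simp
  map_smul' c x := by ext ((i | i) | i) <;> simp

theorem iotaMinus_injective (k : ℕ) : Function.Injective (iotaMinus k) := by
  intro x y h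
  funext i
  exact congrFun h (Sum.inl (Sum.inl i))

theorem quadFormMinus_iotaMinus (k : ℕ) (x : Fin k → ZMod 2) :
    Cfsg.quadFormMinus k (ZMod 2) 1 1 (iotaMinus k x) = 0 := by
  unfold Cfsg.quadFormMinus iotaMinus
  simp

theorem finrank_range_iotaMinus (k : ℕ) : finrank (ZMod 2) (LinearMap.range (iotaMinus k)) = k := by
  rw [LinearMap.finrank_range_of_inj (iotaMinus_injective k)]; simp

theorem finrank_minus (k : ℕ) : finrank (ZMod 2) ((Fin k ⊕ Fin k) ⊕ Fin 2 → ZMod 2) = 2 * (k + 1) := by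
  simp; ring

end Cfsg.Agent.Lib.Helper14
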