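import Mathlib
import Cfsg.Prelude.Def_LocalEven
import Cfsg.Agent.Lib.Helper14.GL2Syl

/-! The natural `SL₂(q)`-module: action of a Sylow `p`-subgroup. -/

set_option autoImplicit false

namespace Cfsg.Agent.Lib.Helper14.NatSL2
open Matrix

variable {G : Type*} [Group G] {F : Type*} [Field F]

/-- coordinates on `V` adapted to the Sylow subgroup `T`. -/
structure Data (V T : Subgroup G) (F : Type*) [Field F] where
  φ : V → (Fin 2 → F)
  bij : Function.Bijective φ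
  add : ∀ v w, φ (v * w) = φ v + φ w
  act : ∀ t ∈ T, ∃ x : F, (t ≠ 1 → x ≠ 0) ∧ ∀ v : V, ∃ w : V, (w : G) = t * v * t⁻¹ ∧
    φ w = ![φ v 0 + x * φ v 1, φ v 1]
  all : ∀ x : F, ∃ t ∈ T, ∀ v : V, ∃ w : V, (w : G) = t * v * t⁻¹ ∧
    φ w = ![φ v 0 + x * φ v 1, φ v 1]

namespace Data
variable {V T : Subgroup G} (D : Data V T F)

theorem map_one : D.φ 1 = 0 := by
  have := D.add 1 1
  rw [mul_one] at this
  exact left_eq_add.1 this

theorem map_inv (v : V) : D.φ v⁻¹ = - D.φ v := by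
  have := D.add v v⁻¹
  rw [mul_inv_cancel, D.map_one] at this
  exact (neg_eq_of_add_eq_zero_right this.symm).symm

theorem comm (t : G) (x : F) (hx : ∀ v : V, ∃ w : V, (w : G) = t * v * t⁻¹ ∧
    D.φ w = ![D.φ v 0 + x * D.φ v 1, D.φ v 1]) (v : V) :
    ∃ c : V, (c : G) = v * t * (v : G)⁻¹ * t⁻¹ ∧ D.φ c = ![-(x * D.φ v 1), 0] := by
  obtain ⟨w, hw, hφ⟩ := hx v⁻¹
  refine ⟨v * w, ?_, ?_⟩
  · rw [Subgroup.coe_mul, hw, Subgroup.coe_inv]; group
  · rw [D.add, hφ, D.map_inv]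
    ext i
    fin_cases i
    · simp
    · simp

theorem fix_iff (t : G) (x : F) (hx0 : x ≠ 0) (hx : ∀ v : V, ∃ w : V, (w : G) = t * v * t⁻¹ ∧
    D.φ w = ![D.φ v 0 + x * D.φ v 1, D.φ v 1]) (v : V) :
    t * (v : G) = v * t ↔ D.φ v 1 = 0 := by
  obtain ⟨w, hw, hφ⟩ := hx v
  constructor
  · intro h
    have h1 : w = v := by
      apply Subtype.ext
      rw [hw, h]; group
    rw [h1] at hφ
    have h2 := congrFun hφ 0
    simp only [Fin.isValue, cons_val_zero] at h2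
    have h3 : x * D.φ v 1 = 0 := by linear_combination -h2
    exact (mul_eq_zero.1 h3).resolve_left hx0
  · intro h
    have h1 : w = v := by
      apply D.bij.1
      rw [hφ, h]
      ext i
      fin_cases i
      · simp
      · simp [h]
    have h2 : (v : G) = t * v * t⁻¹ := by rw [← hw, h1]
    calc t * (v : G) = (t * v * t⁻¹) * t := by group
      _ = v * t := by rw [← h2]

theorem fix_of_zero (t : G) (ht : t ∈ T) (v : V) (h : D.φ v 1 = 0) : t * (v : G) = v * t := by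
  obtain ⟨x, -, hx⟩ := D.act t ht
  obtain ⟨w, hw, hφ⟩ := hx v
  have h1 : w = v := by
    apply D.bij.1
    rw [hφ, h]
    ext i
    fin_cases i
    · simp
    · simp [h]
  have h2 : (v : G) = t * v * t⁻¹ := by rw [← hw, h1]
  calc t * (v : G) = (t * v * t⁻¹) * t := by group
    _ = v * t := by rw [← h2]

theorem mem_cent_iff (u : G) :
    u ∈ V ⊓ Subgroup.centralizer (T : Set G) ↔ ∃ hu : u ∈ V, D.φ ⟨u, hu⟩ 1 = 0 := by
  constructor
  · rintro ⟨hu, hc⟩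
    refine ⟨hu, ?_⟩
    obtain ⟨t, ht, hx⟩ := D.all 1
    rw [← D.fix_iff t 1 one_ne_zero hx ⟨u, hu⟩]
    exact (Subgroup.mem_centralizer_iff.1 hc) t ht
  · rintro ⟨hu, h⟩
    refine ⟨hu, Subgroup.mem_centralizer_iff.2 fun t ht => ?_⟩
    exact D.fix_of_zero t ht ⟨u, hu⟩ h

theorem mem_cent_single_iff (s : G) (hs : s ∈ T) (hs1 : s ≠ 1) (u : G) :
    u ∈ V ⊓ Subgroup.centralizer ({s} : Set G) ↔ ∃ hu : u ∈ V, D.φ ⟨u, hu⟩ 1 = 0 := by
  obtain ⟨x, hx0, hx⟩ := D.act s hs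
  constructor
  · rintro ⟨hu, hc⟩
    refine ⟨hu, ?_⟩
    rw [← D.fix_iff s x (hx0 hs1) hx ⟨u, hu⟩]
    exact (Subgroup.mem_centralizer_iff.1 hc) s rfl
  · rintro ⟨hu, h⟩
    refine ⟨hu, Subgroup.mem_centralizer_iff.2 fun t ht => ?_⟩
    rw [Set.mem_singleton_iff.1 ht]
    exact D.fix_of_zero s hs ⟨u, hu⟩ h

include D in
/-- every commutator lies in `C_V(T)`. -/
theorem comm_mem (v : G) (hv : v ∈ V) (t : G) (ht : t ∈ T) :
    v * t * v⁻¹ * t⁻¹ ∈ V ⊓ Subgroup.centralizer (T : Set G) := by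
  obtain ⟨x, -, hx⟩ := D.act t ht
  obtain ⟨c, hc, hφ⟩ := D.comm t x hx ⟨v, hv⟩
  rw [D.mem_cent_iff]
  have hc' : v * t * v⁻¹ * t⁻¹ = (c : G) := hc.symm
  rw [hc']
  refine ⟨c.2, ?_⟩
  change D.φ c 1 = 0
  rw [hφ]; simp

/-- realising an element of `C_V(T)` as a commutator. -/
theorem eq_comm (t : G) (x : F) (hx : ∀ v : V, ∃ w : V, (w : G) = t * v * t⁻¹ ∧
    D.φ w = ![D.φ v 0 + x * D.φ v 1, D.φ v 1]) (v : V) (u : G)
    (hu : u ∈ V ⊓ Subgroup.centralizer (T : Set G))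
    (h : ∀ hu' : u ∈ V, D.φ ⟨u, hu'⟩ 0 = -(x * D.φ v 1)) :
    u = v * t * (v : G)⁻¹ * t⁻¹ := by
  obtain ⟨hu', h0⟩ := (D.mem_cent_iff u).1 hu
  obtain ⟨c, hc, hφ⟩ := D.comm t x hx v
  have : (⟨u, hu'⟩ : V) = c := by
    apply D.bij.1
    rw [hφ]
    ext i
    fin_cases i
    · simpa using h hu'
    · simpa using h0
  rw [← hc, ← this]

include D in
theorem main [Fintype F] [Finite G] (p n : ℕ) (hF : Fintype.card F = p ^ n) :
    ⁅⁅V, T⁆, T⁆ = ⊥ ∧ Nat.card V = p ^ (2 * n) ∧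
    Nat.card ↥(V ⊓ Subgroup.centralizer ((T : Subgroup G) : Set G)) = p ^ n ∧
    ∀ s ∈ T, s ≠ 1 →
      (V ⊓ Subgroup.centralizer ({s} : Set G)) = (V ⊓ Subgroup.centralizer ((T : Subgroup G) : Set G)) ∧
      ⁅V, T⁆ = (V ⊓ Subgroup.centralizer ((T : Subgroup G) : Set G)) ∧
      ⁅V, Subgroup.zpowers s⁆ = (V ⊓ Subgroup.centralizer ((T : Subgroup G) : Set G)) ∧
      ∀ v ∈ V, v ∉ Subgroup.centralizer (T : Set G) →
        Subgroup.closure {x : G | ∃ t ∈ T, x = v * t * v⁻¹ * t⁻¹} =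
          (V ⊓ Subgroup.centralizer ((T : Subgroup G) : Set G)) := by
  have hle : ⁅V, T⁆ ≤ V ⊓ Subgroup.centralizer (T : Set G) := by
    rw [Subgroup.commutator_le]
    intro v hv t ht
    rw [commutatorElement_def]
    exact D.comm_mem v hv t ht
  refine ⟨?_, ?_, ?_, ?_⟩
  · rw [Subgroup.commutator_eq_bot_iff_le_centralizer]
    exact hle.trans inf_le_right
  · rw [Nat.card_congr (Equiv.ofBijective D.φ D.bij), Nat.card_eq_fintype_card, Fintype.card_fun,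
      Fintype.card_fin, hF, ← pow_mul, mul_comm]
  · have e : ↥(V ⊓ Subgroup.centralizer ((T : Subgroup G) : Set G)) ≃ F := by
      refine Equiv.ofBijective (fun u => D.φ ⟨u.1, u.2.1⟩ 0) ⟨?_, ?_⟩
      · intro u u' h
        obtain ⟨_, h0⟩ := (D.mem_cent_iff u.1).1 u.2
        obtain ⟨_, h0'⟩ := (D.mem_cent_iff u'.1).1 u'.2
        have : (⟨u.1, u.2.1⟩ : V) = ⟨u'.1, u'.2.1⟩ := by
          apply D.bij.1
          ext i
          fin_cases i
          · exact h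
          · exact h0.trans h0'.symm
        exact Subtype.ext (congrArg (fun z : V => (z : G)) this)
      · intro a
        obtain ⟨v, hv⟩ := D.bij.2 ![a, 0]
        refine ⟨⟨v.1, (D.mem_cent_iff v.1).2 ⟨v.2, by change D.φ v 1 = 0; rw [hv]; simp⟩⟩, ?_⟩
        change D.φ v 0 = a
        rw [hv]; simp
    rw [Nat.card_congr e, Nat.card_eq_fintype_card, hF]
  · intro s hs hs1
    obtain ⟨x, hx0, hx⟩ := D.act s hs
    have hx0 := hx0 hs1
    refine ⟨?_, ?_, ?_, ?_⟩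
    · ext u
      rw [D.mem_cent_single_iff s hs hs1, D.mem_cent_iff]
    · apply le_antisymm hle
      intro u hu
      obtain ⟨hu', h0⟩ := (D.mem_cent_iff u).1 hu
      obtain ⟨v, hv⟩ := D.bij.2 ![0, -(D.φ ⟨u, hu'⟩ 0) / x]
      have := D.eq_comm s x hx v u hu (fun _ => by rw [hv]; simp; field_simp)
      rw [this, ← commutatorElement_def]
      exact Subgroup.commutator_mem_commutator v.2 hs
    · apply le_antisymm
        ((Subgroup.commutator_mono le_rfl ((Subgroup.zpowers_le).2 hs)).trans hle)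
      intro u hu
      obtain ⟨hu', h0⟩ := (D.mem_cent_iff u).1 hu
      obtain ⟨v, hv⟩ := D.bij.2 ![0, -(D.φ ⟨u, hu'⟩ 0) / x]
      have := D.eq_comm s x hx v u hu (fun _ => by rw [hv]; simp; field_simp)
      rw [this, ← commutatorElement_def]
      exact Subgroup.commutator_mem_commutator v.2 (Subgroup.mem_zpowers s)
    · intro v hv hvc
      apply le_antisymm
      · rw [Subgroup.closure_le]
        rintro _ ⟨t, ht, rfl⟩
        exact D.comm_mem v hv t ht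
      · intro u hu
        obtain ⟨hu', h0⟩ := (D.mem_cent_iff u).1 hu
        have hb : D.φ ⟨v, hv⟩ 1 ≠ 0 := by
          intro h
          exact hvc ((D.mem_cent_iff v).2 ⟨hv, h⟩).2
        obtain ⟨t, ht, hxt⟩ := D.all (-(D.φ ⟨u, hu'⟩ 0) / D.φ ⟨v, hv⟩ 1)
        have := D.eq_comm t _ hxt ⟨v, hv⟩ u hu (fun _ => by field_simp)
        exact Subgroup.subset_closure ⟨t, ht, this⟩

end Data

theorem exists_data [Fintype F] [Finite G] {p : ℕ} [Fact p.Prime] (n : ℕ)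
    (hF : Fintype.card F = p ^ n)
    (V L : Subgroup G) (hnat : Cfsg.IsNaturalSL2Module F V L)
    (hf : L ⊓ Subgroup.centralizer (V : Set G) = ⊥) (S : Sylow p ↥L) (T : Subgroup G)
    (hT : T = ((S : Subgroup ↥L).map L.subtype)) : Nonempty (Data V T F) := by
  haveI : CharP F p := charP_of_card_eq_prime_pow hF
  obtain ⟨hLN, ρ, ψ, hsurj, hker, hact⟩ := hnat
  have hinj : Function.Injective ρ := by
    rw [← MonoidHom.ker_eq_bot_iff, hker, Subgroup.subgroupOf_eq_bot, disjoint_iff, inf_comm]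
    exact hf
  let S' : Sylow p (SpecialLinearGroup (Fin 2) F) := Sylow.mapSurjective hsurj S
  obtain ⟨A, hA⟩ := exists_conj_USL p S'
  have hS' : ∀ x, x ∈ S' ↔ ∃ s ∈ S, ρ s = x := by
    intro x
    change x ∈ (S' : Subgroup _) ↔ _
    rw [Sylow.coe_mapSurjective, Subgroup.mem_map]
    rfl
  have hAA : (A⁻¹).1 * A.1 = 1 := by
    rw [← Matrix.SpecialLinearGroup.coe_mul, inv_mul_cancel]; rfl
  have hAA' : A.1 * (A⁻¹).1 = 1 := by
    rw [← Matrix.SpecialLinearGroup.coe_mul, mul_inv_cancel]; rfl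
  have key : ∀ (s : L) (x : F), (A⁻¹ * ρ s * A).1 = !![1, x; 0, 1] → ∀ v : V, ∃ w : V,
      (w : G) = (s : G) * v * (s : G)⁻¹ ∧ (A⁻¹).1 *ᵥ ψ (Additive.ofMul w) =
        ![((A⁻¹).1 *ᵥ ψ (Additive.ofMul v)) 0 + x * ((A⁻¹).1 *ᵥ ψ (Additive.ofMul v)) 1,
          ((A⁻¹).1 *ᵥ ψ (Additive.ofMul v)) 1] := by
    intro s x hx v
    obtain ⟨w, hw, hψ⟩ := hact s v
    refine ⟨w, hw, ?_⟩
    have h5 : (A⁻¹).1 *ᵥ ((ρ s).1 *ᵥ ψ (Additive.ofMul v)) =
        (A⁻¹ * ρ s * A).1 *ᵥ ((A⁻¹).1 *ᵥ ψ (Additive.ofMul v)) := by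
      rw [Matrix.SpecialLinearGroup.coe_mul, Matrix.SpecialLinearGroup.coe_mul,
        Matrix.mulVec_mulVec, Matrix.mulVec_mulVec, Matrix.mul_assoc _ A.1, hAA', Matrix.mul_one]
    rw [hψ]
    refine h5.trans ?_
    rw [hx]
    ext i
    fin_cases i <;> simp [Matrix.mulVec, dotProduct, Fin.sum_univ_two]
  refine ⟨{ φ := fun v => (A⁻¹).1 *ᵥ ψ (Additive.ofMul v), bij := ?_, add := ?_, act := ?_, all := ?_ }⟩
  · constructor
    · intro v w h
      have h2 := congrArg (fun y => A.1 *ᵥ y) h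
      simp only [Matrix.mulVec_mulVec, hAA', Matrix.one_mulVec] at h2
      exact Additive.ofMul.injective (ψ.injective h2)
    · intro y
      refine ⟨Additive.toMul (ψ.symm (A.1 *ᵥ y)), ?_⟩
      simp only [ofMul_toMul, AddEquiv.apply_symm_apply, Matrix.mulVec_mulVec, hAA, Matrix.one_mulVec]
  · intro v w
    simp only [ofMul_mul, map_add, Matrix.mulVec_add]
  · intro t ht
    rw [hT] at ht
    obtain ⟨s, hs, rfl⟩ := Subgroup.mem_map.1 ht
    have h1 : ρ s ∈ S' := (hS' _).2 ⟨s, hs, rfl⟩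
    obtain ⟨x, hx⟩ := (mem_USL_iff _).1 ((hA _).1 h1)
    refine ⟨x, ?_, key s x hx⟩
    intro hne hx0
    apply hne
    rw [hx0] at hx
    have h2 : A⁻¹ * ρ s * A = 1 := by
      apply Subtype.ext
      rw [hx]
      ext i j
      fin_cases i <;> fin_cases j <;> simp
    have h3 : ρ s = 1 := by
      have : ρ s = A * (A⁻¹ * ρ s * A) * A⁻¹ := by group
      rw [this, h2]; group
    have h4 : s = 1 := hinj (by rw [h3, map_one])
    rw [h4]; rfl
  · intro x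
    obtain ⟨u, hu⟩ : ∃ u : SpecialLinearGroup (Fin 2) F, u.1 = !![1, x; 0, 1] :=
      ⟨uHom F (Multiplicative.ofAdd x), uHom_coe _⟩
    have h0 : A⁻¹ * (A * u * A⁻¹) * A = u := by group
    have h1 : A * u * A⁻¹ ∈ S' := (hA _).2 (by
      rw [h0]; exact (mem_USL_iff _).2 ⟨x, hu⟩)
    obtain ⟨s, hs, hρ⟩ := (hS' _).1 h1
    refine ⟨(s : G), by rw [hT]; exact Subgroup.mem_map.2 ⟨s, hs, rfl⟩, ?_⟩
    exact key s x (by rw [hρ, h0, hu])

end Cfsg.Agent.Lib.Helper14.NatSL2
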