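import Mathlib

set_option autoImplicit false

namespace Cfsg.Agent.Lib.Helper14

open Module

variable {K V : Type*} [Field K] [AddCommGroup V] [Module K V] [FiniteDimensional K V]

theorem finrank_ker_mul_le (f g : End K V) :
    finrank K (LinearMap.ker (f * g)) ≤ finrank K (LinearMap.ker f) + finrank K (LinearMap.ker g) := by
  set p := LinearMap.ker (f * g) with hp
  have h := LinearMap.finrank_range_add_finrank_ker (g.domRestrict p)
  have h1 : finrank K (LinearMap.range (g.domRestrict p)) ≤ finrank K (LinearMap.ker f) := by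
    apply Submodule.finrank_mono
    rintro _ ⟨x, rfl⟩
    have hx : (f * g) (x : V) = 0 := x.2
    exact hx
  have h2 : finrank K (LinearMap.ker (g.domRestrict p)) ≤ finrank K (LinearMap.ker g) := by
    let φ : LinearMap.ker (g.domRestrict p) →ₗ[K] LinearMap.ker g :=
      LinearMap.codRestrict _ (p.subtype.comp (LinearMap.ker (g.domRestrict p)).subtype) (by
        intro x
        have hx : (g.domRestrict p) (x : p) = 0 := x.2
        exact hx)
    apply LinearMap.finrank_le_finrank_of_injective (f := φ)
    intro x y hxy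
    have : ((x : p) : V) = ((y : p) : V) := congrArg (fun z : LinearMap.ker g => (z : V)) hxy
    exact Subtype.ext (Subtype.ext this)
  omega

theorem finrank_ker_pow_le (N : End K V) (k : ℕ) :
    finrank K (LinearMap.ker (N ^ k)) ≤ k * finrank K (LinearMap.ker N) := by
  induction k with
  | zero =>
    have : LinearMap.ker (N ^ 0) = ⊥ := by
      rw [pow_zero]; exact LinearMap.ker_id
    rw [this]; simp
  | succ k ih =>
    have := finrank_ker_mul_le (N ^ k) N
    rw [pow_succ]
    calc _ ≤ _ := this
      _ ≤ k * finrank K (LinearMap.ker N) + finrank K (LinearMap.ker N) := by omega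
      _ = _ := by ring

theorem le_ker_pow_finrank_of_invariant (N : End K V) (hN : IsNilpotent N) (W : Submodule K V)
    (hW : ∀ v ∈ W, N v ∈ W) : W ≤ LinearMap.ker (N ^ finrank K W) := by
  obtain ⟨m, hm⟩ := hN
  let N' : End K W := N.restrict hW
  have hpow : ∀ (j : ℕ) (w : W), ((N' ^ j) w : V) = (N ^ j) (w : V) := by
    intro j
    induction j with
    | zero => intro w; simp
    | succ j ih =>
      intro w
      rw [pow_succ, pow_succ, Module.End.mul_apply, Module.End.mul_apply, ih]
      rfl
  have h1 : LinearMap.ker (N' ^ m) = ⊤ := by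
    rw [eq_top_iff]
    intro w _
    rw [LinearMap.mem_ker]
    apply Subtype.ext
    rw [hpow, hm]
    simp
  have h2 : LinearMap.ker (N' ^ m) ≤ LinearMap.ker (N' ^ finrank K W) :=
    Module.End.ker_pow_le_ker_pow_finrank N' m
  intro w hw
  have h3 : (⟨w, hw⟩ : W) ∈ LinearMap.ker (N' ^ finrank K W) := h2 (h1 ▸ Submodule.mem_top)
  rw [LinearMap.mem_ker] at h3 ⊢
  have := hpow (finrank K W) ⟨w, hw⟩
  rw [h3] at this
  simpa using this.symm

/-- invariant subspaces of a regular nilpotent endomorphism -/
theorem eq_ker_pow_finrank_of_invariant (N : End K V) (hN : IsNilpotent N)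
    (hreg : finrank K (LinearMap.ker N) ≤ 1) (W : Submodule K V)
    (hW : ∀ v ∈ W, N v ∈ W) : W = LinearMap.ker (N ^ finrank K W) := by
  apply Submodule.eq_of_le_of_finrank_le (le_ker_pow_finrank_of_invariant N hN W hW)
  calc _ ≤ finrank K W * finrank K (LinearMap.ker N) := finrank_ker_pow_le N _
    _ ≤ finrank K W * 1 := Nat.mul_le_mul_left _ hreg
    _ = _ := by ring

theorem mulVecLin_pow {n : Type*} [Fintype n] [DecidableEq n] (A : Matrix n n K) (k : ℕ) :
    Matrix.mulVecLin (A ^ k) = (Matrix.mulVecLin A : End K (n → K)) ^ k := by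
  induction k with
  | zero => simp [Matrix.mulVecLin_one]; rfl
  | succ k ih =>
    rw [pow_succ, pow_succ, Matrix.mulVecLin_mul, ih]
    rfl

theorem finrank_ker_mulVecLin {n : Type*} [Fintype n] [DecidableEq n] (A : Matrix n n K) :
    finrank K (LinearMap.ker (Matrix.mulVecLin A)) = Fintype.card n - A.rank := by
  have h := LinearMap.finrank_range_add_finrank_ker (Matrix.mulVecLin A)
  rw [Module.finrank_fintype_fun_eq_card] at h
  have : A.rank = finrank K (LinearMap.range (Matrix.mulVecLin A)) := rfl
  omega

end Cfsg.Agent.Lib.Helper14
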