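import Mathlib
import Cfsg.Prelude.Def_Classical

set_option autoImplicit false

namespace Cfsg.Agent.Lib.Helper14.OPlus42

open Matrix

abbrev K := ZMod 2
abbrev I4 := Fin 2 ⊕ Fin 2

def J : Matrix (Fin 2) (Fin 2) K := !![0,1;1,0]

def L (g : Matrix (Fin 2) (Fin 2) K) : Matrix I4 I4 K :=
  fromBlocks (g 0 0 • 1) (g 0 1 • J) (g 1 0 • J) (g 1 1 • 1)

def R (g : Matrix (Fin 2) (Fin 2) K) : Matrix I4 I4 K :=
  fromBlocks g 0 0 !![g 1 1, g 1 0; g 0 1, g 0 0]

def T : Matrix I4 I4 K :=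
  fromBlocks !![1,0;0,0] !![0,0;0,1] !![0,0;0,1] !![1,0;0,0]

theorem L_one : L 1 = 1 := by
  ext (i | i) (j | j) <;> fin_cases i <;> fin_cases j <;> simp [L, J]

theorem R_one : R 1 = 1 := by
  ext (i | i) (j | j) <;> fin_cases i <;> fin_cases j <;>
    simp [R]

theorem L_mul (g h : Matrix (Fin 2) (Fin 2) K) : L (g * h) = L g * L h := by
  ext (i | i) (j | j) <;> fin_cases i <;> fin_cases j <;>
    simp [L, J, Matrix.mul_apply, Fin.sum_univ_two, Fintype.sum_sum_type]

theorem R_mul (g h : Matrix (Fin 2) (Fin 2) K) : R (g * h) = R g * R h := by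
  ext (i | i) (j | j) <;> fin_cases i <;> fin_cases j <;>
    simp [R, Matrix.mul_apply, Fin.sum_univ_two, Fintype.sum_sum_type] <;> ring

theorem L_R_comm (g h : Matrix (Fin 2) (Fin 2) K) : L g * R h = R h * L g := by
  ext (i | i) (j | j) <;> fin_cases i <;> fin_cases j <;>
    simp [L, R, J, Matrix.mul_apply, Fin.sum_univ_two, Fintype.sum_sum_type] <;> ring

theorem T_mul_T : T * T = 1 := by
  ext (i | i) (j | j) <;> fin_cases i <;> fin_cases j <;>
    simp [T, Matrix.mul_apply, Fin.sum_univ_two, Fintype.sum_sum_type]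

theorem T_L_T (g : Matrix (Fin 2) (Fin 2) K) : T * L g * T = R g := by
  ext (i | i) (j | j) <;> fin_cases i <;> fin_cases j <;>
    simp [T, L, R, J, Matrix.mul_apply, Fin.sum_univ_two, Fintype.sum_sum_type]

theorem Q_L (g : Matrix (Fin 2) (Fin 2) K) (hg : g.det = 1) (v : I4 → K) :
    Cfsg.quadFormPlus 2 K (L g *ᵥ v) = Cfsg.quadFormPlus 2 K v := by
  have h2 : (2 : K) = 0 := rfl
  rw [Matrix.det_fin_two] at hg
  simp [Cfsg.quadFormPlus, L, J, Matrix.mulVec, dotProduct, Fin.sum_univ_two, Fintype.sum_sum_type]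
  linear_combination (v (.inl 0) * v (.inr 0) + v (.inl 1) * v (.inr 1)) * hg +
    (g 0 1 * g 1 0 * (v (.inl 0) * v (.inr 0) + v (.inl 1) * v (.inr 1)) +
      g 0 0 * g 1 0 * v (.inl 0) * v (.inl 1) + g 0 1 * g 1 1 * v (.inr 0) * v (.inr 1)) * h2

theorem Q_T (v : I4 → K) :
    Cfsg.quadFormPlus 2 K (T *ᵥ v) = Cfsg.quadFormPlus 2 K v := by
  simp [Cfsg.quadFormPlus, T, Matrix.mulVec, dotProduct, Fin.sum_univ_two, Fintype.sum_sum_type]
  ring

theorem L_inj {g h : Matrix (Fin 2) (Fin 2) K} (e : L g = L h) : g = h := by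
  have h00 := congrFun (congrFun e (.inl 0)) (.inl 0)
  have h01 := congrFun (congrFun e (.inl 0)) (.inr 1)
  have h10 := congrFun (congrFun e (.inr 0)) (.inl 1)
  have h11 := congrFun (congrFun e (.inr 0)) (.inr 0)
  simp [L, J] at h00 h01 h10 h11
  ext i j
  fin_cases i <;> fin_cases j
  · exact h00
  · exact h01
  · exact h10
  · exact h11

theorem L_eq_R {g h : Matrix (Fin 2) (Fin 2) K} (hg : g.det = 1) (e : L g = R h) : g = 1 := by
  have h01 := congrFun (congrFun e (.inl 0)) (.inr 1)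
  have h10 := congrFun (congrFun e (.inr 0)) (.inl 1)
  simp [L, R, J] at h01 h10
  rw [Matrix.det_fin_two, h01, h10, zero_mul, sub_zero] at hg
  have key : ∀ x y : K, x * y = 1 → x = 1 ∧ y = 1 := by decide
  obtain ⟨h00, h11⟩ := key _ _ hg
  ext i j
  fin_cases i <;> fin_cases j
  · exact h00
  · exact h01
  · exact h10
  · exact h11

abbrev O4 := Cfsg.isometryGroup K (Cfsg.quadFormPlus 2 K)

noncomputable def psi1 : Matrix.SpecialLinearGroup (Fin 2) K →* O4 :=
  MonoidHom.codRestrict (MonoidHom.toHomUnits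
    { toFun := fun g => L g.1, map_one' := L_one, map_mul' := fun g h => L_mul g.1 h.1 }) _ (by
    intro g u v
    exact Q_L g.1 g.2 u)

theorem psi1_val (g : Matrix.SpecialLinearGroup (Fin 2) K) : (psi1 g).1.1 = L g.1 := rfl

def tau : O4 := ⟨⟨T, T, T_mul_T, T_mul_T⟩, fun u _ => Q_T u⟩

noncomputable def psi2 : Matrix.SpecialLinearGroup (Fin 2) K →* O4 :=
  (MulAut.conj tau).toMonoidHom.comp psi1

theorem psi2_val (g : Matrix.SpecialLinearGroup (Fin 2) K) : (psi2 g).1.1 = R g.1 := by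
  rw [← T_L_T]
  rfl

theorem psi1_injective : Function.Injective psi1 := by
  intro g h e
  apply Subtype.ext
  apply L_inj
  rw [← psi1_val, ← psi1_val, e]

theorem psi2_injective : Function.Injective psi2 :=
  (MulAut.conj tau).injective.comp psi1_injective

theorem psi_comm (g h : Matrix.SpecialLinearGroup (Fin 2) K) : Commute (psi1 g) (psi2 h) := by
  apply Subtype.ext
  apply Units.ext
  change (psi1 g).1.1 * (psi2 h).1.1 = (psi2 h).1.1 * (psi1 g).1.1
  rw [psi1_val, psi2_val, L_R_comm]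

theorem psi_eq {g h : Matrix.SpecialLinearGroup (Fin 2) K} (e : psi1 g = psi2 h) : g = 1 := by
  apply Subtype.ext
  apply L_eq_R g.2 (h := h.1)
  rw [← psi1_val, ← psi2_val, e]

end Cfsg.Agent.Lib.Helper14.OPlus42
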