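import Mathlib
import Cfsg.Prelude
import Cfsg.Agent.Lib.Helper5.SympGen

set_option autoImplicit false

namespace Cfsg.Agent.Lib.Helper14

open Module Matrix Cfsg.Agent.Lib.Helper5

variable {F : Type*} [Field F] [CharP F 2] {m : ℕ}

local notation "JJ" => (Fin m ⊕ Fin m)
local notation "II" => (Unit ⊕ (Fin m ⊕ Fin m))

theorem sq_inj_char_two {a b : F} (h : a ^ 2 = b ^ 2) : a = b := by
  have h1 : (a - b) ^ 2 = 0 := by
    have h2 : (2 : F) = 0 := CharTwo.two_eq_zero
    linear_combination h + (b ^ 2 - a * b) * h2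
  exact sub_eq_zero.1 (pow_eq_zero_iff (two_ne_zero) |>.1 h1)

theorem qplus_add (w w' : JJ → F) :
    Cfsg.quadFormPlus m F (w + w') = Cfsg.quadFormPlus m F w + Cfsg.quadFormPlus m F w' +
      Cfsg.sympForm m F w w' := by
  have h2 : (2 : F) = 0 := CharTwo.two_eq_zero
  unfold Cfsg.quadFormPlus
  rw [sympForm_eq_sum, ← Finset.sum_add_distrib, ← Finset.sum_add_distrib]
  refine Finset.sum_congr rfl fun i _ => ?_
  simp only [Pi.add_apply]
  linear_combination (w (Sum.inl i) * w' (Sum.inr i)) * h2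

omit [CharP F 2] in
theorem qplus_smul (c : F) (w : JJ → F) :
    Cfsg.quadFormPlus m F (c • w) = c ^ 2 * Cfsg.quadFormPlus m F w := by
  unfold Cfsg.quadFormPlus
  rw [Finset.mul_sum]
  refine Finset.sum_congr rfl fun i _ => ?_
  simp only [Pi.smul_apply, smul_eq_mul]
  ring

/-- vectors of the odd dimensional space -/
def ovec (a : F) (w : JJ → F) : II → F := Sum.elim (fun _ => a) w

omit [CharP F 2] in
theorem ovec_eta (v : II → F) : v = ovec (v (Sum.inl ())) (fun j => v (Sum.inr j)) := by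
  ext x
  rcases x with x | x
  · rfl
  · rfl

omit [CharP F 2] in
theorem qodd_ovec (a : F) (w : JJ → F) :
    Cfsg.quadFormOdd m F (ovec a w) = a ^ 2 + Cfsg.quadFormPlus m F w := rfl

omit [CharP F 2] in
theorem ovec_add (a a' : F) (w w' : JJ → F) : ovec a w + ovec a' w' = ovec (a + a') (w + w') := by
  ext x
  rcases x with x | x <;> rfl

omit [CharP F 2] in
theorem fromBlocks_mulVec_ovec (A : Matrix Unit Unit F) (B : Matrix Unit JJ F)
    (C : Matrix JJ Unit F) (D : Matrix JJ JJ F) (a : F) (w : JJ → F) :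
    Matrix.fromBlocks A B C D *ᵥ ovec a w =
      ovec (A () () * a + (B *ᵥ w) ()) ((fun j => C j () * a) + D *ᵥ w) := by
  rw [Matrix.fromBlocks_mulVec]
  ext x
  rcases x with x | x
  · simp [ovec, Matrix.mulVec, dotProduct]
  · simp [ovec, Matrix.mulVec, dotProduct]

/-- the shape of an isometry -/
theorem isometry_shape (G : Matrix II II F) (hu : IsUnit G)
    (hG : ∀ v, Cfsg.quadFormOdd m F (G *ᵥ v) = Cfsg.quadFormOdd m F v) :
    G = Matrix.fromBlocks 1 G.toBlocks₁₂ 0 G.toBlocks₂₂ := by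
  have h2 : (2 : F) = 0 := CharTwo.two_eq_zero
  set A := G.toBlocks₁₁ with hA
  set B := G.toBlocks₁₂ with hB
  set C := G.toBlocks₂₁ with hC
  set D := G.toBlocks₂₂ with hD
  have hGb : G = Matrix.fromBlocks A B C D := (Matrix.fromBlocks_toBlocks G).symm
  have hpol : ∀ (a a' : F) (w w' : JJ → F),
      Cfsg.sympForm m F ((fun j => C j () * a) + D *ᵥ w) ((fun j => C j () * a') + D *ᵥ w') =
        Cfsg.sympForm m F w w' := by
    intro a a' w w'
    have h1 := hG (ovec a w + ovec a' w')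
    have h3 := hG (ovec a w)
    have h4 := hG (ovec a' w')
    rw [Matrix.mulVec_add] at h1
    rw [hGb, fromBlocks_mulVec_ovec] at h1 h3 h4
    rw [fromBlocks_mulVec_ovec] at h1
    generalize (fun j => C j () * a) + D *ᵥ w = X at *
    generalize (fun j => C j () * a') + D *ᵥ w' = X' at *
    rw [ovec_add, ovec_add, qodd_ovec, qodd_ovec, qplus_add, qplus_add] at h1
    rw [qodd_ovec, qodd_ovec] at h3 h4
    linear_combination h1 - h3 - h4 + (a * a' -
      (A () () * a + (B *ᵥ w) ()) * (A () () * a' + (B *ᵥ w') ())) * h2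
  obtain ⟨Gi, hGi⟩ : ∃ Gi : Matrix II II F, G * Gi = 1 := by
    obtain ⟨u, hu⟩ := hu
    exact ⟨u⁻¹.1, by rw [← hu]; exact u.mul_inv⟩
  have hC0 : (fun j => C j ()) = 0 := by
    apply sympB_sepLeft
    intro y
    rw [sympB_apply]
    have h5 : G *ᵥ (Gi *ᵥ ovec 0 y) = ovec 0 y := by
      rw [Matrix.mulVec_mulVec, hGi, Matrix.one_mulVec]
    rw [ovec_eta (Gi *ᵥ ovec 0 y), hGb, fromBlocks_mulVec_ovec] at h5
    have h6 : (fun j => C j () * (Gi *ᵥ ovec 0 y) (Sum.inl ())) +
        D *ᵥ (fun j => (Gi *ᵥ ovec 0 y) (Sum.inr j)) = y := by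
      ext j
      exact congrFun h5 (Sum.inr j)
    have h7 := hpol 1 ((Gi *ᵥ ovec 0 y) (Sum.inl ())) 0 (fun j => (Gi *ᵥ ovec 0 y) (Sum.inr j))
    rw [h6, Matrix.mulVec_zero, add_zero] at h7
    simp only [mul_one] at h7
    rw [h7]
    simp [Cfsg.sympForm]
  have hC0' : C = 0 := by
    ext j x
    exact congrFun hC0 j
  have hA1 : A = 1 := by
    have h8 := hG (ovec 1 0)
    rw [hGb, fromBlocks_mulVec_ovec, qodd_ovec, qodd_ovec, hC0'] at h8
    simp only [Matrix.mulVec_zero, mul_one, Pi.zero_apply, add_zero, Matrix.zero_apply] at h8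
    have h9 : Cfsg.quadFormPlus m F ((fun _ => (0 : F)) : JJ → F) = 0 := by
      simp [Cfsg.quadFormPlus]
    have h10 : Cfsg.quadFormPlus m F (0 : JJ → F) = 0 := h9
    rw [h10] at h8
    rw [h9, add_zero, add_zero] at h8
    ext x y
    exact sq_inj_char_two h8
  rw [hGb, hC0', hA1]

omit [CharP F 2] in
theorem isometry_isUnit (g : Cfsg.isometryGroup F (Cfsg.quadFormOdd m F)) : IsUnit g.1.1 :=
  ⟨g.1, rfl⟩

omit [CharP F 2] in
theorem isometry_preserves (g : Cfsg.isometryGroup F (Cfsg.quadFormOdd m F)) (v : II → F) :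
    Cfsg.quadFormOdd m F (g.1.1 *ᵥ v) = Cfsg.quadFormOdd m F v := g.2 v v

theorem isometry_key (B : Matrix Unit JJ F) (D : Matrix JJ JJ F)
    (hG : ∀ v, Cfsg.quadFormOdd m F (Matrix.fromBlocks 1 B 0 D *ᵥ v) = Cfsg.quadFormOdd m F v)
    (w : JJ → F) :
    ((B *ᵥ w) ()) ^ 2 + Cfsg.quadFormPlus m F (D *ᵥ w) = Cfsg.quadFormPlus m F w := by
  have h := hG (ovec 0 w)
  rw [fromBlocks_mulVec_ovec, qodd_ovec, qodd_ovec] at h
  simp only [Matrix.one_apply_eq, mul_zero, zero_add, Matrix.zero_apply] at h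
  have e : ((fun _ => (0 : F)) + D *ᵥ w : JJ → F) = D *ᵥ w := by
    ext j; simp
  rw [e] at h
  simpa using h

theorem block_mem_symplectic (B : Matrix Unit JJ F) (D : Matrix JJ JJ F)
    (hG : ∀ v, Cfsg.quadFormOdd m F (Matrix.fromBlocks 1 B 0 D *ᵥ v) = Cfsg.quadFormOdd m F v) :
    D ∈ Matrix.symplecticGroup (Fin m) F := by
  have h2 : (2 : F) = 0 := CharTwo.two_eq_zero
  rw [mem_symplecticGroup_iff_preserves]
  intro u v
  have h1 := isometry_key B D hG (u + v)
  have h3 := isometry_key B D hG u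
  have h4 := isometry_key B D hG v
  rw [Matrix.mulVec_add, Matrix.mulVec_add, qplus_add, qplus_add, Pi.add_apply] at h1
  linear_combination h1 - h3 - h4 - ((B *ᵥ u) () * (B *ᵥ v) ()) * h2

variable (F m) in
/-- the homomorphism `O_{2m+1} → Sp_{2m}` in characteristic two -/
noncomputable def oddToSp :
    Cfsg.isometryGroup F (Cfsg.quadFormOdd m F) →* Matrix.symplecticGroup (Fin m) F where
  toFun g := ⟨g.1.1.toBlocks₂₂, by
    have h := isometry_shape g.1.1 (isometry_isUnit g) (isometry_preserves g)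
    apply block_mem_symplectic g.1.1.toBlocks₁₂
    rw [← h]
    exact isometry_preserves g⟩
  map_one' := by
    apply Subtype.ext
    have : (1 : Matrix II II F).toBlocks₂₂ = 1 := by
      rw [← Matrix.fromBlocks_one, Matrix.toBlocks_fromBlocks₂₂]
    exact this
  map_mul' g g' := by
    apply Subtype.ext
    change (g.1.1 * g'.1.1).toBlocks₂₂ = g.1.1.toBlocks₂₂ * g'.1.1.toBlocks₂₂
    have h := isometry_shape g.1.1 (isometry_isUnit g) (isometry_preserves g)
    have h' := isometry_shape g'.1.1 (isometry_isUnit g') (isometry_preserves g')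
    conv_lhs => rw [h, h']
    rw [Matrix.fromBlocks_multiply, Matrix.toBlocks_fromBlocks₂₂]
    simp

theorem oddToSp_injective : Function.Injective (oddToSp F m) := by
  classical
  intro g g' hgg
  have hD : g.1.1.toBlocks₂₂ = g'.1.1.toBlocks₂₂ := congrArg Subtype.val hgg
  have h := isometry_shape g.1.1 (isometry_isUnit g) (isometry_preserves g)
  have h' := isometry_shape g'.1.1 (isometry_isUnit g') (isometry_preserves g')
  apply Subtype.ext
  apply Units.ext
  rw [h, h', hD]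
  congr 1
  ext x j
  have k1 := isometry_key g.1.1.toBlocks₁₂ g.1.1.toBlocks₂₂ (by
    rw [← h]; exact isometry_preserves g) (Pi.single j 1)
  have k2 := isometry_key g'.1.1.toBlocks₁₂ g'.1.1.toBlocks₂₂ (by
    rw [← h']; exact isometry_preserves g') (Pi.single j 1)
  rw [hD] at k1
  have k3 : ((g.1.1.toBlocks₁₂ *ᵥ Pi.single j 1) ()) ^ 2 =
      ((g'.1.1.toBlocks₁₂ *ᵥ Pi.single j 1) ()) ^ 2 := by
    linear_combination k1 - k2
  have k4 := sq_inj_char_two k3
  simpa using k4

theorem oddToSp_surjective [Finite F] : Function.Surjective (oddToSp F m) := by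
  classical
  have h2 : (2 : F) = 0 := CharTwo.two_eq_zero
  intro S
  -- the defect
  let D : (JJ → F) →+ F :=
    { toFun := fun w => Cfsg.quadFormPlus m F w + Cfsg.quadFormPlus m F (S.1 *ᵥ w)
      map_zero' := by simp [Cfsg.quadFormPlus]
      map_add' := fun w w' => by
        rw [Matrix.mulVec_add, qplus_add, qplus_add, symp_preserves]
        linear_combination (Cfsg.sympForm m F w w') * h2 }
  have hDs : ∀ (c : F) (w : JJ → F), D (c • w) = c ^ 2 * D w := by
    intro c w
    change Cfsg.quadFormPlus m F (c • w) + Cfsg.quadFormPlus m F (S.1 *ᵥ (c • w)) =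
      c ^ 2 * (Cfsg.quadFormPlus m F w + Cfsg.quadFormPlus m F (S.1 *ᵥ w))
    rw [Matrix.mulVec_smul, qplus_smul, qplus_smul]
    ring
  have hsq : ∀ a : F, ∃ b : F, b ^ 2 = a := by
    intro a
    haveI := Fintype.ofFinite F
    obtain ⟨b, hb⟩ := FiniteField.isSquare_of_char_two (CharP.ringChar_of_prime_eq_zero
      Nat.prime_two (by exact_mod_cast h2)) a
    exact ⟨b, by rw [hb, sq]⟩
  choose sq hsq' using hsq
  let B : Matrix Unit JJ F := fun _ j => sq (D (Pi.single j 1))
  have hB : ∀ w : JJ → F, ((B *ᵥ w) ()) ^ 2 = D w := by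
    intro w
    have h3 : w = ∑ j, w j • (Pi.single j 1 : JJ → F) := by
      ext i
      simp [Finset.sum_apply, Pi.single_apply]
    conv_rhs => rw [h3, map_sum]
    simp only [Matrix.mulVec, dotProduct, hDs]
    rw [sum_pow_char 2]
    refine Finset.sum_congr rfl fun j _ => ?_
    rw [mul_pow, hsq']
    ring
  let G : Matrix II II F := Matrix.fromBlocks 1 B 0 S.1
  have hdet : IsUnit G.det := by
    rw [Matrix.det_fromBlocks_zero₂₁, Matrix.det_one, one_mul]
    exact SymplecticGroup.symplectic_det S.2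
  have hpres : ∀ v, Cfsg.quadFormOdd m F (G *ᵥ v) = Cfsg.quadFormOdd m F v := by
    intro v
    rw [ovec_eta v, fromBlocks_mulVec_ovec, qodd_ovec, qodd_ovec]
    generalize v (Sum.inl ()) = a
    generalize (fun j => v (Sum.inr j)) = w
    have e : ((fun j => (0 : Matrix JJ Unit F) j () * a) + S.1 *ᵥ w : JJ → F) = S.1 *ᵥ w := by
      ext j; simp
    rw [e]
    have h4 := hB w
    change _ = Cfsg.quadFormPlus m F w + Cfsg.quadFormPlus m F (S.1 *ᵥ w) at h4
    simp only [Matrix.one_apply_eq, one_mul]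
    linear_combination h4 + (a * (B *ᵥ w) () + Cfsg.quadFormPlus m F (S.1 *ᵥ w)) * h2
  refine ⟨⟨Matrix.GeneralLinearGroup.mk'' G hdet, fun u _ => hpres u⟩, ?_⟩
  apply Subtype.ext
  change G.toBlocks₂₂ = S.1
  exact Matrix.toBlocks_fromBlocks₂₂ _ _ _ _

theorem odd_orth_equiv_sp [Finite F] :
    Nonempty (Cfsg.isometryGroup F (Cfsg.quadFormOdd m F) ≃* Matrix.symplecticGroup (Fin m) F) :=
  ⟨MulEquiv.ofBijective (oddToSp F m) ⟨oddToSp_injective, oddToSp_surjective⟩⟩

end Cfsg.Agent.Lib.Helper14
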