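import Mathlib
import Cfsg.Prelude.Def_Classical

set_option autoImplicit false

namespace Cfsg.Agent.Lib.Helper14.Omega3

open Matrix

variable {F : Type*} [Field F]

abbrev I3 := Unit ⊕ (Fin 1 ⊕ Fin 1)

/-- adjoint action of `2 × 2` matrices on traceless matrices `[[x0, x1], [y1, -x0]]` -/
def M3 (g : Matrix (Fin 2) (Fin 2) F) : Matrix I3 I3 F :=
  Matrix.of fun i j => match i, j with
  | .inl _, .inl _ => g 0 0 * g 1 1 + g 0 1 * g 1 0
  | .inl _, .inr (.inl _) => -(g 0 0 * g 1 0)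
  | .inl _, .inr (.inr _) => g 0 1 * g 1 1
  | .inr (.inl _), .inl _ => -(2 * g 0 0 * g 0 1)
  | .inr (.inl _), .inr (.inl _) => g 0 0 ^ 2
  | .inr (.inl _), .inr (.inr _) => -(g 0 1 ^ 2)
  | .inr (.inr _), .inl _ => 2 * g 1 0 * g 1 1
  | .inr (.inr _), .inr (.inl _) => -(g 1 0 ^ 2)
  | .inr (.inr _), .inr (.inr _) => g 1 1 ^ 2

theorem M3_one : M3 (1 : Matrix (Fin 2) (Fin 2) F) = 1 := by
  ext (i | i | i) (j | j | j) <;> simp [M3, Matrix.one_apply] <;> exact Subsingleton.elim _ _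

theorem M3_mul (g h : Matrix (Fin 2) (Fin 2) F) : M3 (g * h) = M3 g * M3 h := by
  ext (i | i | i) (j | j | j) <;>
    simp [M3, Matrix.mul_apply, Fin.sum_univ_two, Fintype.sum_sum_type] <;> ring

theorem Q_M3 (g : Matrix (Fin 2) (Fin 2) F) (hg : g.det = 1) (v : I3 → F) :
    Cfsg.quadFormOdd 1 F (M3 g *ᵥ v) = Cfsg.quadFormOdd 1 F v := by
  rw [Matrix.det_fin_two] at hg
  simp [Cfsg.quadFormOdd, M3, Matrix.mulVec, dotProduct, Fintype.sum_sum_type]
  have h2 : (g 0 0 * g 1 1 - g 0 1 * g 1 0) ^ 2 = 1 := by rw [hg]; ring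
  linear_combination (v (.inl ()) ^ 2 + v (.inr (.inl 0)) * v (.inr (.inr 0))) * h2

theorem M3_eq_one {g : Matrix (Fin 2) (Fin 2) F} (hg : g.det = 1) (h : M3 g = 1) :
    g = 1 ∨ g = -1 := by
  have h01 := congrFun (congrFun h (.inr (.inl 0))) (.inr (.inr 0))
  have h10 := congrFun (congrFun h (.inr (.inr 0))) (.inr (.inl 0))
  have h00 := congrFun (congrFun h (.inr (.inl 0))) (.inr (.inl 0))
  simp [M3] at h01 h10 h00
  rw [Matrix.det_fin_two, h01, h10, zero_mul, sub_zero] at hg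
  rcases h00 with h00 | h00
  · left
    rw [h00, one_mul] at hg
    ext i j
    fin_cases i <;> fin_cases j
    · exact h00
    · exact h01
    · exact h10
    · exact hg
  · right
    rw [h00] at hg
    ext i j
    fin_cases i <;> fin_cases j
    · exact h00
    · simpa using h01
    · simpa using h10
    · simp
      linear_combination -hg

end Cfsg.Agent.Lib.Helper14.Omega3
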