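import Mathlib
import Cfsg.Agent.Lib.Helper14.GUOrth
import Cfsg.Agent.Lib.Helper15.Bridge
import Cfsg.Agent.Lib.Helper15.MinusForm

set_option autoImplicit false
open Cfsg
open scoped Matrix

namespace Cfsg.Agent.Lib.Helper14.Omega4M

open Cfsg.Agent.Lib.Helper14 Cfsg.Agent.Lib.Helper14.GUO Cfsg.Agent.Lib.Helper15

abbrev I4 := (Fin 1 ⊕ Fin 1) ⊕ Fin 2

variable {K F : Type*} [Field K] [Field F] {q : ℕ} (D : Data K F q)

/-- the hermitian matrix attached to a vector -/
def Psi (v : I4 → F) : Matrix (Fin 2) (Fin 2) K :=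
  !![D.ι (v (.inl (.inl 0))), D.ι (v (.inr 0)) + D.α * D.ι (v (.inr 1));
     (D.ι (v (.inr 0)) + D.α * D.ι (v (.inr 1))) ^ q, - D.ι (v (.inl (.inr 0)))]

/-- conjugate transpose -/
def cstar (q : ℕ) (g : Matrix (Fin 2) (Fin 2) K) : Matrix (Fin 2) (Fin 2) K :=
  !![g 0 0 ^ q, g 1 0 ^ q; g 0 1 ^ q, g 1 1 ^ q]

/-- hermitian -/
def IsH (q : ℕ) (X : Matrix (Fin 2) (Fin 2) K) : Prop :=
  X 0 0 ^ q = X 0 0 ∧ X 1 1 ^ q = X 1 1 ∧ X 1 0 = X 0 1 ^ q

theorem Psi_injective : Function.Injective (Psi D) := by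
  intro v w h
  have h00 := congrFun (congrFun h 0) 0
  have h01 := congrFun (congrFun h 0) 1
  have h11 := congrFun (congrFun h 1) 1
  simp [Psi] at h00 h01 h11
  have h2 := lin_indep D (v (.inr 0) - w (.inr 0)) (v (.inr 1) - w (.inr 1)) (by
    rw [map_sub, map_sub]; linear_combination h01)
  ext ((i | i) | i)
  · rw [Subsingleton.elim i 0]; exact D.ι.injective h00
  · rw [Subsingleton.elim i 0]; exact D.ι.injective h11
  · fin_cases i
    · exact sub_eq_zero.1 h2.1
    · exact sub_eq_zero.1 h2.2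

variable [Fintype K] [Fintype F]

theorem Psi_add (hK : Fintype.card K = q ^ 2) (v w : I4 → F) : Psi D (v + w) = Psi D v + Psi D w := by
  ext i j
  fin_cases i <;> fin_cases j <;> simp [Psi, ← add_pow_q hK] <;> ring_nf

theorem Psi_smul (hF : Fintype.card F = q) (c : F) (v : I4 → F) :
    Psi D (c • v) = D.ι c • Psi D v := by
  ext i j
  fin_cases i <;> fin_cases j <;> simp [Psi]
  · ring
  · rw [← iota_pow D hF c, ← mul_pow, iota_pow D hF c]; ring_nf

theorem det_Psi (hK : Fintype.card K = q ^ 2) (hF : Fintype.card F = q) (v : I4 → F) :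
    (Psi D v).det = - D.ι (quadFormMinus 1 F D.a D.b v) := by
  rw [Matrix.det_fin_two]
  simp only [Psi, quadFormMinus, Matrix.of_apply, Matrix.cons_val', Matrix.cons_val_zero,
    Matrix.cons_val_one, Matrix.cons_val_fin_one, Finset.univ_unique, Fin.default_eq_zero,
    Finset.sum_singleton, map_add, map_mul, map_pow, D.ha, D.hb]
  rw [add_pow_q hK, mul_pow, iota_pow D hF, iota_pow D hF]
  ring

theorem isH_Psi (hK : Fintype.card K = q ^ 2) (hF : Fintype.card F = q) (v : I4 → F) :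
    IsH q (Psi D v) := by
  refine ⟨?_, ?_, ?_⟩
  · simp [Psi, iota_pow D hF]
  · simp [Psi, neg_pow_q hK, iota_pow D hF]
  · simp [Psi]

theorem exists_Psi (hK : Fintype.card K = q ^ 2) (hF : Fintype.card F = q)
    (X : Matrix (Fin 2) (Fin 2) K) (hX : IsH q X) : ∃ v, Psi D v = X := by
  obtain ⟨h0, h1, h2⟩ := hX
  obtain ⟨x, hx⟩ := mem_range_of_pow D.ι hF _ h0
  obtain ⟨y, hy⟩ := mem_range_of_pow D.ι hF _ h1
  obtain ⟨z, hz⟩ := (Phi0_bijective D hK hF 1).2 (fun _ => X 0 1)
  have hz' := congrFun hz 0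
  simp only [Phi0] at hz'
  refine ⟨Sum.elim (Sum.elim (fun _ => x) (fun _ => -y)) (fun c => z (0, c)), ?_⟩
  ext i j
  fin_cases i <;> fin_cases j <;> simp [Psi, hx, hy, hz', h2]

theorem isH_conj (hK : Fintype.card K = q ^ 2) (g X : Matrix (Fin 2) (Fin 2) K) (hX : IsH q X) :
    IsH q (g * X * cstar q g) := by
  obtain ⟨h0, h1, h2⟩ := hX
  refine ⟨?_, ?_, ?_⟩
  · simp only [cstar, Matrix.mul_apply, Fin.sum_univ_two, Matrix.of_apply, Matrix.cons_val',
      Matrix.cons_val_zero, Matrix.cons_val_one, Matrix.cons_val_fin_one, add_pow_q hK, mul_pow,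
      pow_q_q hK, h0, h1, h2]
    ring
  · simp only [cstar, Matrix.mul_apply, Fin.sum_univ_two, Matrix.of_apply, Matrix.cons_val',
      Matrix.cons_val_zero, Matrix.cons_val_one, Matrix.cons_val_fin_one, add_pow_q hK, mul_pow,
      pow_q_q hK, h0, h1, h2]
    ring
  · simp only [cstar, Matrix.mul_apply, Fin.sum_univ_two, Matrix.of_apply, Matrix.cons_val',
      Matrix.cons_val_zero, Matrix.cons_val_one, Matrix.cons_val_fin_one, add_pow_q hK, mul_pow,
      pow_q_q hK, h0, h1, h2]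
    ring

theorem cstar_mul (hK : Fintype.card K = q ^ 2) (g h : Matrix (Fin 2) (Fin 2) K) :
    cstar q (g * h) = cstar q h * cstar q g := by
  ext i j
  fin_cases i <;> fin_cases j <;>
    simp [cstar, Matrix.mul_apply, Fin.sum_univ_two, add_pow_q hK, mul_pow] <;> ring

theorem cstar_one (hK : Fintype.card K = q ^ 2) : cstar q (1 : Matrix (Fin 2) (Fin 2) K) = 1 := by
  have := q_ne_zero hK
  ext i j
  fin_cases i <;> fin_cases j <;> simp [cstar, this]

theorem det_cstar (hK : Fintype.card K = q ^ 2) (g : Matrix (Fin 2) (Fin 2) K) :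
    (cstar q g).det = g.det ^ q := by
  rw [Matrix.det_fin_two, Matrix.det_fin_two, sub_pow_q hK, mul_pow, mul_pow]
  simp [cstar]
  ring

theorem exists_T (hK : Fintype.card K = q ^ 2) (hF : Fintype.card F = q)
    (g : Matrix (Fin 2) (Fin 2) K) :
    ∃ T : Module.End F (I4 → F), ∀ v, Psi D (T v) = g * Psi D v * cstar q g := by
  have h := fun v => exists_Psi D hK hF _ (isH_conj hK g _ (isH_Psi D hK hF v))
  choose f hf using h
  refine ⟨{ toFun := f, map_add' := ?_, map_smul' := ?_ }, hf⟩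
  · intro v w
    apply Psi_injective D
    rw [Psi_add D hK, hf, hf, hf, Psi_add D hK, mul_add, add_mul]
  · intro c v
    apply Psi_injective D
    rw [RingHom.id_apply, Psi_smul D hF, hf, hf, Psi_smul D hF, Matrix.mul_smul, Matrix.smul_mul]

/-- the action on vectors -/
noncomputable def T (hK : Fintype.card K = q ^ 2) (hF : Fintype.card F = q)
    (g : Matrix (Fin 2) (Fin 2) K) : Module.End F (I4 → F) := (exists_T D hK hF g).choose

theorem Psi_T (hK : Fintype.card K = q ^ 2) (hF : Fintype.card F = q)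
    (g : Matrix (Fin 2) (Fin 2) K) (v : I4 → F) :
    Psi D (T D hK hF g v) = g * Psi D v * cstar q g := (exists_T D hK hF g).choose_spec v

theorem T_mul (hK : Fintype.card K = q ^ 2) (hF : Fintype.card F = q)
    (g h : Matrix (Fin 2) (Fin 2) K) : T D hK hF (g * h) = T D hK hF g * T D hK hF h := by
  refine LinearMap.ext (fun v => ?_)
  apply Psi_injective D
  rw [Module.End.mul_apply, Psi_T, Psi_T, Psi_T, cstar_mul hK]
  simp only [Matrix.mul_assoc]

theorem T_isIso (hK : Fintype.card K = q ^ 2) (hF : Fintype.card F = q)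
    (g : Matrix (Fin 2) (Fin 2) K) (hg : g.det = 1) :
    IsIso (qMinus 1 F D.a D.b) (T D hK hF g) := by
  intro v
  rw [coe_qMinus]
  apply D.ι.injective
  apply neg_injective
  rw [← det_Psi D hK hF, ← det_Psi D hK hF, Psi_T, Matrix.det_mul, Matrix.det_mul, det_cstar hK, hg]
  simp

/-- the homomorphism `SL₂(q²) → O₄⁻(q)` -/
noncomputable def rho (hK : Fintype.card K = q ^ 2) (hF : Fintype.card F = q) :
    Matrix.SpecialLinearGroup (Fin 2) K →* isometryGroup F (qMinus 1 F D.a D.b) :=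
  MonoidHom.mk' (fun g => ofEnd _ (qMinus_nondegenerate 1 D.a D.b (aniso D hK hF)) (T D hK hF g.1)
    (T_isIso D hK hF g.1 g.2)) (by
    intro g h
    apply toEnd_injective
    rw [map_mul, toEnd_ofEnd, toEnd_ofEnd, toEnd_ofEnd]
    exact T_mul D hK hF g.1 h.1)

theorem toEnd_rho (hK : Fintype.card K = q ^ 2) (hF : Fintype.card F = q)
    (g : Matrix.SpecialLinearGroup (Fin 2) K) :
    toEnd _ (rho D hK hF g) = T D hK hF g.1 :=
  toEnd_ofEnd _ (qMinus_nondegenerate 1 D.a D.b (aniso D hK hF)) _ (T_isIso D hK hF g.1 g.2)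

theorem ker_rho (hK : Fintype.card K = q ^ 2) (hF : Fintype.card F = q)
    (g : Matrix.SpecialLinearGroup (Fin 2) K) (hg : g ∈ (rho D hK hF).ker) : g = 1 ∨ g = -1 := by
  have h1 : T D hK hF g.1 = 1 := by
    rw [← toEnd_rho, MonoidHom.mem_ker.1 hg, map_one]
  have h2 : ∀ v, g.1 * Psi D v * cstar q g.1 = Psi D v := by
    intro v
    rw [← Psi_T D hK hF, h1, Module.End.one_apply]
  have hq := q_ne_zero hK
  have hd := g.2
  rw [Matrix.det_fin_two] at hd
  have e1 := h2 (Pi.single (.inl (.inl 0)) 1)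
  have e2 := h2 (Pi.single (.inl (.inr 0)) 1)
  have e3 := h2 (Pi.single (.inr 0) 1)
  have a11 := congrFun (congrFun e1 1) 1
  have b00 := congrFun (congrFun e2 0) 0
  have b11 := congrFun (congrFun e2 1) 1
  have c01 := congrFun (congrFun e3 0) 1
  simp [Psi, cstar, Matrix.mul_apply, Fin.sum_univ_two, hq] at a11 b00 b11 c01
  rw [a11, b00] at hd
  rw [b00] at c01
  simp only [zero_mul, mul_zero, sub_zero, zero_add] at hd c01
  have h00 : g.1 0 0 ≠ 0 := by
    intro h
    rw [h, zero_mul] at hd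
    exact zero_ne_one hd
  have h3 : g.1 1 1 ^ q = g.1 1 1 := by
    apply mul_left_cancel₀ h00
    rw [c01, hd]
  rw [h3] at b11
  have h4 : g.1 0 0 = g.1 1 1 := by linear_combination (-g.1 0 0) * b11 + g.1 1 1 * hd
  have h5 : (g.1 1 1 - 1) * (g.1 1 1 + 1) = 0 := by linear_combination b11
  rcases mul_eq_zero.1 h5 with h | h
  · left
    have h6 : g.1 1 1 = 1 := sub_eq_zero.1 h
    apply Subtype.ext
    ext i j
    fin_cases i <;> fin_cases j
    · change g.1 0 0 = 1
      rw [h4, h6]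
    · exact b00
    · exact a11
    · exact h6
  · right
    have h6 : g.1 1 1 = -1 := eq_neg_of_add_eq_zero_left h
    apply Subtype.ext
    ext i j
    fin_cases i <;> fin_cases j
    · change g.1 0 0 = -1
      rw [h4, h6]
    · simpa using b00
    · simpa using a11
    · exact h6

end Cfsg.Agent.Lib.Helper14.Omega4M
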