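import Mathlib
import Cfsg.Prelude.Def_Classical

set_option autoImplicit false

namespace Cfsg.Agent.Lib.Helper14.Omega4P

open Matrix

variable {F : Type*} [Field F]

abbrev I4 := Fin 2 ⊕ Fin 2

/-- left multiplication on `X = [[x1, x2], [-y2, y1]]` -/
def L (g : Matrix (Fin 2) (Fin 2) F) : Matrix I4 I4 F :=
  fromBlocks !![g 0 0, 0; 0, g 0 0] !![0, -g 0 1; g 0 1, 0] !![0, g 1 0; -g 1 0, 0]
    !![g 1 1, 0; 0, g 1 1]

/-- right multiplication by the adjugate -/
def R (h : Matrix (Fin 2) (Fin 2) F) : Matrix I4 I4 F :=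
  fromBlocks !![h 1 1, -h 1 0; -h 0 1, h 0 0] 0 0 !![h 0 0, h 0 1; h 1 0, h 1 1]

theorem L_one : L (1 : Matrix (Fin 2) (Fin 2) F) = 1 := by
  ext (i | i) (j | j) <;> fin_cases i <;> fin_cases j <;> simp [L]

theorem R_one : R (1 : Matrix (Fin 2) (Fin 2) F) = 1 := by
  ext (i | i) (j | j) <;> fin_cases i <;> fin_cases j <;> simp [R]

theorem L_mul (g h : Matrix (Fin 2) (Fin 2) F) : L (g * h) = L g * L h := by
  ext (i | i) (j | j) <;> fin_cases i <;> fin_cases j <;>
    simp [L, Matrix.mul_apply, Fin.sum_univ_two, Fintype.sum_sum_type] <;> ring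

theorem R_mul (g h : Matrix (Fin 2) (Fin 2) F) : R (g * h) = R g * R h := by
  ext (i | i) (j | j) <;> fin_cases i <;> fin_cases j <;>
    simp [R, Matrix.mul_apply, Fin.sum_univ_two, Fintype.sum_sum_type] <;> ring

theorem L_R_comm (g h : Matrix (Fin 2) (Fin 2) F) : L g * R h = R h * L g := by
  ext (i | i) (j | j) <;> fin_cases i <;> fin_cases j <;>
    simp [L, R, Matrix.mul_apply, Fin.sum_univ_two, Fintype.sum_sum_type] <;> ring

theorem Q_L (g : Matrix (Fin 2) (Fin 2) F) (hg : g.det = 1) (v : I4 → F) :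
    Cfsg.quadFormPlus 2 F (L g *ᵥ v) = Cfsg.quadFormPlus 2 F v := by
  rw [Matrix.det_fin_two] at hg
  simp [Cfsg.quadFormPlus, L, Matrix.mulVec, dotProduct, Fin.sum_univ_two, Fintype.sum_sum_type]
  linear_combination (v (.inl 0) * v (.inr 0) + v (.inl 1) * v (.inr 1)) * hg

theorem Q_R (g : Matrix (Fin 2) (Fin 2) F) (hg : g.det = 1) (v : I4 → F) :
    Cfsg.quadFormPlus 2 F (R g *ᵥ v) = Cfsg.quadFormPlus 2 F v := by
  rw [Matrix.det_fin_two] at hg
  simp [Cfsg.quadFormPlus, R, Matrix.mulVec, dotProduct, Fin.sum_univ_two, Fintype.sum_sum_type]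
  linear_combination (v (.inl 0) * v (.inr 0) + v (.inl 1) * v (.inr 1)) * hg

/-- `L g = R k` forces `g = k = ± 1` -/
theorem L_eq_R {g k : Matrix (Fin 2) (Fin 2) F} (hg : g.det = 1) (e : L g = R k) :
    (g = 1 ∧ k = 1) ∨ (g = -1 ∧ k = -1) := by
  have g01 := congrFun (congrFun e (.inl 1)) (.inr 0)
  have g10 := congrFun (congrFun e (.inr 0)) (.inl 1)
  have k00 := congrFun (congrFun e (.inr 0)) (.inr 0)
  have k01 := congrFun (congrFun e (.inr 0)) (.inr 1)
  have k10 := congrFun (congrFun e (.inr 1)) (.inr 0)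
  have k11 := congrFun (congrFun e (.inr 1)) (.inr 1)
  have a00 := congrFun (congrFun e (.inl 1)) (.inl 1)
  simp [L, R] at g01 g10 k00 k01 k10 k11 a00
  rw [Matrix.det_fin_two, g01, g10, zero_mul, sub_zero, k00, ← a00] at hg
  have h1 : (g 0 0 - 1) * (g 0 0 + 1) = 0 := by linear_combination hg
  rcases mul_eq_zero.1 h1 with h | h
  · left
    have h0 : g 0 0 = 1 := sub_eq_zero.1 h
    constructor
    · ext i j
      fin_cases i <;> fin_cases j
      · exact h0
      · exact g01
      · exact g10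
      · change g 1 1 = 1
        rw [k00, ← a00, h0]
    · ext i j
      fin_cases i <;> fin_cases j
      · change k 0 0 = 1
        rw [← a00, h0]
      · exact k01.symm
      · exact k10.symm
      · change k 1 1 = 1
        rw [← k11, k00, ← a00, h0]
  · right
    have h0 : g 0 0 = -1 := eq_neg_of_add_eq_zero_left h
    constructor
    · ext i j
      fin_cases i <;> fin_cases j
      · exact h0
      · simpa using g01
      · simpa using g10
      · change g 1 1 = -1
        rw [k00, ← a00, h0]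
    · ext i j
      fin_cases i <;> fin_cases j
      · change k 0 0 = -1
        rw [← a00, h0]
      · simpa using k01.symm
      · simpa using k10.symm
      · change k 1 1 = -1
        rw [← k11, k00, ← a00, h0]

end Cfsg.Agent.Lib.Helper14.Omega4P
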