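import Mathlib
import Cfsg.Prelude.Def_Classical

set_option autoImplicit false

namespace Cfsg.Agent.Lib.Helper14.Omega6P

open Matrix

variable {F : Type*} [Field F]

abbrev I6 := Fin 3 ⊕ Fin 3

/-- ordered pairs indexing the basis of the exterior square -/
def p1 : I6 → Fin 4 := Sum.elim ![0, 0, 0] ![2, 3, 1]

def p2 : I6 → Fin 4 := Sum.elim ![1, 2, 3] ![3, 1, 2]

def minor (g : Matrix (Fin 4) (Fin 4) F) (a b c d : Fin 4) : F := g a c * g b d - g a d * g b c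

/-- second compound matrix -/
def C (g : Matrix (Fin 4) (Fin 4) F) : Matrix I6 I6 F :=
  Matrix.of fun I J => minor g (p1 I) (p2 I) (p1 J) (p2 J)

theorem C_one : C (1 : Matrix (Fin 4) (Fin 4) F) = 1 := by
  ext (i | i) (j | j) <;> fin_cases i <;> fin_cases j <;> simp [C, p1, p2] <;>
    simp [minor]

theorem cauchy_binet (g h : Matrix (Fin 4) (Fin 4) F) (a b c d : Fin 4) :
    minor (g * h) a b c d = ∑ K : I6, minor g a b (p1 K) (p2 K) * minor h (p1 K) (p2 K) c d := by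
  simp only [Fintype.sum_sum_type, Fin.sum_univ_three, p1, p2, Sum.elim_inl, Sum.elim_inr]
  simp only [Matrix.cons_val_zero, Matrix.cons_val_one, Matrix.cons_val]
  simp only [minor, Matrix.mul_apply, Fin.sum_univ_four]
  ring

theorem C_mul (g h : Matrix (Fin 4) (Fin 4) F) : C (g * h) = C g * C h := by
  ext I J
  rw [Matrix.mul_apply]
  exact cauchy_binet g h _ _ _ _

theorem det4 (g : Matrix (Fin 4) (Fin 4) F) : g.det =
    (g 0 0 * g 1 1 - g 0 1 * g 1 0) * (g 2 2 * g 3 3 - g 2 3 * g 3 2)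
    - (g 0 0 * g 2 1 - g 0 1 * g 2 0) * (g 1 2 * g 3 3 - g 1 3 * g 3 2)
    + (g 0 0 * g 3 1 - g 0 1 * g 3 0) * (g 1 2 * g 2 3 - g 1 3 * g 2 2)
    + (g 1 0 * g 2 1 - g 1 1 * g 2 0) * (g 0 2 * g 3 3 - g 0 3 * g 3 2)
    - (g 1 0 * g 3 1 - g 1 1 * g 3 0) * (g 0 2 * g 2 3 - g 0 3 * g 2 2)
    + (g 2 0 * g 3 1 - g 2 1 * g 3 0) * (g 0 2 * g 1 3 - g 0 3 * g 1 2) := by
  rw [Matrix.det_succ_row_zero]
  simp only [Fin.sum_univ_four, Matrix.det_fin_three, Matrix.submatrix_apply]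
  simp [Fin.succAbove]
  ring

theorem C_mulVec (g : Matrix (Fin 4) (Fin 4) F) (v : I6 → F) (I : I6) :
    (C g *ᵥ v) I = minor g (p1 I) (p2 I) 0 1 * v (.inl 0) + minor g (p1 I) (p2 I) 0 2 * v (.inl 1)
      + minor g (p1 I) (p2 I) 0 3 * v (.inl 2) + minor g (p1 I) (p2 I) 2 3 * v (.inr 0)
      + minor g (p1 I) (p2 I) 3 1 * v (.inr 1) + minor g (p1 I) (p2 I) 1 2 * v (.inr 2) := by
  simp only [Matrix.mulVec, dotProduct, Fintype.sum_sum_type, Fin.sum_univ_three, C, Matrix.of_apply,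
    p1, p2, Sum.elim_inl, Sum.elim_inr]
  simp only [Matrix.cons_val_zero, Matrix.cons_val_one, Matrix.cons_val]
  ring

theorem Q_C (g : Matrix (Fin 4) (Fin 4) F) (v : I6 → F) :
    Cfsg.quadFormPlus 3 F (C g *ᵥ v) = g.det * Cfsg.quadFormPlus 3 F v := by
  rw [det4]
  simp only [Cfsg.quadFormPlus, Fin.sum_univ_three, C_mulVec, p1, p2, Sum.elim_inl, Sum.elim_inr]
  simp only [Matrix.cons_val_zero, Matrix.cons_val_one, Matrix.cons_val]
  simp only [minor]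
  ring

end Cfsg.Agent.Lib.Helper14.Omega6P
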