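import Mathlib
import Cfsg.Agent.Lib.Helper14.Omega6P

set_option autoImplicit false

namespace Cfsg.Agent.Lib.Helper14.Omega5

open Matrix Cfsg.Agent.Lib.Helper14.Omega6P

variable {F : Type*} [Field F]

abbrev I5 := Unit ⊕ (Fin 2 ⊕ Fin 2)
abbrev I4 := Fin 2 ⊕ Fin 2

def e4 : Fin 4 ≃ I4 where
  toFun := ![.inl 0, .inl 1, .inr 0, .inr 1]
  invFun := Sum.elim ![0, 1] ![2, 3]
  left_inv := by intro i; fin_cases i <;> rfl
  right_inv := by rintro (i | i) <;> fin_cases i <;> rfl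

def kk : I6 → I5 := Sum.elim ![.inr (.inl 0), .inl (), .inr (.inl 1)] ![.inr (.inr 0), .inl (), .inr (.inr 1)]

def ss : I5 → I6 := Sum.elim (fun _ => .inl 1) (Sum.elim ![.inl 0, .inl 2] ![.inr 0, .inr 2])

def Em (F : Type*) [Field F] : Matrix I6 I5 F := Matrix.of fun I j => if kk I = j then 1 else 0
def Pm (F : Type*) [Field F] : Matrix I5 I6 F := Matrix.of fun j I => if ss j = I then 1 else 0

theorem Em_mulVec (w : I5 → F) (I : I6) : (Em F *ᵥ w) I = w (kk I) := by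
  simp [Em, Matrix.mulVec, dotProduct]

theorem Pm_mulVec (v : I6 → F) (j : I5) : (Pm F *ᵥ v) j = v (ss j) := by
  simp [Pm, Matrix.mulVec, dotProduct]

theorem kk_ss (j : I5) : kk (ss j) = j := by
  rcases j with j | j | j
  · rfl
  · fin_cases j <;> rfl
  · fin_cases j <;> rfl

theorem Pm_mul_Em : Pm F * Em F = 1 := by
  apply Matrix.mulVec_injective
  funext w
  funext j
  rw [← Matrix.mulVec_mulVec, Pm_mulVec, Em_mulVec, kk_ss, Matrix.one_mulVec]

theorem Q_Em (w : I5 → F) : Cfsg.quadFormPlus 3 F (Em F *ᵥ w) = Cfsg.quadFormOdd 2 F w := by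
  simp only [Cfsg.quadFormPlus, Cfsg.quadFormOdd, Fin.sum_univ_three, Fin.sum_univ_two, Em_mulVec]
  simp [kk]
  ring

/-- the compound matrix of a matrix indexed by `Fin 2 ⊕ Fin 2` -/
def C4 (A : Matrix I4 I4 F) : Matrix I6 I6 F := C (A.submatrix e4 e4)

theorem C4_one : C4 (1 : Matrix I4 I4 F) = 1 := by
  rw [C4, Matrix.submatrix_one_equiv, C_one]

theorem C4_mul (A B : Matrix I4 I4 F) : C4 (A * B) = C4 A * C4 B := by
  rw [C4, C4, C4, ← C_mul, Matrix.submatrix_mul_equiv]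

theorem Q_C4 (A : Matrix I4 I4 F) (hA : A.det = 1) (v : I6 → F) :
    Cfsg.quadFormPlus 3 F (C4 A *ᵥ v) = Cfsg.quadFormPlus 3 F v := by
  rw [C4, Q_C, Matrix.det_submatrix_equiv_self, hA, one_mul]

theorem key (A : Matrix I4 I4 F) (hA : Aᵀ * J (Fin 2) F * A = J (Fin 2) F) (w : I5 → F) :
    (C4 A *ᵥ (Em F *ᵥ w)) (.inl 1) = (C4 A *ᵥ (Em F *ᵥ w)) (.inr 1) := by
  have h01 := congrFun (congrFun hA (.inl 0)) (.inl 1)
  have h02 := congrFun (congrFun hA (.inl 0)) (.inr 0)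
  have h03 := congrFun (congrFun hA (.inl 0)) (.inr 1)
  have h23 := congrFun (congrFun hA (.inr 0)) (.inr 1)
  have h31 := congrFun (congrFun hA (.inr 1)) (.inl 1)
  have h12 := congrFun (congrFun hA (.inl 1)) (.inr 0)
  simp [Matrix.mul_apply, Matrix.J, Fintype.sum_sum_type, Fin.sum_univ_two, Matrix.one_apply]
    at h01 h02 h03 h23 h31 h12
  rw [C4, C_mulVec, C_mulVec]
  simp only [Em_mulVec, p1, p2, kk, Sum.elim_inl, Sum.elim_inr]
  simp only [Matrix.cons_val_zero, Matrix.cons_val_one, Matrix.cons_val]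
  simp only [minor, Matrix.submatrix_apply, e4, Equiv.coe_fn_mk]
  simp only [Matrix.cons_val_zero, Matrix.cons_val_one, Matrix.cons_val]
  linear_combination (-(w (.inr (.inl 0)))) * h01 - w (.inl ()) * h02 - w (.inr (.inl 1)) * h03
    - w (.inr (.inr 0)) * h23 - w (.inl ()) * h31 - w (.inr (.inr 1)) * h12

def D (A : Matrix I4 I4 F) : Matrix I5 I5 F := Pm F * C4 A * Em F

theorem Em_Pm (A : Matrix I4 I4 F) (hA : Aᵀ * J (Fin 2) F * A = J (Fin 2) F) :
    Em F * Pm F * (C4 A * Em F) = C4 A * Em F := by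
  apply Matrix.mulVec_injective
  funext w
  funext I
  rw [← Matrix.mulVec_mulVec, ← Matrix.mulVec_mulVec, ← Matrix.mulVec_mulVec, Em_mulVec, Pm_mulVec]
  rcases I with I | I
  · fin_cases I <;> rfl
  · fin_cases I
    · rfl
    · exact key A hA w
    · rfl

theorem D_one : D (1 : Matrix I4 I4 F) = 1 := by rw [D, C4_one, Matrix.mul_one, Pm_mul_Em]

theorem D_mul (A B : Matrix I4 I4 F) (hB : Bᵀ * J (Fin 2) F * B = J (Fin 2) F) :
    D (A * B) = D A * D B := by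
  rw [D, D, D, C4_mul]
  calc Pm F * (C4 A * C4 B) * Em F = Pm F * C4 A * (C4 B * Em F) := by simp only [Matrix.mul_assoc]
    _ = Pm F * C4 A * (Em F * Pm F * (C4 B * Em F)) := by rw [Em_Pm B hB]
    _ = _ := by simp only [Matrix.mul_assoc]

theorem Em_D (A : Matrix I4 I4 F) (hA : Aᵀ * J (Fin 2) F * A = J (Fin 2) F) (w : I5 → F) :
    Em F *ᵥ (D A *ᵥ w) = C4 A *ᵥ (Em F *ᵥ w) := by
  rw [Matrix.mulVec_mulVec, Matrix.mulVec_mulVec, ← Em_Pm A hA, D]
  simp only [Matrix.mul_assoc]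

theorem Q_D (A : Matrix I4 I4 F) (hA : Aᵀ * J (Fin 2) F * A = J (Fin 2) F) (hdet : A.det = 1)
    (w : I5 → F) : Cfsg.quadFormOdd 2 F (D A *ᵥ w) = Cfsg.quadFormOdd 2 F w := by
  rw [← Q_Em, Em_D A hA, Q_C4 A hdet, Q_Em]

theorem D_ne_one : D (fromBlocks 1 (single 0 0 1) 0 1 : Matrix I4 I4 F) ≠ 1 := by
  intro h
  have hA : (fromBlocks 1 (single 0 0 1) 0 1 : Matrix I4 I4 F)ᵀ * J (Fin 2) F *
      (fromBlocks 1 (single 0 0 1) 0 1 : Matrix I4 I4 F) = J (Fin 2) F := by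
    rw [Matrix.J, fromBlocks_transpose, fromBlocks_multiply, fromBlocks_multiply]
    simp
  have h1 := Em_D _ hA (Pi.single (.inr (.inr 1)) 1 : I5 → F)
  rw [h, Matrix.one_mulVec] at h1
  have h2 := congrFun h1 (.inl 0)
  rw [C4, C_mulVec] at h2
  simp only [Em_mulVec, p1, p2, kk, Sum.elim_inl, Sum.elim_inr] at h2
  simp only [Matrix.cons_val_zero, Matrix.cons_val_one, Matrix.cons_val] at h2
  simp only [minor, Matrix.submatrix_apply, e4, Equiv.coe_fn_mk] at h2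
  simp only [Matrix.cons_val_zero, Matrix.cons_val_one, Matrix.cons_val] at h2
  simp at h2

def Dhom (F : Type*) [Field F] : Matrix.symplecticGroup (Fin 2) F →* Matrix I5 I5 F where
  toFun g := D g.1
  map_one' := D_one
  map_mul' g h := D_mul g.1 h.1 (SymplecticGroup.mem_iff'.1 h.2)

theorem Dhom_mem (g : Matrix.symplecticGroup (Fin 2) F) :
    MonoidHom.toHomUnits (Dhom F) g ∈ Cfsg.isometryGroup F (Cfsg.quadFormOdd 2 F) := by
  intro u _
  exact Q_D g.1 (SymplecticGroup.mem_iff'.1 g.2) (SymplecticGroup.det_eq_one g.2) u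

noncomputable def rho5 (F : Type*) [Field F] :
    Matrix.symplecticGroup (Fin 2) F →* Cfsg.isometryGroup F (Cfsg.quadFormOdd 2 F) :=
  MonoidHom.codRestrict (MonoidHom.toHomUnits (Dhom F)) _ Dhom_mem

theorem rho5_val (g : Matrix.symplecticGroup (Fin 2) F) : (rho5 F g).1.1 = D g.1 := rfl

end Cfsg.Agent.Lib.Helper14.Omega5
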