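import Mathlib
import Cfsg.Agent.Lib.Helper14.Omega6P

set_option autoImplicit false

namespace Cfsg.Agent.Lib.Helper14.Omega6MA

open Matrix Cfsg.Agent.Lib.Helper14.Omega6P

variable {F : Type*} [Field F]

theorem minor_transpose (g : Matrix (Fin 4) (Fin 4) F) (a b c d : Fin 4) :
    minor gᵀ a b c d = minor g c d a b := by
  simp only [minor, Matrix.transpose_apply]
  ring

theorem C_transpose (g : Matrix (Fin 4) (Fin 4) F) : C gᵀ = (C g)ᵀ := by
  ext I J
  exact minor_transpose g _ _ _ _

theorem C_map (σ : F →+* F) (g : Matrix (Fin 4) (Fin 4) F) : C (g.map σ) = (C g).map σ := by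
  ext I J
  simp [C, minor]

/-- Gram matrix of the Klein form -/
def S : Matrix I6 I6 F := Matrix.of fun I J => if J = I.swap then 1 else 0

theorem S_mul (A : Matrix I6 I6 F) (I J : I6) : ((S : Matrix I6 I6 F) * A) I J = A I.swap J := by
  simp [S, Matrix.mul_apply]

theorem mul_S (A : Matrix I6 I6 F) (I J : I6) : (A * (S : Matrix I6 I6 F)) I J = A I J.swap := by
  rw [Matrix.mul_apply, Finset.sum_eq_single J.swap]
  · simp [S]
  · intro K _ hK
    have : J ≠ K.swap := by
      rintro rfl
      exact hK (by simp)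
    simp [S, this]
  · simp

theorem C_S_entry (g : Matrix (Fin 4) (Fin 4) F) (I J : I6) :
    ∑ K : I6, minor g (p1 K) (p2 K) (p1 I) (p2 I) * minor g (p1 K.swap) (p2 K.swap) (p1 J) (p2 J) =
      if J = I.swap then g.det else 0 := by
  rw [det4]
  simp only [Fintype.sum_sum_type, Fin.sum_univ_three, Sum.swap_inl, Sum.swap_inr]
  rcases I with i | i <;> rcases J with j | j <;> fin_cases i <;> fin_cases j <;>
    simp only [p1, p2, Sum.elim_inl, Sum.elim_inr, Sum.swap_inl, Sum.swap_inr, Fin.zero_eta,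
      Fin.mk_one, Fin.reduceFinMk, Matrix.cons_val_zero, Matrix.cons_val_one, Matrix.cons_val,
      reduceCtorEq, if_false, Sum.inl.injEq, Sum.inr.injEq, Fin.reduceEq, if_true, minor] <;>
    ring

theorem C_S (g : Matrix (Fin 4) (Fin 4) F) (hg : g.det = 1) : (C g)ᵀ * (S * C g) = S := by
  ext I J
  rw [Matrix.mul_apply]
  simp only [S_mul, Matrix.transpose_apply]
  have := C_S_entry g I J
  rw [hg] at this
  exact this

/-- complementary minors of a "unitary" matrix -/
theorem S_C (σ : F →+* F) (g : Matrix (Fin 4) (Fin 4) F) (hg : g.det = 1)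
    (hu : gᵀ * g.map σ = 1) : S * C g = (C g).map σ * S := by
  have h1 : (C g)ᵀ * (C g).map σ = 1 := by
    rw [← C_transpose, ← C_map, ← C_mul, hu, C_one]
  have h2 : (C g).map σ * (C g)ᵀ = 1 := mul_eq_one_comm.1 h1
  calc S * C g = ((C g).map σ * (C g)ᵀ) * (S * C g) := by rw [h2, Matrix.one_mul]
    _ = (C g).map σ * ((C g)ᵀ * (S * C g)) := by rw [Matrix.mul_assoc]
    _ = (C g).map σ * S := by rw [C_S g hg]

theorem C_swap (σ : F →+* F) (g : Matrix (Fin 4) (Fin 4) F) (hg : g.det = 1)
    (hu : gᵀ * g.map σ = 1) (I J : I6) : C g I.swap J = σ (C g I J.swap) := by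
  have := congrFun (congrFun (S_C σ g hg hu) I) J
  rwa [S_mul, mul_S] at this

theorem exists_pair : ∀ a b : Fin 4, a ≠ b →
    ∃ I : I6, (p1 I = a ∧ p2 I = b) ∨ (p1 I = b ∧ p2 I = a) := by decide

theorem minor_swap_rows (g : Matrix (Fin 4) (Fin 4) F) (a b c d : Fin 4) :
    minor g b a c d = - minor g a b c d := by
  simp only [minor]; ring

theorem minor_swap_cols (g : Matrix (Fin 4) (Fin 4) F) (a b c d : Fin 4) :
    minor g a b d c = - minor g a b c d := by
  simp only [minor]; ring

theorem minor_eq_of_C_eq {g h : Matrix (Fin 4) (Fin 4) F} (e : C g = C h) (a b c d : Fin 4) :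
    minor g a b c d = minor h a b c d := by
  by_cases hab : a = b
  · subst hab; simp only [minor]; ring
  by_cases hcd : c = d
  · subst hcd; simp only [minor]; ring
  obtain ⟨I, hI⟩ := exists_pair a b hab
  obtain ⟨J, hJ⟩ := exists_pair c d hcd
  have h1 : minor g (p1 I) (p2 I) (p1 J) (p2 J) = minor h (p1 I) (p2 I) (p1 J) (p2 J) :=
    congrFun (congrFun e I) J
  rcases hI with ⟨rfl, rfl⟩ | ⟨rfl, rfl⟩ <;> rcases hJ with ⟨rfl, rfl⟩ | ⟨rfl, rfl⟩
  · exact h1
  · rw [minor_swap_cols g, minor_swap_cols h, h1]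
  · rw [minor_swap_rows g, minor_swap_rows h, h1]
  · rw [minor_swap_rows g, minor_swap_rows h, minor_swap_cols g, minor_swap_cols h, h1]

theorem exists_third : ∀ a b : Fin 4, ∃ k, k ≠ a ∧ k ≠ b := by decide

theorem C_eq_one {g : Matrix (Fin 4) (Fin 4) F} (e : C g = 1) : g = 1 ∨ g = -1 := by
  rw [← C_one] at e
  have hm := minor_eq_of_C_eq e
  have hoff : ∀ c j, c ≠ j → g c j = 0 := by
    intro c j hcj
    obtain ⟨k, hkc, hkj⟩ := exists_third c j
    have h1 := hm k c j k
    have h2 := hm j c j k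
    have h3 := hm j k j k
    simp only [minor, Matrix.one_apply, hkc, hkj, hcj, hkc.symm, hkj.symm, hcj.symm, if_true,
      if_false] at h1 h2 h3
    linear_combination (-g j j) * h1 + g k j * h2 - g c j * h3
  have hdiag : ∀ i j, i ≠ j → g i i * g j j = 1 := by
    intro i j hij
    have h3 := hm i j i j
    simp only [minor, Matrix.one_apply, hij, hij.symm, if_true, if_false, hoff i j hij] at h3
    linear_combination h3
  have hne : ∀ i, g i i ≠ 0 := by
    intro i h
    obtain ⟨k, hk, -⟩ := exists_third i i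
    have := hdiag i k hk.symm
    rw [h, zero_mul] at this
    exact zero_ne_one this
  have heq : ∀ i, g i i = g 0 0 := by
    intro i
    obtain ⟨k, hk0, hki⟩ := exists_third 0 i
    apply mul_right_cancel₀ (hne k)
    rw [hdiag i k hki.symm, hdiag 0 k hk0.symm]
  have hsq : g 0 0 * g 0 0 = 1 := by
    have := hdiag 0 1 (by decide)
    rwa [heq 1] at this
  have h5 : (g 0 0 - 1) * (g 0 0 + 1) = 0 := by linear_combination hsq
  rcases mul_eq_zero.1 h5 with h | h
  · left
    ext i j
    by_cases hij : i = j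
    · subst hij
      rw [heq, sub_eq_zero.1 h, Matrix.one_apply_eq]
    · rw [hoff i j hij, Matrix.one_apply_ne hij]
  · right
    ext i j
    by_cases hij : i = j
    · subst hij
      rw [heq, eq_neg_of_add_eq_zero_left h, Matrix.neg_apply, Matrix.one_apply_eq]
    · rw [hoff i j hij, Matrix.neg_apply, Matrix.one_apply_ne hij, neg_zero]

end Cfsg.Agent.Lib.Helper14.Omega6MA
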