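import Mathlib
import Cfsg.Agent.Lib.Helper14.Omega6MA
import Cfsg.Agent.Lib.Helper14.GUOrth
import Cfsg.Agent.Lib.Helper14.SUOrder
import Cfsg.Agent.Lib.Helper15.Bridge
import Cfsg.Agent.Lib.Helper15.MinusForm

set_option autoImplicit false
open Cfsg
open scoped Matrix

namespace Cfsg.Agent.Lib.Helper14.Omega6M

open Cfsg.Agent.Lib.Helper14 Cfsg.Agent.Lib.Helper14.GUO Cfsg.Agent.Lib.Helper15
open Cfsg.Agent.Lib.Helper14.Omega6P Cfsg.Agent.Lib.Helper14.Omega6MA

variable {K F : Type*} [Field K] [Field F] {q : ℕ} (D : Data K F q)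

/-- the embedding of `F⁶` as the fixed points of the semilinear structure on `Λ² K⁴` -/
def Xi (z : Fin 3 × Fin 2 → F) : I6 → K := Sum.elim (Phi0 D 3 z) (fun i => Phi0 D 3 z i ^ q)

theorem Xi_injective : Function.Injective (Xi D) := fun _ _ h =>
  Phi0_injective D 3 (funext fun i => congrFun h (.inl i))

variable [Fintype K] [Fintype F]

omit [Fintype F] in
theorem Xi_add (hK : Fintype.card K = q ^ 2) (z w : Fin 3 × Fin 2 → F) :
    Xi D (z + w) = Xi D z + Xi D w := by
  ext (i | i)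
  · simp [Xi, Phi0_add]
  · simp [Xi, Phi0_add, add_pow_q hK]

theorem Xi_smul (hF : Fintype.card F = q) (c : F) (z : Fin 3 × Fin 2 → F) :
    Xi D (c • z) = D.ι c • Xi D z := by
  ext (i | i)
  · simp [Xi, Phi0_smul]
  · simp [Xi, Phi0_smul, mul_pow, iota_pow D hF]

theorem exists_Xi (hK : Fintype.card K = q ^ 2) (hF : Fintype.card F = q) (w : I6 → K)
    (hw : ∀ i, w (.inr i) = w (.inl i) ^ q) : ∃ z, Xi D z = w := by
  obtain ⟨z, hz⟩ := (Phi0_bijective D hK hF 3).2 (fun i => w (.inl i))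
  refine ⟨z, ?_⟩
  ext (i | i)
  · simp [Xi, hz]
  · simp [Xi, hz, hw]

theorem Q_Xi (hK : Fintype.card K = q ^ 2) (hF : Fintype.card F = q) (z : Fin 3 × Fin 2 → F) :
    quadFormPlus 3 K (Xi D z) = D.ι (Qn D 3 z) := by
  rw [iota_Qn D hK hF]
  rfl

omit [Fintype F] in
theorem C_Xi (hK : Fintype.card K = q ^ 2) (g : Matrix (Fin 4) (Fin 4) K) (hg : g.det = 1)
    (hu : gᵀ * g.map (fun x => x ^ q) = 1) (z : Fin 3 × Fin 2 → F) (i : Fin 3) :
    (C g *ᵥ Xi D z) (.inr i) = (C g *ᵥ Xi D z) (.inl i) ^ q := by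
  obtain ⟨σ, hσ⟩ := exists_frob hK
  have hu' : gᵀ * g.map σ = 1 := by
    rw [← hu]
    congr 1
    ext a b
    simp [hσ]
  have h1 := C_swap σ g hg hu' (.inl i)
  simp only [Sum.swap_inl] at h1
  rw [← hσ]
  simp only [Matrix.mulVec, dotProduct, Fintype.sum_sum_type, map_add, map_sum, map_mul, h1,
    Sum.swap_inl, Sum.swap_inr, Xi, Sum.elim_inl, Sum.elim_inr]
  rw [add_comm]
  congr 1
  · refine Finset.sum_congr rfl (fun j _ => ?_)
    rw [hσ (Phi0 D 3 z j)]
  · refine Finset.sum_congr rfl (fun j _ => ?_)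
    rw [hσ (Phi0 D 3 z j ^ q), pow_q_q hK]

theorem exists_T (hK : Fintype.card K = q ^ 2) (hF : Fintype.card F = q) (g : SU 4 K q) :
    ∃ T : Module.End F (Fin 3 × Fin 2 → F), ∀ z, Xi D (T z) = C g.1.1 *ᵥ Xi D z := by
  have hu := transpose_mul_map_eq_one hK g.1.1 (fun u v => g.2 u v)
  have h := fun z => exists_Xi D hK hF _ (C_Xi D hK g.1.1 g.1.2 hu z)
  choose f hf using h
  refine ⟨{ toFun := f, map_add' := ?_, map_smul' := ?_ }, hf⟩
  · intro v w
    apply Xi_injective D
    rw [Xi_add D hK, hf, hf, hf, Xi_add D hK, Matrix.mulVec_add]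
  · intro c v
    apply Xi_injective D
    rw [RingHom.id_apply, Xi_smul D hF, hf, hf, Xi_smul D hF, Matrix.mulVec_smul]

/-- the action on vectors -/
noncomputable def T (hK : Fintype.card K = q ^ 2) (hF : Fintype.card F = q) (g : SU 4 K q) :
    Module.End F (Fin 3 × Fin 2 → F) := (exists_T D hK hF g).choose

theorem Xi_T (hK : Fintype.card K = q ^ 2) (hF : Fintype.card F = q) (g : SU 4 K q)
    (z : Fin 3 × Fin 2 → F) : Xi D (T D hK hF g z) = C g.1.1 *ᵥ Xi D z :=
  (exists_T D hK hF g).choose_spec z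

/-- the representation of `SU₄(q)` on `F⁶` -/
noncomputable def rhoEnd (hK : Fintype.card K = q ^ 2) (hF : Fintype.card F = q) :
    SU 4 K q →* Module.End F (Fin 3 × Fin 2 → F) where
  toFun g := T D hK hF g
  map_one' := by
    refine LinearMap.ext (fun z => ?_)
    apply Xi_injective D
    rw [Xi_T, Module.End.one_apply]
    change C (1 : Matrix (Fin 4) (Fin 4) K) *ᵥ _ = _
    rw [C_one, Matrix.one_mulVec]
  map_mul' g h := by
    refine LinearMap.ext (fun z => ?_)
    apply Xi_injective D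
    rw [Module.End.mul_apply, Xi_T, Xi_T, Xi_T, Matrix.mulVec_mulVec, ← C_mul]
    rfl

theorem Qn_rhoEnd (hK : Fintype.card K = q ^ 2) (hF : Fintype.card F = q) (g : SU 4 K q)
    (z : Fin 3 × Fin 2 → F) : Qn D 3 (rhoEnd D hK hF g z) = Qn D 3 z := by
  apply D.ι.injective
  rw [← Q_Xi D hK hF, ← Q_Xi D hK hF]
  change quadFormPlus 3 K (Xi D (T D hK hF g z)) = _
  rw [Xi_T, Q_C, g.1.2, one_mul]

theorem ker_rhoEnd (hK : Fintype.card K = q ^ 2) (hF : Fintype.card F = q) (g : SU 4 K q)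
    (hg : rhoEnd D hK hF g = 1) : g.1.1 = 1 ∨ g.1.1 = -1 := by
  apply C_eq_one
  have h1 : ∀ z, C g.1.1 *ᵥ Xi D z = Xi D z := by
    intro z
    rw [← Xi_T D hK hF]
    change Xi D (rhoEnd D hK hF g z) = _
    rw [hg, Module.End.one_apply]
  have h2 : ∀ u : Fin 3 → K, C g.1.1 *ᵥ (Sum.elim u (fun i => u i ^ q)) = Sum.elim u (fun i => u i ^ q) := by
    intro u
    obtain ⟨z, rfl⟩ := (Phi0_bijective D hK hF 3).2 u
    exact h1 z
  have hα : D.α ^ q - D.α ≠ 0 := by
    intro h
    exact D.hα (mem_range_of_pow D.ι hF _ (sub_eq_zero.1 h))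
  have hq := q_ne_zero hK
  have e1 : ∀ i : Fin 3, (Sum.elim (Pi.single i 1) (fun j => (Pi.single i (1 : K) : Fin 3 → K) j ^ q) : I6 → K) =
      Pi.single (.inl i) 1 + Pi.single (.inr i) 1 := by
    intro i
    ext (j | j)
    · by_cases hij : j = i
      · subst hij; simp
      · simp [hij]
    · by_cases hij : j = i
      · subst hij; simp
      · simp [hij, hq]
  have e2 : ∀ i : Fin 3, (Sum.elim (Pi.single i D.α) (fun j => (Pi.single i D.α : Fin 3 → K) j ^ q) : I6 → K) =
      D.α • Pi.single (.inl i) 1 + D.α ^ q • Pi.single (.inr i) 1 := by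
    intro i
    ext (j | j)
    · by_cases hij : j = i
      · subst hij; simp
      · simp [hij]
    · by_cases hij : j = i
      · subst hij; simp
      · simp [hij, hq]
  have h3 : ∀ J : I6, C g.1.1 *ᵥ Pi.single J 1 = Pi.single J 1 := by
    intro J
    obtain ⟨i, hi⟩ : ∃ i : Fin 3, J = .inl i ∨ J = .inr i := by
      rcases J with i | i
      · exact ⟨i, Or.inl rfl⟩
      · exact ⟨i, Or.inr rfl⟩
    have a1 := h2 (Pi.single i 1)
    have a2 := h2 (Pi.single i D.α)
    rw [e1, Matrix.mulVec_add] at a1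
    rw [e2, Matrix.mulVec_add, Matrix.mulVec_smul, Matrix.mulVec_smul] at a2
    rcases hi with rfl | rfl
    · have : (D.α ^ q - D.α) • (C g.1.1 *ᵥ Pi.single (.inl i) 1) =
          (D.α ^ q - D.α) • (Pi.single (.inl i) 1 : I6 → K) := by
        funext I
        have b1 := congrFun a1 I
        have b2 := congrFun a2 I
        simp only [Pi.add_apply, Pi.smul_apply, smul_eq_mul] at b1 b2 ⊢
        linear_combination D.α ^ q * b1 - b2
      exact smul_right_injective _ hα this
    · have : (D.α ^ q - D.α) • (C g.1.1 *ᵥ Pi.single (.inr i) 1) =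
          (D.α ^ q - D.α) • (Pi.single (.inr i) 1 : I6 → K) := by
        funext I
        have b1 := congrFun a1 I
        have b2 := congrFun a2 I
        simp only [Pi.add_apply, Pi.smul_apply, smul_eq_mul] at b1 b2 ⊢
        linear_combination b2 - D.α * b1
      exact smul_right_injective _ hα this
  ext I J
  have := congrFun (h3 J) I
  rw [Matrix.mulVec_single_one] at this
  exact this.trans (by rw [Pi.single_apply, Matrix.one_apply])

theorem exists_L (hK : Fintype.card K = q ^ 2) (hF : Fintype.card F = q) :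
    ∃ L : (Fin 3 × Fin 2 → F) ≃ₗ[F] ((Fin 2 ⊕ Fin 2) ⊕ Fin 2 → F),
      ∀ v, qMinus 2 F D.a D.b (L v) = Qn D 3 v := by
  have hab := aniso D hK hF
  obtain ⟨e, f, ha, hb, hc⟩ := exists_hyp D hK hF 2 (by decide)
  have hfam : IsHypFamily (Qn D (2 + 1)) (fun i => ext0 2 (e i)) (fun i => ext0 2 (f i)) :=
    ⟨fun i => ⟨by rw [Qn_ext0]; exact (ha i).1, by rw [Qn_ext0]; exact (ha i).2⟩,
      fun i j => by rw [polar_ext0]; exact hb i j,
      fun i j => ⟨by rw [polar_ext0]; exact (hc i j).1, by rw [polar_ext0]; exact (hc i j).2⟩⟩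
  exact exists_isometry_minus (Q := Qn D (2 + 1)) (x := Pi.single (0, 0) 1)
    (y := Pi.single (0, 1) 1) (a := D.a) (c := D.b) hfam
    (fun i => ⟨polar_ext0_single D 2 _ 0, polar_ext0_single D 2 _ 1, polar_ext0_single D 2 _ 0,
      polar_ext0_single D 2 _ 1⟩)
    (by
      rw [Qn_apply, Finset.sum_eq_single 0]
      · simp
      · intro j _ hj
        simp [hj]
      · simp)
    (by
      rw [polar_Qn, Finset.sum_eq_single 0]
      · simp
      · intro j _ hj
        simp [hj]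
      · simp)
    (by
      rw [Qn_apply, Finset.sum_eq_single 0]
      · simp
      · intro j _ hj
        simp [hj]
      · simp)
    (aniso_disc_ne_zero D.a D.b hab) (finrank_eq _)

/-- transport of an orthogonal representation, with control of the kernel -/
theorem exists_hom_isometryGroup' {F : Type*} {V : Type*} [Field F] [AddCommGroup V] [Module F V]
    {G : Type*} [Group G] {κ : Type} [Fintype κ] [DecidableEq κ]
    (Q : QuadraticForm F V) (Q₀ : QuadraticForm F (κ → F))
    (hQ₀ : (QuadraticMap.polarBilin Q₀).Nondegenerate)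
    (L : V ≃ₗ[F] (κ → F)) (hL : ∀ v, Q₀ (L v) = Q v) (ρ : G →* Module.End F V)
    (hρ : ∀ g v, Q (ρ g v) = Q v) :
    ∃ φ : G →* isometryGroup F Q₀, ∀ g, φ g = 1 → ρ g = 1 := by
  let T : G → Module.End F (κ → F) := fun g => L.toLinearMap ∘ₗ ρ g ∘ₗ L.symm.toLinearMap
  have hT : ∀ g, IsIso Q₀ (T g) := by
    intro g x
    simp only [T, LinearMap.comp_apply, LinearEquiv.coe_coe]
    rw [hL, hρ, ← hL, LinearEquiv.apply_symm_apply]
  have hTmul : ∀ g h, T (g * h) = T g * T h := by
    intro g h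
    refine LinearMap.ext (fun x => ?_)
    simp only [T, LinearMap.comp_apply, LinearEquiv.coe_coe, Module.End.mul_apply,
      LinearEquiv.symm_apply_apply, map_mul]
  refine ⟨MonoidHom.mk' (fun g => ofEnd _ hQ₀ (T g) (hT g)) ?_, ?_⟩
  · intro g h
    apply toEnd_injective
    rw [map_mul, toEnd_ofEnd, toEnd_ofEnd, toEnd_ofEnd, hTmul]
  · intro g hg
    have h1 : T g = 1 := by
      have := congrArg (toEnd _) hg
      simpa only [MonoidHom.mk'_apply, toEnd_ofEnd, map_one] using this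
    refine LinearMap.ext (fun x => ?_)
    have := congrArg (fun f => L.symm (f (L x))) h1
    simpa only [T, LinearMap.comp_apply, LinearEquiv.coe_coe, LinearEquiv.symm_apply_apply,
      Module.End.one_apply] using this

theorem exists_rho (hK : Fintype.card K = q ^ 2) (hF : Fintype.card F = q) :
    ∃ φ : SU 4 K q →* isometryGroup F (qMinus 2 F D.a D.b),
      ∀ g, φ g = 1 → g.1.1 = 1 ∨ g.1.1 = -1 := by
  obtain ⟨L, hL⟩ := exists_L D hK hF
  obtain ⟨φ, hφ⟩ := exists_hom_isometryGroup' (Qn D 3) _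
    (qMinus_nondegenerate 2 D.a D.b (aniso D hK hF)) L hL (rhoEnd D hK hF) (Qn_rhoEnd D hK hF)
  exact ⟨φ, fun g hg => ker_rhoEnd D hK hF g (hφ g hg)⟩

end Cfsg.Agent.Lib.Helper14.Omega6M
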