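import Mathlib

/-! PGL₂ is sharply 3-transitive on the projective line; SL₂ variants. -/

namespace Cfsg.Agent.Lib.Helper14.PGL3T
open Matrix
open scoped MatrixGroups

variable {F : Type*} [Field F]

theorem mk_eq_iff {u v : Fin 2 → F} (hu : u ≠ 0) (hv : v ≠ 0) :
    Projectivization.mk F u hu = Projectivization.mk F v hv ↔ u 0 * v 1 - u 1 * v 0 = 0 := by
  rw [Projectivization.mk_eq_mk_iff']
  constructor
  · rintro ⟨a, rfl⟩
    simp only [Pi.smul_apply, smul_eq_mul]; ring
  · intro h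
    by_cases h0 : v 0 = 0
    · have h1 : v 1 ≠ 0 := by
        intro h1; apply hv; ext i; fin_cases i <;> simp [h0, h1]
      refine ⟨u 1 / v 1, ?_⟩
      have hu0 : u 0 = 0 := by
        rw [h0] at h
        have : u 0 * v 1 = 0 := by linear_combination h
        rcases mul_eq_zero.1 this with h | h
        · exact h
        · exact absurd h h1
      ext i; fin_cases i
      · simp [h0, hu0]
      · simp [h1]
    · refine ⟨u 0 / v 0, ?_⟩
      ext i; fin_cases i
      · simp [h0]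
      · simp only [Fin.mk_one, Fin.isValue, Pi.smul_apply, smul_eq_mul]
        field_simp
        linear_combination h

def e0 : Fin 2 → F := ![1, 0]
def e1 : Fin 2 → F := ![0, 1]
def e2 (d : F) : Fin 2 → F := ![1, d]

theorem e0_ne : (e0 : Fin 2 → F) ≠ 0 := fun h => by simpa [e0] using congrFun h 0
theorem e1_ne : (e1 : Fin 2 → F) ≠ 0 := fun h => by simpa [e1] using congrFun h 1
theorem e2_ne (d : F) : (e2 d : Fin 2 → F) ≠ 0 := fun h => by simpa [e2] using congrFun h 0

/-- matrix moving the standard triple to a given triple. -/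
theorem exists_GL (a b c : Projectivization F (Fin 2 → F)) (hab : a ≠ b) (hac : a ≠ c)
    (hbc : b ≠ c) :
    ∃ g : GL (Fin 2) F, g • Projectivization.mk F e0 e0_ne = a ∧
      g • Projectivization.mk F e1 e1_ne = b ∧ g • Projectivization.mk F (e2 1) (e2_ne 1) = c := by
  induction a using Projectivization.ind with | _ u hu => ?_
  induction b using Projectivization.ind with | _ v hv => ?_
  induction c using Projectivization.ind with | _ w hw => ?_
  rw [Ne, mk_eq_iff] at hab hac hbc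
  set D := u 0 * v 1 - u 1 * v 0 with hD
  set α := (w 0 * v 1 - w 1 * v 0) with hα
  set β := (u 0 * w 1 - u 1 * w 0) with hβ
  have hα0 : α ≠ 0 := fun h => hbc (by rw [hα] at h; linear_combination -h)
  have hdet : (!![α * u 0, β * v 0; α * u 1, β * v 1] : Matrix (Fin 2) (Fin 2) F).det ≠ 0 := by
    rw [Matrix.det_fin_two_of]
    have : α * u 0 * (β * v 1) - β * v 0 * (α * u 1) = α * β * D := by rw [hD]; ring
    rw [this]
    exact mul_ne_zero (mul_ne_zero hα0 hac) hab
  refine ⟨Matrix.GeneralLinearGroup.mkOfDetNeZero _ hdet, ?_, ?_, ?_⟩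
  · rw [Projectivization.smul_mk, mk_eq_iff]
    change ((!![α * u 0, β * v 0; α * u 1, β * v 1] : Matrix (Fin 2) (Fin 2) F) *ᵥ e0) 0 * u 1
      - ((!![α * u 0, β * v 0; α * u 1, β * v 1] : Matrix (Fin 2) (Fin 2) F) *ᵥ e0) 1 * u 0 = 0
    simp [e0, Matrix.mulVec, dotProduct, Fin.sum_univ_two]
    ring
  · rw [Projectivization.smul_mk, mk_eq_iff]
    change ((!![α * u 0, β * v 0; α * u 1, β * v 1] : Matrix (Fin 2) (Fin 2) F) *ᵥ e1) 0 * v 1
      - ((!![α * u 0, β * v 0; α * u 1, β * v 1] : Matrix (Fin 2) (Fin 2) F) *ᵥ e1) 1 * v 0 = 0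
    simp [e1, Matrix.mulVec, dotProduct, Fin.sum_univ_two]
    ring
  · rw [Projectivization.smul_mk, mk_eq_iff]
    change ((!![α * u 0, β * v 0; α * u 1, β * v 1] : Matrix (Fin 2) (Fin 2) F) *ᵥ e2 1) 0 * w 1
      - ((!![α * u 0, β * v 0; α * u 1, β * v 1] : Matrix (Fin 2) (Fin 2) F) *ᵥ e2 1) 1 * w 0 = 0
    simp [e2, Matrix.mulVec, dotProduct, Fin.sum_univ_two]
    rw [hα, hβ]
    ring

/-- a matrix fixing `[e0]`, `[e1]` and sending `[e0+e1]` to `[e0 + d e1]`. -/
theorem entries_of_fix (M : Matrix (Fin 2) (Fin 2) F) (d : F)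
    (h0 : (M *ᵥ e0) 0 * (e0 : Fin 2 → F) 1 - (M *ᵥ e0) 1 * (e0 : Fin 2 → F) 0 = 0)
    (h1 : (M *ᵥ e1) 0 * (e1 : Fin 2 → F) 1 - (M *ᵥ e1) 1 * (e1 : Fin 2 → F) 0 = 0)
    (h2 : (M *ᵥ e2 1) 0 * (e2 d : Fin 2 → F) 1 - (M *ᵥ e2 1) 1 * (e2 d : Fin 2 → F) 0 = 0) :
    M 1 0 = 0 ∧ M 0 1 = 0 ∧ M 1 1 = M 0 0 * d := by
  simp [e0, e1, e2, Matrix.mulVec, dotProduct, Fin.sum_univ_two] at h0 h1 h2
  refine ⟨h0, h1, ?_⟩
  rw [h0, h1] at h2
  linear_combination -h2

theorem GL_fix_std (g : GL (Fin 2) F)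
    (h0 : g • Projectivization.mk F (e0 : Fin 2 → F) e0_ne = Projectivization.mk F (e0 : Fin 2 → F) e0_ne)
    (h1 : g • Projectivization.mk F (e1 : Fin 2 → F) e1_ne = Projectivization.mk F (e1 : Fin 2 → F) e1_ne)
    (h2 : g • Projectivization.mk F (e2 (1 : F)) (e2_ne 1) = Projectivization.mk F (e2 (1 : F)) (e2_ne 1)) :
    Matrix.ProjGenLinGroup.mk g = 1 := by
  rw [Projectivization.smul_mk, mk_eq_iff] at h0 h1 h2
  obtain ⟨h10, h01, h11⟩ := entries_of_fix g.1 1 h0 h1 h2
  have hdet : g.1.det ≠ 0 := by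
    have := g.det.ne_zero
    simpa using this
  rw [Matrix.det_fin_two, h10, h01, h11] at hdet
  have hp : g.1 0 0 ≠ 0 := by
    intro h; apply hdet; rw [h]; ring
  have : g = Matrix.GeneralLinearGroup.scalar (Fin 2) (Units.mk0 _ hp) := by
    ext i j
    fin_cases i <;> fin_cases j <;> simp [h10, h01, h11]
  rw [this, Matrix.ProjGenLinGroup.mk_scalar]

theorem main : MulAction.IsMultiplyPretransitive (Matrix.ProjGenLinGroup (Fin 2) F)
      (Projectivization F (Fin 2 → F)) 3 ∧
    ∀ (g : Matrix.ProjGenLinGroup (Fin 2) F) (a b c : Projectivization F (Fin 2 → F)),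
      a ≠ b → a ≠ c → b ≠ c → g • a = a → g • b = b → g • c = c → g = 1 := by
  have hsm : ∀ (g : GL (Fin 2) F) (x : Projectivization F (Fin 2 → F)),
      (Matrix.ProjGenLinGroup.mk g) • x = g • x := by
    intro g x
    induction x using Projectivization.ind with | _ u hu => ?_
    rfl
  constructor
  · refine ⟨fun x y => ?_⟩
    obtain ⟨g, g0, g1, g2⟩ := exists_GL (x 0) (x 1) (x 2)
      (fun h => by simpa using x.injective h) (fun h => by simpa using x.injective h)
      (fun h => by simpa using x.injective h)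
    obtain ⟨k, k0, k1, k2⟩ := exists_GL (y 0) (y 1) (y 2)
      (fun h => by simpa using y.injective h) (fun h => by simpa using y.injective h)
      (fun h => by simpa using y.injective h)
    refine ⟨Matrix.ProjGenLinGroup.mk (k * g⁻¹), ?_⟩
    ext i
    rw [Function.Embedding.smul_apply, hsm, mul_smul]
    fin_cases i
    · change k • g⁻¹ • x 0 = y 0
      rw [← g0, inv_smul_smul, k0]
    · change k • g⁻¹ • x 1 = y 1
      rw [← g1, inv_smul_smul, k1]
    · change k • g⁻¹ • x 2 = y 2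
      rw [← g2, inv_smul_smul, k2]
  · intro g a b c hab hac hbc ha hb hc
    obtain ⟨k, k0, k1, k2⟩ := exists_GL a b c hab hac hbc
    obtain ⟨G, rfl⟩ := Matrix.ProjGenLinGroup.mk_surjective g
    rw [hsm] at ha hb hc
    have := GL_fix_std (k⁻¹ * G * k)
      (by rw [mul_smul, mul_smul, k0, ha, ← k0, inv_smul_smul])
      (by rw [mul_smul, mul_smul, k1, hb, ← k1, inv_smul_smul])
      (by rw [mul_smul, mul_smul, k2, hc, ← k2, inv_smul_smul])
    rw [map_mul, map_mul, map_inv] at this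
    have h2 : Matrix.ProjGenLinGroup.mk G
        = Matrix.ProjGenLinGroup.mk k * ((Matrix.ProjGenLinGroup.mk k)⁻¹ *
          Matrix.ProjGenLinGroup.mk G * Matrix.ProjGenLinGroup.mk k) *
          (Matrix.ProjGenLinGroup.mk k)⁻¹ := by group
    rw [h2, this]; group

def emb {X : Type*} (a b c : X) (hab : a ≠ b) (hac : a ≠ c) (hbc : b ≠ c) : Fin 3 ↪ X :=
  ⟨![a, b, c], by
    intro i j h
    fin_cases i <;> fin_cases j <;> first | rfl | (exfalso; simp at h; first | exact hab h | exact hac h | exact hbc h | exact hab h.symm | exact hac h.symm | exact hbc h.symm)⟩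

theorem SL_iff [Fintype F] : MulAction.IsMultiplyPretransitive (Matrix.SpecialLinearGroup (Fin 2) F)
    (Projectivization F (Fin 2 → F)) 3 ↔ ringChar F = 2 := by
  constructor
  · intro h
    by_contra hc
    obtain ⟨d, hd⟩ := FiniteField.exists_nonsquare hc
    have hd0 : d ≠ 0 := fun h => hd (h ▸ IsSquare.zero)
    have h01 : Projectivization.mk F (e0 : Fin 2 → F) e0_ne ≠ Projectivization.mk F (e1 : Fin 2 → F) e1_ne := by
      rw [Ne, mk_eq_iff]; simp [e0, e1]
    have h02 : ∀ d : F, d ≠ 0 → Projectivization.mk F (e0 : Fin 2 → F) e0_ne ≠ Projectivization.mk F (e2 d) (e2_ne d) := by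
      intro d hd
      rw [Ne, mk_eq_iff]; simp [e0, e2, hd]
    have h12 : ∀ d : F, Projectivization.mk F (e1 : Fin 2 → F) e1_ne ≠ Projectivization.mk F (e2 d) (e2_ne d) := by
      intro d
      rw [Ne, mk_eq_iff]; simp [e1, e2]
    obtain ⟨g, hg⟩ := h.exists_smul_eq (emb _ _ _ h01 (h02 1 one_ne_zero) (h12 1))
      (emb _ _ _ h01 (h02 d hd0) (h12 d))
    have g0 : g • Projectivization.mk F (e0 : Fin 2 → F) e0_ne = Projectivization.mk F (e0 : Fin 2 → F) e0_ne :=
      DFunLike.congr_fun hg 0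
    have g1 : g • Projectivization.mk F (e1 : Fin 2 → F) e1_ne = Projectivization.mk F (e1 : Fin 2 → F) e1_ne :=
      DFunLike.congr_fun hg 1
    have g2 : g • Projectivization.mk F (e2 (1 : F)) (e2_ne 1) = Projectivization.mk F (e2 d) (e2_ne d) :=
      DFunLike.congr_fun hg 2
    rw [Projectivization.smul_mk, mk_eq_iff] at g0 g1 g2
    obtain ⟨h10, h01, h11⟩ := entries_of_fix g.1 d g0 g1 g2
    have hdet := g.2
    rw [Matrix.det_fin_two, h10, h01, h11] at hdet
    have hp : g.1 0 0 ≠ 0 := by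
      intro h; rw [h] at hdet; simp at hdet
    apply hd
    refine ⟨(g.1 0 0)⁻¹, ?_⟩
    field_simp
    linear_combination hdet
  · intro hc
    refine ⟨fun x y => ?_⟩
    obtain ⟨g, hg⟩ := (main (F := F)).1.exists_smul_eq x y
    obtain ⟨G, rfl⟩ := Matrix.ProjGenLinGroup.mk_surjective g
    obtain ⟨e, he⟩ := FiniteField.isSquare_of_char_two hc G.1.det
    have hdet : G.1.det ≠ 0 := by
      have := G.det.ne_zero
      simpa using this
    have he0 : e ≠ 0 := by
      intro h; apply hdet; rw [he, h]; ring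
    have hM : (e⁻¹ • G.1).det = 1 := by
      rw [Matrix.det_smul, he]
      simp only [Fintype.card_fin]
      field_simp
    obtain ⟨S, hS⟩ : ∃ S : Matrix.SpecialLinearGroup (Fin 2) F, S.1 = e⁻¹ • G.1 := ⟨⟨e⁻¹ • G.1, hM⟩, rfl⟩
    refine ⟨S, ?_⟩
    rw [← hg]
    ext i
    rw [Function.Embedding.smul_apply, Function.Embedding.smul_apply]
    generalize x i = p
    induction p using Projectivization.ind with | _ u hu => ?_
    rw [Projectivization.smul_mk, Projectivization.PGL.mk_smul_mk, Projectivization.mk_eq_mk_iff']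
    refine ⟨e⁻¹, ?_⟩
    change e⁻¹ • (G.1 *ᵥ u) = S.1 *ᵥ u
    rw [hS, Matrix.smul_mulVec]

end Cfsg.Agent.Lib.Helper14.PGL3T
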