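import Mathlib

set_option autoImplicit false

namespace Cfsg.Agent.Lib.Helper14.POmegaIso

open scoped commutatorElement

theorem nonempty_equiv_of_ker_eq {S A B : Type*} [Group S] [Group A] [Group B] (f : S →* A)
    (g : S →* B) (hf : Function.Surjective f) (hg : Function.Surjective g) (h : f.ker = g.ker) :
    Nonempty (A ≃* B) :=
  ⟨(QuotientGroup.quotientKerEquivOfSurjective f hf).symm.trans
    ((QuotientGroup.quotientMulEquivOfEq h).trans (QuotientGroup.quotientKerEquivOfSurjective g hg))⟩

/-- general recognition of `Ω / Z(Ω)` with `Ω = O'` through a homomorphism `S → O`;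
`π : S → P` is the target projection. -/
theorem pomega_equiv' {S O P : Type*} [Group S] [Finite S] [Group O] [Finite O] [Group P]
    (ρ : S →* O) (π : S →* P) (hπ : Function.Surjective π)
    (hmem : ∀ s, ρ s ∈ commutator O)
    (hcard : Nat.card ρ.ker * Nat.card (commutator O) ≤ Nat.card S)
    (hc : ∀ x : S, (∀ h : S, ⁅x, h⁆ ∈ ρ.ker) → x ∈ π.ker)
    (hc' : ∀ x : S, x ∈ π.ker → x ∈ Subgroup.center S) :
    Nonempty ((commutator O) ⧸ Subgroup.center (commutator O) ≃* P) := by
  let ρ' : S →* commutator O := ρ.codRestrict (commutator O) hmem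
  have hker : ρ'.ker = ρ.ker := MonoidHom.ker_codRestrict _ _ _
  have hsurj : Function.Surjective ρ' := by
    rw [← MonoidHom.range_eq_top]
    apply Subgroup.eq_top_of_le_card
    have h1 := Subgroup.card_eq_card_quotient_mul_card_subgroup ρ'.ker
    rw [Nat.card_congr (QuotientGroup.quotientKerEquivRange ρ').toEquiv, hker] at h1
    rw [h1, mul_comm] at hcard
    exact Nat.le_of_mul_le_mul_right hcard Nat.card_pos
  refine nonempty_equiv_of_ker_eq
    ((QuotientGroup.mk' (Subgroup.center (commutator O))).comp ρ') π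
    ((QuotientGroup.mk'_surjective _).comp hsurj) hπ ?_
  ext x
  rw [MonoidHom.mem_ker, MonoidHom.comp_apply, QuotientGroup.mk'_apply, QuotientGroup.eq_one_iff]
  constructor
  · intro hx
    apply hc
    intro h
    rw [← hker, MonoidHom.mem_ker, map_commutatorElement, commutatorElement_eq_one_iff_mul_comm]
    exact (Subgroup.mem_center_iff.1 hx (ρ' h)).symm
  · intro hx
    rw [Subgroup.mem_center_iff]
    intro y
    obtain ⟨h, rfl⟩ := hsurj y
    rw [← map_mul, ← map_mul, Subgroup.mem_center_iff.1 (hc' x hx) h]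

theorem pomega_equiv {S O : Type*} [Group S] [Finite S] [Group O] [Finite O] (ρ : S →* O)
    (hmem : ∀ s, ρ s ∈ commutator O)
    (hcard : Nat.card ρ.ker * Nat.card (commutator O) ≤ Nat.card S)
    (hc : ∀ x : S, (∀ h : S, ⁅x, h⁆ ∈ ρ.ker) → x ∈ Subgroup.center S) :
    Nonempty ((commutator O) ⧸ Subgroup.center (commutator O) ≃* S ⧸ Subgroup.center S) :=
  pomega_equiv' ρ (QuotientGroup.mk' (Subgroup.center S)) (QuotientGroup.mk'_surjective _) hmem hcard
    (fun x hx => by rw [QuotientGroup.ker_mk']; exact hc x hx)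
    (fun x hx => by rwa [QuotientGroup.ker_mk'] at hx)

/-- image of a perfect group lies in the commutator subgroup -/
theorem map_mem_commutator {S O : Type*} [Group S] [Group O] (ρ : S →* O)
    (hS : commutator S = ⊤) (s : S) : ρ s ∈ commutator O := by
  have h1 : (commutator S).map ρ ≤ commutator O := by
    rw [commutator_def, Subgroup.map_commutator, commutator_def]
    exact Subgroup.commutator_mono le_top le_top
  apply h1
  rw [hS]
  exact ⟨s, Subgroup.mem_top _, rfl⟩

/-- perfect case (Grün) -/
theorem pomega_equiv_of_perfect {S O : Type*} [Group S] [Finite S] [Group O] [Finite O] (ρ : S →* O)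
    (hS : commutator S = ⊤) (hk : ρ.ker ≤ Subgroup.center S)
    (hcard : Nat.card ρ.ker * Nat.card (commutator O) ≤ Nat.card S) :
    Nonempty ((commutator O) ⧸ Subgroup.center (commutator O) ≃* S ⧸ Subgroup.center S) := by
  refine pomega_equiv ρ (map_mem_commutator ρ hS) hcard ?_
  intro x hx
  have : Group.IsPerfect S := ⟨hS⟩
  have h1 := Group.IsPerfect.center_quotient_center_eq_bot (G := S)
  have h2 : (QuotientGroup.mk x : S ⧸ Subgroup.center S) ∈ Subgroup.center (S ⧸ Subgroup.center S) := by
    rw [Subgroup.mem_center_iff]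
    intro y
    obtain ⟨h, rfl⟩ := QuotientGroup.mk_surjective y
    symm
    rw [← commutatorElement_eq_one_iff_mul_comm]
    change (QuotientGroup.mk' (Subgroup.center S)) x * _ * _ * _ = 1
    have h3 : (QuotientGroup.mk' (Subgroup.center S)) ⁅x, h⁆ = 1 :=
      (QuotientGroup.eq_one_iff _).2 (hk (hx h))
    rw [map_commutatorElement] at h3
    exact h3
  rw [h1, Subgroup.mem_bot] at h2
  exact (QuotientGroup.eq_one_iff _).1 h2

end Cfsg.Agent.Lib.Helper14.POmegaIso
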