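import Mathlib

set_option autoImplicit false

namespace Cfsg.Agent.Lib.Helper14.POmegaIso

open scoped commutatorElement

/-- a nontrivial homomorphism from a quasisimple group has central kernel -/
theorem ker_le_center_of_simple {S O : Type*} [Group S] [Group O] (ρ : S →* O)
    (hperf : commutator S = ⊤) (hsimple : IsSimpleGroup (S ⧸ Subgroup.center S)) (s0 : S)
    (hs0 : ρ s0 ≠ 1) : ρ.ker ≤ Subgroup.center S := by
  have hn : (ρ.ker.map (QuotientGroup.mk' (Subgroup.center S))).Normal :=
    Subgroup.Normal.map inferInstance _ (QuotientGroup.mk'_surjective _)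
  rcases hn.eq_bot_or_eq_top with h | h
  · have := (Subgroup.map_eq_bot_iff _).1 h
    rwa [QuotientGroup.ker_mk'] at this
  · exfalso
    have hdec : ∀ s : S, ∃ z ∈ Subgroup.center S, ρ s = ρ z := by
      intro s
      have h1 : QuotientGroup.mk' (Subgroup.center S) s ∈
          ρ.ker.map (QuotientGroup.mk' (Subgroup.center S)) := by
        rw [h]; exact Subgroup.mem_top _
      obtain ⟨n, hn, hns⟩ := h1
      refine ⟨n⁻¹ * s, QuotientGroup.eq.1 hns, ?_⟩
      rw [map_mul, map_inv, MonoidHom.mem_ker.1 hn, inv_one, one_mul]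
    have htop : (⊤ : Subgroup S) ≤ ρ.ker := by
      rw [← hperf, commutator_def, Subgroup.commutator_le]
      intro s _ s' _
      obtain ⟨z, hz, hsz⟩ := hdec s
      obtain ⟨z', _, hsz'⟩ := hdec s'
      rw [MonoidHom.mem_ker, map_commutatorElement, hsz, hsz', ← map_commutatorElement,
        commutatorElement_eq_one_iff_mul_comm.2 ((Subgroup.mem_center_iff.1 hz z').symm), map_one]
    exact hs0 (MonoidHom.mem_ker.1 (htop (Subgroup.mem_top s0)))

end Cfsg.Agent.Lib.Helper14.POmegaIso
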