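import Mathlib
import Cfsg.Agent.Lib.Helper14.Transit

set_option autoImplicit false

namespace Cfsg.Agent.Lib.Helper14

open Module Matrix

variable {K : Type*} [Field K]

theorem rank_pos_of_ne_zero' {m n : Type*} [Fintype n] [DecidableEq n] (M : Matrix m n K)
    (h : M ≠ 0) : 0 < M.rank := by
  rw [Nat.pos_iff_ne_zero]
  intro h0
  apply h
  rw [Matrix.rank, Submodule.finrank_eq_zero, LinearMap.range_eq_bot] at h0
  ext i j
  have := congrFun (LinearMap.congr_fun h0 (Pi.single j 1)) i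
  simpa using this

/-- in characteristic two the involutions of `SL_3` are transvections, hence conjugate -/
theorem sl3_involutions_conj [CharP K 2] (g g' : Matrix.SpecialLinearGroup (Fin 3) K)
    (hg : g ^ 2 = 1) (hg1 : g ≠ 1) (hg' : g' ^ 2 = 1) (hg1' : g' ≠ 1) : IsConj g g' := by
  have key : ∀ x : Matrix.SpecialLinearGroup (Fin 3) K, x ^ 2 = 1 → x ≠ 1 →
      (x.1 - 1).rank = 1 ∧ (x.1 - 1) * (x.1 - 1) = 0 := by
    intro x hx hx1
    have h1 : x.1 * x.1 = 1 := by
      have := congrArg Subtype.val hx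
      rw [sq] at this
      exact this
    have h2 : (x.1 - 1) * (x.1 - 1) = 0 := by
      have h3 : (x.1 - 1) * (x.1 - 1) = x.1 * x.1 - (x.1 + x.1) + 1 := by noncomm_ring
      rw [h3, h1]
      have h4 : x.1 + x.1 = 0 := by
        ext i j
        exact CharTwo.add_self_eq_zero _
      have h5 : (1 : Matrix (Fin 3) (Fin 3) K) + 1 = 0 := by
        ext i j
        exact CharTwo.add_self_eq_zero _
      rw [h4, sub_zero, h5]
    refine ⟨?_, h2⟩
    have h6 := Matrix.rank_add_rank_le_card_of_mul_eq_zero h2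
    rw [Fintype.card_fin] at h6
    have h7 : 0 < (x.1 - 1).rank := rank_pos_of_ne_zero' _ (fun h => hx1 (Subtype.ext (by
      exact sub_eq_zero.1 h)))
    omega
  obtain ⟨r1, s1⟩ := key g hg hg1
  obtain ⟨r2, s2⟩ := key g' hg' hg1'
  obtain ⟨A, hA, hAM⟩ := exists_det_one_intertwine (le_refl 3) _ _ r1 s1 r2 s2
  rw [isConj_iff]
  obtain ⟨c, hc⟩ : ∃ c : Matrix.SpecialLinearGroup (Fin 3) K, c.1 = A := ⟨⟨A, hA⟩, rfl⟩
  subst hc
  refine ⟨c, ?_⟩
  rw [mul_inv_eq_iff_eq_mul]
  apply Subtype.ext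
  change c.1 * g.1 = g'.1 * c.1
  have : c.1 * (g.1 - 1) = (g'.1 - 1) * c.1 := hAM
  rw [Matrix.mul_sub, Matrix.sub_mul, Matrix.mul_one, Matrix.one_mul] at this
  exact sub_left_injective this

theorem charP_two_of_card_four [Fintype K] (hF : Fintype.card K = 4) : CharP K 2 := by
  obtain ⟨p, hp⟩ := CharP.exists K
  obtain ⟨n, hpp, hn⟩ := FiniteField.card K p
  have h1 : p ∣ 2 ^ 2 := by
    have : p ∣ Fintype.card K := by rw [hn]; exact dvd_pow_self p n.ne_zero
    rw [hF] at this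
    exact this
  have h2 : p = 2 := (Nat.prime_dvd_prime_iff_eq hpp Nat.prime_two).1 (hpp.dvd_of_dvd_pow h1)
  subst h2
  exact hp

/-- an involution of `PSL_3` lifts to an involution of `SL_3` -/
theorem exists_lift_involution (x : Matrix.ProjectiveSpecialLinearGroup (Fin 3) K)
    (hx : x ^ 2 = 1) :
    ∃ g : Matrix.SpecialLinearGroup (Fin 3) K, (QuotientGroup.mk g : Matrix.ProjectiveSpecialLinearGroup (Fin 3) K) = x ∧ g ^ 2 = 1 := by
  obtain ⟨g0, rfl⟩ := QuotientGroup.mk_surjective x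
  have hz : g0 ^ 2 ∈ Subgroup.center (Matrix.SpecialLinearGroup (Fin 3) K) := by
    rw [← QuotientGroup.eq_one_iff]
    exact hx
  obtain ⟨r, hr, hrz⟩ := Matrix.SpecialLinearGroup.mem_center_iff.1 hz
  have hz3 : (g0 ^ 2) ^ 3 = 1 := by
    apply Subtype.ext
    change ((g0 ^ 2) ^ 3).1 = 1
    rw [Matrix.SpecialLinearGroup.coe_pow, ← hrz, ← map_pow]
    rw [Fintype.card_fin] at hr
    rw [hr, map_one]
  refine ⟨g0 * g0 ^ 2, ?_, ?_⟩
  · rw [QuotientGroup.mk_mul, (QuotientGroup.eq_one_iff _).2 hz, mul_one]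
  · calc (g0 * g0 ^ 2) ^ 2 = (g0 ^ 2) ^ 3 := by group
      _ = 1 := hz3

theorem psl34_involutions_conj [Fintype K] (hF : Fintype.card K = 4)
    (x y : Matrix.ProjectiveSpecialLinearGroup (Fin 3) K) (hx : orderOf x = 2)
    (hy : orderOf y = 2) : IsConj x y := by
  haveI := charP_two_of_card_four hF
  have hx2 : x ^ 2 = 1 := by rw [← hx]; exact pow_orderOf_eq_one x
  have hy2 : y ^ 2 = 1 := by rw [← hy]; exact pow_orderOf_eq_one y
  obtain ⟨g, rfl, hg⟩ := exists_lift_involution x hx2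
  obtain ⟨g', rfl, hg'⟩ := exists_lift_involution y hy2
  have h1 : g ≠ 1 := by
    rintro rfl
    rw [QuotientGroup.mk_one, orderOf_one] at hx
    norm_num at hx
  have h1' : g' ≠ 1 := by
    rintro rfl
    rw [QuotientGroup.mk_one, orderOf_one] at hy
    norm_num at hy
  exact (QuotientGroup.mk' (Subgroup.center (Matrix.SpecialLinearGroup (Fin 3) K))).map_isConj
    (sl3_involutions_conj g g' hg h1 hg' h1')

end Cfsg.Agent.Lib.Helper14
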