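import Mathlib
import Cfsg.Agent.Lib.Helper14.FXSimple
import Cfsg.Agent.Lib.Helper14.GLExponent
import Cfsg.Agent.Lib.Helper14.Cyclic

set_option autoImplicit false

namespace Cfsg.Agent.Lib.Helper14

open Polynomial Module

universe u

variable {F : Type u} [Field F] [Fintype F]

/-- a matrix of prime order `r`, with `q` of order `n` modulo `r`, is killed by an irreducible polynomial
of degree `n` -/
theorem exists_irreducible_annihilator {p : ℕ} [Fact p.Prime] [CharP F p] {n r : ℕ} (hr : r.Prime)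
    (hrp : r ≠ p) (hi : orderOf ((Fintype.card F : ℕ) : ZMod r) = n) (A : Matrix (Fin n) (Fin n) F)
    (hA : A ^ r = 1) (hA1 : A ≠ 1) :
    ∃ f : F[X], f.Monic ∧ Irreducible f ∧ f.natDegree = n ∧ aeval A f = 0 := by
  classical
  set μ := minpoly F A with hμ
  have hint : IsIntegral F A := Matrix.isIntegral A
  have hμm : μ.Monic := minpoly.monic hint
  have hμ1 : μ ∣ X ^ r - 1 := minpoly.dvd F A (by simp [hA])
  have hμdeg : μ.natDegree ≤ n := by
    have h1 := Polynomial.natDegree_le_of_dvd (Matrix.minpoly_dvd_charpoly A) (Matrix.charpoly_monic A).ne_zero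
    rwa [Matrix.charpoly_natDegree_eq_dim, Fintype.card_fin] at h1
  obtain ⟨f₀, hf₀, hf₀μ, hf₀1⟩ : ∃ f₀ : F[X], Irreducible f₀ ∧ f₀ ∣ μ ∧ ¬ f₀ ∣ X - 1 := by
    by_contra hcon
    push Not at hcon
    have h1 := dvd_pow_natDegree_of_irreducible_dvd (X - 1) μ hcon hμm.ne_zero
    obtain ⟨t, ht⟩ : ∃ t, μ.natDegree ≤ p ^ t :=
      ⟨μ.natDegree, (Nat.lt_pow_self (Fact.out : p.Prime).one_lt).le⟩
    have h2 : μ ∣ X ^ (p ^ t) - 1 := by
      have : (X - 1 : F[X]) ^ (p ^ t) = X ^ (p ^ t) - 1 := by rw [sub_pow_char_pow, one_pow]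
      rw [← this]
      exact h1.trans (pow_dvd_pow _ ht)
    have h3 : A ^ (p ^ t) = 1 := by
      have := Polynomial.aeval_eq_zero_of_dvd_aeval_eq_zero h2 (minpoly.aeval F A)
      simp only [map_sub, map_pow, aeval_X, map_one] at this
      exact sub_eq_zero.1 this
    have h4 : orderOf A ∣ r := orderOf_dvd_of_pow_eq_one hA
    have h5 : orderOf A ∣ p ^ t := orderOf_dvd_of_pow_eq_one h3
    have h6 : Nat.Coprime r (p ^ t) :=
      Nat.Coprime.pow_right _ ((Nat.coprime_primes hr (Fact.out : p.Prime)).2 hrp)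
    have h7 : orderOf A = 1 := Nat.eq_one_of_dvd_coprimes h6 h4 h5
    exact hA1 (orderOf_eq_one_iff.1 h7)
  obtain ⟨f, hfm, hfirr, hfμ, hf1⟩ : ∃ f : F[X], f.Monic ∧ Irreducible f ∧ f ∣ μ ∧ ¬ f ∣ X - 1 := by
    have ha := normalize_associated f₀
    exact ⟨normalize f₀, Polynomial.monic_normalize hf₀.ne_zero, ha.irreducible_iff.2 hf₀,
      ha.dvd_iff_dvd_left.2 hf₀μ, fun h => hf₀1 (ha.dvd_iff_dvd_left.1 h)⟩
  have hfr : f ∣ X ^ r - 1 := hfμ.trans hμ1
  have hfX : f ≠ X := by
    rintro rfl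
    rw [Polynomial.X_dvd_iff] at hfr
    simp [hr.ne_zero.symm] at hfr
  have hroot : orderOf (rootK f) = r := by
    have : Fact r.Prime := ⟨hr⟩
    apply orderOf_eq_prime
    · have : (Ideal.Quotient.mk (Ideal.span {f}) (X ^ r - 1) : Kq f) = 0 := by
        rw [Ideal.Quotient.eq_zero_iff_mem, Ideal.mem_span_singleton]; exact hfr
      rw [map_sub, map_pow, map_one] at this
      exact sub_eq_zero.1 this
    · intro h
      apply hf1
      have : (Ideal.Quotient.mk (Ideal.span {f}) (X - 1) : Kq f) = 0 := by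
        rw [map_sub, map_one]; exact sub_eq_zero.2 h
      rwa [Ideal.Quotient.eq_zero_iff_mem, Ideal.mem_span_singleton] at this
  have hdeg : f.natDegree = n := by
    rw [natDegree_eq_orderOf hfm hfirr hfX, hroot, hi]
  refine ⟨f, hfm, hfirr, hdeg, ?_⟩
  have : μ = f := Polynomial.eq_of_monic_of_dvd_of_natDegree_le hfm hμm hfμ (by rw [hdeg]; exact hμdeg)
  rw [← this]
  exact minpoly.aeval F A

open scoped Matrix in
/-- the centraliser of a matrix killed by an irreducible polynomial of degree `n` -/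
theorem centralizer_of_irreducible {n : ℕ} (hn : 1 ≤ n) (x : GL (Fin n) F) (f : F[X]) (hfm : f.Monic)
    (hfirr : Irreducible f) (hdeg : f.natDegree = n)
    (hfA : aeval (x : Matrix (Fin n) (Fin n) F) f = 0) :
    IsCyclic ↥(Subgroup.centralizer ({x} : Set (GL (Fin n) F))) ∧
      Nat.card ↥(Subgroup.centralizer ({x} : Set (GL (Fin n) F))) = Fintype.card F ^ n - 1 := by
  classical
  have : Nonempty (Fin n) := ⟨⟨0, hn⟩⟩
  have := finite_Kq hfm.ne_zero
  have : (Ideal.span {f}).IsMaximal := PrincipalIdealRing.isMaximal_of_irreducible hfirr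
  let _ : Field (Kq f) := Ideal.Quotient.field _
  have : Finite (Kq f) := Module.finite_of_finite F
  set A : Matrix (Fin n) (Fin n) F := (x : Matrix (Fin n) (Fin n) F) with hA
  let ψ : Kq f →ₐ[F] Matrix (Fin n) (Fin n) F := Ideal.Quotient.liftₐ (Ideal.span {f}) (aeval A) (by
    intro a ha
    rw [Ideal.mem_span_singleton] at ha
    exact Polynomial.aeval_eq_zero_of_dvd_aeval_eq_zero ha hfA)
  have hψmk : ∀ P : F[X], ψ (Ideal.Quotient.mk _ P) = aeval A P := fun P => rfl
  have hψinj : Function.Injective ψ := (ψ : Kq f →+* Matrix (Fin n) (Fin n) F).injective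
  have hψA : ∀ b, ψ b * A = A * ψ b := by
    intro b
    obtain ⟨P, rfl⟩ := Ideal.Quotient.mk_surjective b
    rw [hψmk]
    exact ((commute_aeval (Commute.refl A) P).eq).symm
  let Ψ : (Kq f)ˣ →* ↥(Subgroup.centralizer ({x} : Set (GL (Fin n) F))) :=
    (Units.map (ψ : Kq f →* Matrix (Fin n) (Fin n) F)).codRestrict _ (by
      intro u
      rw [Subgroup.mem_centralizer_singleton_iff]
      apply Units.ext
      simp only [Units.val_mul, Units.coe_map]
      exact hψA u)
  have hΨinj : Function.Injective Ψ := by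
    intro u u' h
    have h1 : ((Ψ u).1 : Matrix (Fin n) (Fin n) F) = ((Ψ u').1 : Matrix (Fin n) (Fin n) F) := by rw [h]
    exact Units.ext (hψinj h1)
  have hΨsurj : Function.Surjective Ψ := by
    rintro ⟨B, hB⟩
    rw [Subgroup.mem_centralizer_singleton_iff] at hB
    have hBA : Commute (B : Matrix (Fin n) (Fin n) F) A := by
      have := congrArg (fun g : GL (Fin n) F => (g : Matrix (Fin n) (Fin n) F)) hB
      simp only [Units.val_mul] at this
      exact this
    let v : Fin n → F := Pi.single ⟨0, hn⟩ 1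
    have hv : v ≠ 0 := Pi.single_ne_zero_iff.2 one_ne_zero
    let ev : Kq f →ₗ[F] (Fin n → F) :=
      (LinearMap.applyₗ v) ∘ₗ (Matrix.toLin' : Matrix (Fin n) (Fin n) F ≃ₗ[F] _).toLinearMap ∘ₗ ψ.toLinearMap
    have hev : ∀ b, ev b = ψ b *ᵥ v := fun b => by
      simp [ev]
    have hevinj : Function.Injective ev := by
      rw [← LinearMap.ker_eq_bot, LinearMap.ker_eq_bot']
      intro b hb
      by_contra hb0
      apply hv
      rw [hev] at hb
      have : ψ b⁻¹ *ᵥ (ψ b *ᵥ v) = v := by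
        rw [Matrix.mulVec_mulVec, ← map_mul, inv_mul_cancel₀ hb0, map_one, Matrix.one_mulVec]
      rw [← this, hb, Matrix.mulVec_zero]
    have hevsurj : Function.Surjective ev := by
      apply (LinearMap.injective_iff_surjective_of_finrank_eq_finrank ?_).1 hevinj
      rw [finrank_quotient_span_eq_natDegree, hdeg, Module.finrank_fintype_fun_eq_card, Fintype.card_fin]
    obtain ⟨b, hb⟩ := hevsurj ((B : Matrix (Fin n) (Fin n) F) *ᵥ v)
    rw [hev] at hb
    have hBψ : (B : Matrix (Fin n) (Fin n) F) = ψ b := by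
      apply Matrix.toLin'.injective
      refine LinearMap.ext (fun w => ?_)
      obtain ⟨c, rfl⟩ := hevsurj w
      rw [hev, Matrix.toLin'_apply, Matrix.toLin'_apply, Matrix.mulVec_mulVec, Matrix.mulVec_mulVec]
      obtain ⟨P, rfl⟩ := Ideal.Quotient.mk_surjective c
      have h1 : (B : Matrix (Fin n) (Fin n) F) * ψ (Ideal.Quotient.mk _ P) =
          ψ (Ideal.Quotient.mk _ P) * B := by
        rw [hψmk]; exact (commute_aeval hBA P).eq
      rw [h1, ← Matrix.mulVec_mulVec, ← hb, Matrix.mulVec_mulVec, ← map_mul, ← map_mul, mul_comm]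
    have hb0 : b ≠ 0 := by
      rintro rfl
      rw [map_zero] at hBψ
      have := B.isUnit
      rw [hBψ] at this
      exact not_isUnit_zero this
    refine ⟨Units.mk0 b hb0, ?_⟩
    apply Subtype.ext
    apply Units.ext
    exact hBψ.symm
  refine ⟨isCyclic_of_surjective Ψ hΨsurj, ?_⟩
  rw [← Nat.card_congr (Equiv.ofBijective Ψ ⟨hΨinj, hΨsurj⟩), Nat.card_units,
    Module.natCard_eq_pow_finrank (K := F), finrank_quotient_span_eq_natDegree, hdeg,
    Nat.card_eq_fintype_card]

end Cfsg.Agent.Lib.Helper14
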