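import Mathlib
import Cfsg.Agent.Lib.Helper23.Recog

set_option autoImplicit false

namespace Cfsg.Agent.Lib.Helper14.SL23

open Cfsg.Agent.Lib.Helper23

abbrev SL := Matrix.SpecialLinearGroup (Fin 2) (ZMod 3)

theorem card_SL : Nat.card SL = 24 := by
  rw [Nat.card_eq_fintype_card]
  decide +kernel

theorem mul_pow4 : ∀ a b : SL, a ^ 4 = 1 → b ^ 4 = 1 → (a * b) ^ 4 = 1 := by decide +kernel

/-- the quaternion subgroup -/
def Q : Subgroup SL where
  carrier := {g | g ^ 4 = 1}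
  mul_mem' := fun {a b} ha hb => mul_pow4 a b ha hb
  one_mem' := one_pow 4
  inv_mem' := by
    intro a ha
    show (a⁻¹) ^ 4 = 1
    rw [inv_pow, show a ^ 4 = 1 from ha, inv_one]

theorem mem_Q {g : SL} : g ∈ Q ↔ g ^ 4 = 1 := Iff.rfl

instance Q_normal : Q.Normal := ⟨by
  intro n hn g
  rw [mem_Q] at hn ⊢
  rw [conj_pow, hn]; group⟩

theorem card_Q : Nat.card Q = 8 := by
  have h : Fintype.card {g : SL // g ^ 4 = 1} = 8 := by decide +kernel
  rw [← h, ← Nat.card_eq_fintype_card]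
  rfl

theorem card_center : Nat.card (Subgroup.center SL) = 2 := by
  have h : Fintype.card {g : SL // ∀ h : SL, h * g = g * h} = 2 := by decide +kernel
  refine Eq.trans ?_ h
  rw [← Nat.card_eq_fintype_card]
  exact Nat.card_congr (Equiv.subtypeEquivRight (fun g => Subgroup.mem_center_iff))

theorem comm_pow4 : ∀ a b : SL, (a * b * a⁻¹ * b⁻¹) ^ 4 = 1 := by decide +kernel

theorem exists_comm : ∀ g : SL, g ^ 4 = 1 → ∃ a b : SL, a * b * a⁻¹ * b⁻¹ = g := by decide +kernel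

theorem commutator_eq : commutator SL = Q := by
  apply le_antisymm
  · rw [commutator_eq_closure, Subgroup.closure_le]
    rintro _ ⟨a, b, rfl⟩
    exact comm_pow4 a b
  · intro g hg
    obtain ⟨a, b, rfl⟩ := exists_comm g hg
    exact Subgroup.commutator_mem_commutator (Subgroup.mem_top a) (Subgroup.mem_top b)

def aEl : SL := ⟨!![0, 1; -1, 0], by decide⟩

def bEl : SL := ⟨!![1, 1; 1, -1], by decide⟩

theorem Q_equiv : Nonempty (Q ≃* QuaternionGroup 2) := by
  have ha4 : aEl ^ 4 = 1 := by decide +kernel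
  have hb4 : bEl ^ 4 = 1 := by decide +kernel
  have ha2 : aEl ^ 2 ≠ 1 := by decide +kernel
  have h1 : bEl * bEl = aEl ^ 2 := by decide +kernel
  have h2 : bEl * aEl * bEl⁻¹ = aEl⁻¹ := by decide +kernel
  have hord : orderOf (⟨aEl, ha4⟩ : Q) = 2 * 2 := by
    rw [← Subgroup.orderOf_coe]
    exact orderOf_eq_prime_pow (p := 2) (n := 1) ha2 ha4
  refine nonempty_mulEquiv_quaternionGroup 2 (⟨aEl, ha4⟩ : Q) ⟨bEl, hb4⟩ hord (Subtype.ext h1)
    (Subtype.ext h2) ?_ card_Q
  intro hmem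
  obtain ⟨k, hk⟩ := Subgroup.mem_zpowers_iff.1 hmem
  have h3 : Commute (⟨bEl, hb4⟩ : Q) ⟨aEl, ha4⟩ := by
    rw [← hk]
    exact (Commute.refl _).zpow_left k
  have h4 : bEl * aEl = aEl * bEl := congrArg Subtype.val h3.eq
  have h5 : bEl * aEl ≠ aEl * bEl := by decide +kernel
  exact h5 h4

theorem card_sylow (P : Sylow 3 SL) : Nat.card P = 3 := by
  obtain ⟨n, hn⟩ := IsPGroup.iff_card.1 P.isPGroup'
  have h1 := Subgroup.card_mul_index (P : Subgroup SL)
  rw [card_SL] at h1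
  have h2 := P.not_dvd_index
  rw [hn] at h1 ⊢
  rcases n with _ | _ | n
  · exfalso
    apply h2
    rw [pow_zero, one_mul] at h1
    rw [h1]
    decide
  · rfl
  · exfalso
    have : 9 ∣ 24 := by
      rw [← h1, pow_succ, pow_succ]
      exact ⟨3 ^ n * (P : Subgroup SL).index, by ring⟩
    omega

theorem isComplement' (P : Sylow 3 SL) : Subgroup.IsComplement' Q (P : Subgroup SL) := by
  apply Subgroup.isComplement'_of_coprime
  · rw [card_Q, card_sylow, card_SL]
  · rw [card_Q, card_sylow]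
    decide

theorem index_Q : Q.index = 3 := by
  have h1 := Subgroup.card_mul_index Q
  rw [card_Q, card_SL] at h1
  omega

theorem sq_eq_one : ∀ g : SL, g ^ 2 = 1 → ∀ h : SL, h * g = g * h := by decide +kernel

theorem conj_cover : ∀ x : SL, x ^ 4 = 1 → x ^ 2 ≠ 1 → ∀ y : SL, y ^ 4 = 1 →
    ∃ h₁ h₂ : SL, y = (h₁ * x * h₁⁻¹) * (h₂ * x * h₂⁻¹) ∨ y = h₁ * x * h₁⁻¹ := by decide +kernel

theorem exists_order_four : ∀ g : SL, g ^ 4 ≠ 1 → ∃ h : SL, (g⁻¹ * (h * g * h⁻¹)) ^ 2 ≠ 1 ∧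
    (g⁻¹ * (h * g * h⁻¹)) ^ 4 = 1 := by decide +kernel

theorem Q_le_of_mem (N : Subgroup SL) [hN : N.Normal] (x : SL) (hx : x ∈ N) (h4 : x ^ 4 = 1)
    (h2 : x ^ 2 ≠ 1) : Q ≤ N := by
  intro y hy
  obtain ⟨h₁, h₂, h | h⟩ := conj_cover x h4 h2 y hy
  · rw [h]
    exact N.mul_mem (hN.conj_mem x hx h₁) (hN.conj_mem x hx h₂)
  · rw [h]
    exact hN.conj_mem x hx h₁

theorem normal_subgroups (N : Subgroup SL) (hN : N.Normal) :
    N = ⊥ ∨ N = ⊤ ∨ N = Subgroup.center SL ∨ N = Q := by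
  by_cases h1 : ∃ g ∈ N, g ^ 4 ≠ 1
  · obtain ⟨g, hg, hg4⟩ := h1
    right; left
    obtain ⟨h, h2, h4⟩ := exists_order_four g hg4
    have hQ : Q ≤ N := Q_le_of_mem N _ (N.mul_mem (N.inv_mem hg) (hN.conj_mem g hg h)) h4 h2
    have h5 := Subgroup.relIndex_mul_index hQ
    rw [index_Q] at h5
    have h6 : N.index ∣ 3 := ⟨Q.relIndex N, by rw [mul_comm]; exact h5.symm⟩
    rcases (Nat.dvd_prime Nat.prime_three).1 h6 with h7 | h7
    · exact Subgroup.index_eq_one.1 h7
    · exfalso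
      rw [h7] at h5
      have h8 : Q.relIndex N = 1 := by omega
      exact hg4 (Subgroup.relIndex_eq_one.1 h8 hg)
  · push Not at h1
    by_cases h2 : ∃ g ∈ N, g ^ 2 ≠ 1
    · obtain ⟨g, hg, hg2⟩ := h2
      right; right; right
      exact le_antisymm h1 (Q_le_of_mem N g hg (h1 g hg) hg2)
    · push Not at h2
      have hle : N ≤ Subgroup.center SL := by
        intro g hg
        rw [Subgroup.mem_center_iff]
        exact sq_eq_one g (h2 g hg)
      have h3 := Subgroup.card_dvd_of_le hle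
      rw [card_center] at h3
      rcases (Nat.dvd_prime Nat.prime_two).1 h3 with h4 | h4
      · left
        exact Subgroup.card_eq_one.1 h4
      · right; right; left
        exact Subgroup.eq_of_le_of_card_ge hle (by rw [h4, card_center])

end Cfsg.Agent.Lib.Helper14.SL23
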