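import Cfsg.Statements.S0823
import Cfsg.Agent.S0286
import Cfsg.Agent.Lib.Helper14.Ord24

set_option autoImplicit false
open Cfsg

namespace Cfsg.Agent.Lib.Helper14.SO33

abbrev I := Unit ⊕ (Fin 1 ⊕ Fin 1)

def Qz (x y z : ZMod 3) : ZMod 3 := x ^ 2 + y * z

def Concl (M : Matrix (Fin 3) (Fin 3) (ZMod 3)) : Prop :=
  M ^ 6 = 1 → M.det = 1 → M ^ 2 = 1 ∨ M ^ 3 = 1

instance (M : Matrix (Fin 3) (Fin 3) (ZMod 3)) : Decidable (Concl M) := by
  unfold Concl; infer_instance

set_option maxRecDepth 100000 in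
theorem brute : ∀ a d g : ZMod 3, Qz a d g = 1 → ∀ b e h : ZMod 3, Qz b e h = 0 →
    Qz (a + b) (d + e) (g + h) = 1 → ∀ c f i : ZMod 3, Qz c f i = 0 →
    Qz (a + c) (d + f) (g + i) = 1 → Qz (b + c) (e + f) (h + i) = 1 →
    Concl !![a, b, c; d, e, f; g, h, i] := by
  decide +kernel

def sig : Fin 3 → I := ![Sum.inl (), Sum.inr (Sum.inl 0), Sum.inr (Sum.inr 0)]

noncomputable def sigE : Fin 3 ≃ I := Equiv.ofBijective sig (by
  constructor
  · intro a b h
    fin_cases a <;> fin_cases b <;> simp_all [sig]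
  · intro x
    rcases x with ⟨⟩ | i | i
    · exact ⟨0, rfl⟩
    · exact ⟨1, by rw [Subsingleton.elim i 0]; rfl⟩
    · exact ⟨2, by rw [Subsingleton.elim i 0]; rfl⟩)

variable {F : Type*} [Field F]

/-- transfer of a matrix to `ZMod 3`. -/
def Phi (e : F ≃+* ZMod 3) (M : Matrix I I F) : Matrix (Fin 3) (Fin 3) (ZMod 3) :=
  fun i j => e (M (sig i) (sig j))

theorem Phi_one (e : F ≃+* ZMod 3) : Phi e 1 = 1 := by
  ext i j
  have h : sig i = sig j ↔ i = j := sigE.injective.eq_iff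
  simp only [Phi, Matrix.one_apply, h]
  split_ifs <;> simp

theorem Phi_mul (e : F ≃+* ZMod 3) (M N : Matrix I I F) : Phi e (M * N) = Phi e M * Phi e N := by
  ext i j
  simp [Phi, sig, Matrix.mul_apply, Fin.sum_univ_three, add_assoc]

theorem Phi_pow (e : F ≃+* ZMod 3) (M : Matrix I I F) (k : ℕ) : Phi e (M ^ k) = Phi e M ^ k := by
  induction k with
  | zero => simp [Phi_one]
  | succ k ih => rw [pow_succ, pow_succ, Phi_mul, ih]

theorem Phi_injective (e : F ≃+* ZMod 3) : Function.Injective (Phi e) := by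
  intro M N h
  ext i j
  have h' : ∀ a b, M (sig a) (sig b) = N (sig a) (sig b) := fun a b =>
    e.injective (congrFun (congrFun h a) b)
  rcases i with ⟨⟩ | i | i <;> rcases j with ⟨⟩ | j | j
  · exact h' 0 0
  · rw [Subsingleton.elim j 0]; exact h' 0 1
  · rw [Subsingleton.elim j 0]; exact h' 0 2
  · rw [Subsingleton.elim i 0]; exact h' 1 0
  · rw [Subsingleton.elim i 0, Subsingleton.elim j 0]; exact h' 1 1
  · rw [Subsingleton.elim i 0, Subsingleton.elim j 0]; exact h' 1 2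
  · rw [Subsingleton.elim i 0]; exact h' 2 0
  · rw [Subsingleton.elim i 0, Subsingleton.elim j 0]; exact h' 2 1
  · rw [Subsingleton.elim i 0, Subsingleton.elim j 0]; exact h' 2 2

theorem Phi_det (e : F ≃+* ZMod 3) (M : Matrix I I F) : (Phi e M).det = e M.det := by
  have : Phi e M = (e.toRingHom.mapMatrix M).submatrix sigE sigE := by
    ext i j; rfl
  rw [this, Matrix.det_submatrix_equiv_self, ← RingHom.map_det]
  rfl

theorem Q_col (e : F ≃+* ZMod 3) (M : Matrix I I F) (v : I → F) :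
    e (quadFormOdd 1 F (M.mulVec v)) =
      Qz (Phi e M 0 0 * e (v (sig 0)) + Phi e M 0 1 * e (v (sig 1)) + Phi e M 0 2 * e (v (sig 2)))
         (Phi e M 1 0 * e (v (sig 0)) + Phi e M 1 1 * e (v (sig 1)) + Phi e M 1 2 * e (v (sig 2)))
         (Phi e M 2 0 * e (v (sig 0)) + Phi e M 2 1 * e (v (sig 1)) + Phi e M 2 2 * e (v (sig 2))) := by
  simp [quadFormOdd, Qz, Phi, sig, Matrix.mulVec, dotProduct, add_assoc]

theorem Q_val (e : F ≃+* ZMod 3) (v : I → F) :
    e (quadFormOdd 1 F v) = Qz (e (v (sig 0))) (e (v (sig 1))) (e (v (sig 2))) := by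
  simp [quadFormOdd, Qz, sig]

theorem no_six (e : F ≃+* ZMod 3) (M : Matrix I I F)
    (hM : ∀ v, quadFormOdd 1 F (M.mulVec v) = quadFormOdd 1 F v) (hdet : M.det = 1)
    (h6 : M ^ 6 = 1) : M ^ 2 = 1 ∨ M ^ 3 = 1 := by
  have key : ∀ x y z : ZMod 3,
      Qz (Phi e M 0 0 * x + Phi e M 0 1 * y + Phi e M 0 2 * z)
         (Phi e M 1 0 * x + Phi e M 1 1 * y + Phi e M 1 2 * z)
         (Phi e M 2 0 * x + Phi e M 2 1 * y + Phi e M 2 2 * z) = Qz x y z := by
    intro x y z
    have h1 := Q_col e M (fun i => e.symm (![x, y, z] (sigE.symm i)))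
    have h2 := Q_val e (fun i => e.symm (![x, y, z] (sigE.symm i)))
    rw [hM, h2] at h1
    have hs : ∀ a, sigE.symm (sig a) = a := fun a => sigE.symm_apply_apply a
    simp only [hs, RingEquiv.apply_symm_apply] at h1
    simpa using h1.symm
  have hb := brute (Phi e M 0 0) (Phi e M 1 0) (Phi e M 2 0) (by simpa [Qz] using key 1 0 0)
    (Phi e M 0 1) (Phi e M 1 1) (Phi e M 2 1) (by simpa [Qz] using key 0 1 0)
    (by simpa [Qz] using key 1 1 0)
    (Phi e M 0 2) (Phi e M 1 2) (Phi e M 2 2) (by simpa [Qz] using key 0 0 1)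
    (by simpa [Qz] using key 1 0 1) (by simpa [Qz] using key 0 1 1)
  rw [← Matrix.eta_fin_three (Phi e M)] at hb
  have := hb (by rw [← Phi_pow, h6, Phi_one]) (by rw [Phi_det, hdet, map_one])
  rcases this with h | h
  · left; apply Phi_injective e; rw [Phi_pow, h, Phi_one]
  · right; apply Phi_injective e; rw [Phi_pow, h, Phi_one]

end Cfsg.Agent.Lib.Helper14.SO33
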