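import Mathlib

set_option autoImplicit false

namespace Cfsg.Agent.Lib.Helper14

open Polynomial Module

variable {F : Type*} [Field F]

/-- a nondegenerate symmetric `F`-bilinear form on an `F[X]`-module for which `F[X]` acts by self-adjoint maps -/
def HasForm (F : Type*) [Field F] (M : Type*) [AddCommGroup M] [Module F[X] M] : Prop :=
  ∃ b : M → M → F,
    (∀ x x' y, b (x + x') y = b x y + b x' y) ∧
    (∀ x y, b x y = b y x) ∧
    (∀ (q : F[X]) x y, b (q • x) y = b x (q • y)) ∧
    (∀ (c : F) x y, b (C c • x) y = c * b x y) ∧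
    (∀ x, (∀ y, b x y = 0) → x = 0)

theorem HasForm.of_equiv {M N : Type*} [AddCommGroup M] [Module F[X] M] [AddCommGroup N] [Module F[X] N]
    (e : M ≃ₗ[F[X]] N) (h : HasForm F N) : HasForm F M := by
  obtain ⟨b, h1, h2, h3, h4, h5⟩ := h
  refine ⟨fun x y => b (e x) (e y), ?_, ?_, ?_, ?_, ?_⟩
  · intro x x' y; simp [h1]
  · intro x y; exact h2 _ _
  · intro q x y; simp [h3]
  · intro c x y; simp [h4]
  · intro x hx
    have : e x = 0 := h5 _ (fun y => by simpa using hx (e.symm y))
    simpa using this

theorem HasForm.directSum {ι : Type*} [Fintype ι] (N : ι → Type*) [∀ i, AddCommGroup (N i)]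
    [∀ i, Module F[X] (N i)] (h : ∀ i, HasForm F (N i)) : HasForm F (DirectSum ι N) := by
  classical
  choose b h1 h2 h3 h4 h5 using h
  refine ⟨fun x y => ∑ i, b i (x i) (y i), ?_, ?_, ?_, ?_, ?_⟩
  · intro x x' y
    simp [h1, Finset.sum_add_distrib]
  · intro x y
    exact Finset.sum_congr rfl (fun i _ => h2 i _ _)
  · intro q x y
    apply Finset.sum_congr rfl
    intro i _
    have e1 : (q • x) i = q • x i := rfl
    have e2 : (q • y) i = q • y i := rfl
    rw [e1, e2, h3]
  · intro c x y
    rw [Finset.mul_sum]
    apply Finset.sum_congr rfl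
    intro i _
    have e1 : (C c • x) i = C c • x i := rfl
    rw [e1, h4]
  · intro x hx
    apply DFinsupp.ext
    intro i
    apply h5 i
    intro z
    have this : ∑ j, b j (x j) ((DirectSum.of N i z) j) = 0 := hx (DirectSum.of N i z)
    have hb0 : ∀ j (w : N j), b j w 0 = 0 := by
      intro j w
      have := h1 j 0 0 w
      rw [h2 j w 0]
      simpa using this
    rw [Finset.sum_eq_single i] at this
    · simpa using this
    · intro j _ hj
      rw [DirectSum.of_eq_of_ne _ _ _ hj]
      exact hb0 _ _
    · intro hi; exact absurd (Finset.mem_univ i) hi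

/-- the functional "coefficient of `X^(d-1)` of the remainder" -/
noncomputable def topCoeff (g : F[X]) (a : F[X]) : F := (a %ₘ g).coeff (g.natDegree - 1)

theorem topCoeff_congr {g : F[X]} (hg : g.Monic) {a a' : F[X]} (h : g ∣ a - a') :
    topCoeff g a = topCoeff g a' := by
  unfold topCoeff
  rw [Polynomial.modByMonic_eq_of_dvd_sub hg h]

theorem HasForm.quot_monic (g : F[X]) (hg : g.Monic) : HasForm F (F[X] ⧸ Submodule.span F[X] {g}) := by
  have hmem : ∀ a a' : F[X], (Submodule.Quotient.mk a : F[X] ⧸ Submodule.span F[X] {g}) = Submodule.Quotient.mk a' →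
      g ∣ a - a' := by
    intro a a' h
    rw [Submodule.Quotient.eq] at h
    exact Submodule.mem_span_singleton.mp h |>.elim (fun c hc => ⟨c, by rw [← hc]; simp [mul_comm]⟩)
  let b : (F[X] ⧸ Submodule.span F[X] {g}) → (F[X] ⧸ Submodule.span F[X] {g}) → F :=
    fun x y => topCoeff g (Quotient.out x * Quotient.out y)
  have hout : ∀ a : F[X], g ∣ Quotient.out (Submodule.Quotient.mk a : F[X] ⧸ Submodule.span F[X] {g}) - a := by
    intro a
    apply hmem
    exact Quotient.out_eq' _
  have hb : ∀ a a' : F[X], b (Submodule.Quotient.mk a) (Submodule.Quotient.mk a') = topCoeff g (a * a') := by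
    intro a a'
    apply topCoeff_congr hg
    obtain ⟨c, hc⟩ := hout a
    obtain ⟨c', hc'⟩ := hout a'
    have e1 : Quotient.out (Submodule.Quotient.mk a : F[X] ⧸ Submodule.span F[X] {g}) = a + g * c := by
      rw [← hc]; ring
    have e2 : Quotient.out (Submodule.Quotient.mk a' : F[X] ⧸ Submodule.span F[X] {g}) = a' + g * c' := by
      rw [← hc']; ring
    rw [e1, e2]
    exact ⟨a * c' + c * a' + g * c * c', by ring⟩
  refine ⟨b, ?_, ?_, ?_, ?_, ?_⟩
  · intro x x' y
    induction x using Submodule.Quotient.induction_on with | _ a => ?_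
    induction x' using Submodule.Quotient.induction_on with | _ a' => ?_
    induction y using Submodule.Quotient.induction_on with | _ c => ?_
    rw [← Submodule.Quotient.mk_add, hb, hb, hb]
    unfold topCoeff
    rw [add_mul, Polynomial.add_modByMonic, Polynomial.coeff_add]
  · intro x y
    induction x using Submodule.Quotient.induction_on with | _ a => ?_
    induction y using Submodule.Quotient.induction_on with | _ c => ?_
    rw [hb, hb, mul_comm]
  · intro q x y
    induction x using Submodule.Quotient.induction_on with | _ a => ?_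
    induction y using Submodule.Quotient.induction_on with | _ c => ?_
    rw [← Submodule.Quotient.mk_smul, ← Submodule.Quotient.mk_smul, hb, hb]
    congr 1
    simp only [smul_eq_mul]; ring
  · intro c x y
    induction x using Submodule.Quotient.induction_on with | _ a => ?_
    induction y using Submodule.Quotient.induction_on with | _ a' => ?_
    rw [← Submodule.Quotient.mk_smul, hb, hb]
    unfold topCoeff
    rw [smul_eq_mul, mul_assoc, ← Polynomial.smul_eq_C_mul, Polynomial.smul_modByMonic, Polynomial.coeff_smul,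
      smul_eq_mul]
  · intro x hx
    induction x using Submodule.Quotient.induction_on with | _ a => ?_
    set r := a %ₘ g with hr
    have hra : g ∣ a - r := by
      rw [hr, Polynomial.modByMonic_eq_sub_mul_div a g]
      exact ⟨a /ₘ g, by ring⟩
    by_cases hr0 : r = 0
    · rw [hr0, sub_zero] at hra
      rw [Submodule.Quotient.mk_eq_zero]
      obtain ⟨c, hc⟩ := hra
      exact Submodule.mem_span_singleton.mpr ⟨c, by rw [hc]; simp [mul_comm]⟩
    · exfalso
      have hdeg : r.degree < g.degree := Polynomial.degree_modByMonic_lt a hg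
      have hnat : r.natDegree < g.natDegree := Polynomial.natDegree_lt_natDegree hr0 hdeg
      have h1 := hx (Submodule.Quotient.mk (X ^ (g.natDegree - 1 - r.natDegree)))
      rw [hb] at h1
      have h2 : topCoeff g (a * X ^ (g.natDegree - 1 - r.natDegree)) = topCoeff g (r * X ^ (g.natDegree - 1 - r.natDegree)) := by
        apply topCoeff_congr hg
        rw [← sub_mul]
        exact Dvd.dvd.mul_right hra _
      rw [h2] at h1
      unfold topCoeff at h1
      have h3 : (r * X ^ (g.natDegree - 1 - r.natDegree)) %ₘ g = r * X ^ (g.natDegree - 1 - r.natDegree) := by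
        rw [Polynomial.modByMonic_eq_self_iff hg]
        rw [Polynomial.degree_mul, Polynomial.degree_X_pow, Polynomial.degree_eq_natDegree hr0,
          Polynomial.degree_eq_natDegree hg.ne_zero]
        norm_cast
        omega
      rw [h3] at h1
      have h4 : g.natDegree - 1 = r.natDegree + (g.natDegree - 1 - r.natDegree) := by omega
      rw [h4] at h1
      have h5 : g.natDegree - 1 - r.natDegree = r.natDegree + (g.natDegree - 1 - r.natDegree) - r.natDegree := by omega
      rw [← h5, Polynomial.coeff_mul_X_pow] at h1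
      exact hr0 (Polynomial.leadingCoeff_eq_zero.mp h1)

theorem HasForm.quot (g : F[X]) (hg : g ≠ 0) : HasForm F (F[X] ⧸ Submodule.span F[X] {g}) := by
  have hm : (g * C g.leadingCoeff⁻¹).Monic := Polynomial.monic_mul_leadingCoeff_inv hg
  have hs : Submodule.span F[X] {g} = Submodule.span F[X] {g * C g.leadingCoeff⁻¹} := by
    have hlc : g.leadingCoeff ≠ 0 := Polynomial.leadingCoeff_ne_zero.mpr hg
    apply le_antisymm
    · rw [Submodule.span_singleton_le_iff_mem]
      refine Submodule.mem_span_singleton.mpr ⟨C g.leadingCoeff, ?_⟩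
      rw [smul_eq_mul, mul_comm, mul_assoc, ← C_mul, inv_mul_cancel₀ hlc]; simp
    · rw [Submodule.span_singleton_le_iff_mem]
      refine Submodule.mem_span_singleton.mpr ⟨C g.leadingCoeff⁻¹, ?_⟩
      rw [smul_eq_mul, mul_comm]
  rw [hs]
  exact HasForm.quot_monic _ hm

theorem HasForm.aeval {V : Type*} [AddCommGroup V] [Module F V] [FiniteDimensional F V] (φ : Module.End F V) :
    HasForm F (Module.AEval' φ) := by
  have ht : Module.IsTorsion F[X] (Module.AEval' φ) := Module.AEval.isTorsion_of_finiteDimensional F V φ
  obtain ⟨ι, _, p, hp, e, ⟨f⟩⟩ := Module.equiv_directSum_of_isTorsion ht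
  apply HasForm.of_equiv f
  apply HasForm.directSum
  intro i
  exact HasForm.quot _ (pow_ne_zero _ (hp i).ne_zero)

/-- every endomorphism of a finite dimensional space is self-adjoint for a nondegenerate symmetric bilinear form -/
theorem exists_bilin_selfAdjoint {V : Type*} [AddCommGroup V] [Module F V] [FiniteDimensional F V] (φ : Module.End F V) :
    ∃ B : LinearMap.BilinForm F V, (∀ x y, B x y = B y x) ∧ (∀ x y, B (φ x) y = B x (φ y)) ∧
      (∀ x, (∀ y, B x y = 0) → x = 0) := by
  obtain ⟨b, h1, h2, h3, h4, h5⟩ := HasForm.aeval φ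
  let o := Module.AEval'.of φ
  have hsm : ∀ (c : F) (x : V), o (c • x) = C c • o x := by
    intro c x
    rw [Module.AEval.C_smul, map_smul]
  refine ⟨LinearMap.mk₂ F (fun x y => b (o x) (o y)) ?_ ?_ ?_ ?_, ?_, ?_, ?_⟩
  · intro x x' y; simp [h1]
  · intro c x y; rw [hsm, h4]; rfl
  · intro x y y'; rw [h2, map_add, h1, h2, h2 (o y')]
  · intro c x y; rw [h2, hsm, h4, h2]; rfl
  · intro x y; exact h2 _ _
  · intro x y
    change b (o (φ x)) (o y) = b (o x) (o (φ y))
    rw [← Module.AEval'.X_smul_of, ← Module.AEval'.X_smul_of, h3]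
  · intro x hx
    have : o x = 0 := h5 _ (fun y => by
      have := hx (o.symm y)
      simpa using this)
    simpa using this

theorem isConj_transpose {n : Type*} [Fintype n] [DecidableEq n] (A : Matrix n n F) : IsConj A A.transpose := by
  obtain ⟨B, hsymm, hadj, hnd⟩ := exists_bilin_selfAdjoint (Matrix.toLin' A)
  set S := LinearMap.BilinForm.toMatrix' B with hS
  have hSA : S * A = A.transpose * S := by
    have h1 : B.compLeft (Matrix.toLin' A) = B.compRight (Matrix.toLin' A) := by
      apply LinearMap.ext
      intro x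
      apply LinearMap.ext
      intro y
      exact hadj x y
    have h2 := congrArg LinearMap.BilinForm.toMatrix' h1
    rw [LinearMap.BilinForm.toMatrix'_compLeft, LinearMap.BilinForm.toMatrix'_compRight,
      LinearMap.toMatrix'_toLin'] at h2
    exact h2.symm
  have hunit : IsUnit S := by
    rw [← Matrix.mulVec_injective_iff_isUnit]
    intro x y hxy
    have h0 : S.mulVec (x - y) = 0 := by rw [Matrix.mulVec_sub, hxy, sub_self]
    have h3 : x - y = 0 := by
      apply hnd
      intro z
      rw [hsymm]
      have : B z (x - y) = z ⬝ᵥ S.mulVec (x - y) := by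
        rw [← Matrix.toBilin'_apply', hS, Matrix.toBilin'_toMatrix']
      rw [this, h0]; simp
    exact sub_eq_zero.mp h3
  obtain ⟨c, hc⟩ := hunit
  exact ⟨c, by rw [SemiconjBy, hc]; exact hSA⟩

end Cfsg.Agent.Lib.Helper14
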