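import Cfsg.Agent.Lib.Helper14.Cyclic

/-! The nilpotent shift matrix (a single Jordan block). -/

set_option autoImplicit false

namespace Cfsg.Agent.Lib.Helper14

open Module Matrix

variable {K : Type*} [Field K] {n : ℕ}

/-- The shift matrix `e_j ↦ e_{j+1}`. -/
def shiftM (n : ℕ) (K : Type*) [Field K] : Matrix (Fin n) (Fin n) K :=
  Matrix.of fun i j => if (i : ℕ) = (j : ℕ) + 1 then 1 else 0

theorem shiftM_apply (i j : Fin n) : shiftM n K i j = if (i : ℕ) = (j : ℕ) + 1 then 1 else 0 := rfl

theorem mul_shiftM (z : Matrix (Fin n) (Fin n) K) (i j : Fin n) :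
    (z * shiftM n K) i j = if h : (j : ℕ) + 1 < n then z i ⟨j + 1, h⟩ else 0 := by
  rw [Matrix.mul_apply]
  split_ifs with h
  · rw [Finset.sum_eq_single ⟨j + 1, h⟩]
    · simp [shiftM_apply]
    · intro b _ hb
      have : ¬ ((b : ℕ) = (j : ℕ) + 1) := fun hb' => hb (Fin.ext hb')
      simp [shiftM_apply, this]
    · simp
  · apply Finset.sum_eq_zero
    intro l _
    have : ¬ ((l : ℕ) = (j : ℕ) + 1) := by have := l.2; omega
    simp [shiftM_apply, this]

theorem shiftM_mul (z : Matrix (Fin n) (Fin n) K) (i j : Fin n) :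
    (shiftM n K * z) i j = if h : 0 < (i : ℕ) then z ⟨i - 1, by have := i.2; omega⟩ j else 0 := by
  rw [Matrix.mul_apply]
  split_ifs with h
  · rw [Finset.sum_eq_single ⟨i - 1, by have := i.2; omega⟩]
    · have : (i : ℕ) = (i : ℕ) - 1 + 1 := by omega
      simp [shiftM_apply, ← this]
    · intro b _ hb
      have : ¬ ((i : ℕ) = (b : ℕ) + 1) := fun hb' => hb (Fin.ext (by simp; omega))
      simp [shiftM_apply, this]
    · simp
  · apply Finset.sum_eq_zero
    intro l _
    have : ¬ ((i : ℕ) = (l : ℕ) + 1) := by omega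
    simp [shiftM_apply, this]

theorem shiftM_mulVec (x : Fin n → K) (i : Fin n) :
    (shiftM n K *ᵥ x) i = if h : 0 < (i : ℕ) then x ⟨i - 1, by have := i.2; omega⟩ else 0 := by
  rw [Matrix.mulVec, dotProduct]
  split_ifs with h
  · rw [Finset.sum_eq_single ⟨i - 1, by have := i.2; omega⟩]
    · have : (i : ℕ) = (i : ℕ) - 1 + 1 := by omega
      simp [shiftM_apply, ← this]
    · intro b _ hb
      have : ¬ ((i : ℕ) = (b : ℕ) + 1) := fun hb' => hb (Fin.ext (by simp; omega))
      simp [shiftM_apply, this]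
    · simp
  · apply Finset.sum_eq_zero
    intro l _
    have : ¬ ((i : ℕ) = (l : ℕ) + 1) := by omega
    simp [shiftM_apply, this]

theorem shiftM_pow_apply (k : ℕ) (i j : Fin n) :
    (shiftM n K ^ k) i j = if (i : ℕ) = (j : ℕ) + k then 1 else 0 := by
  induction k generalizing j with
  | zero =>
    simp [Matrix.one_apply, Fin.ext_iff]
  | succ k ih =>
    rw [pow_succ, mul_shiftM]
    split_ifs with h h2 h2
    · rw [ih]; simp; omega
    · rw [ih]; simp; omega
    · have := i.2; omega
    · rfl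

theorem shiftM_pow_self : shiftM n K ^ n = 0 := by
  ext i j
  rw [shiftM_pow_apply]
  have := i.2
  simp; omega

theorem shiftM_rank (hn : 0 < n) : (shiftM n K).rank = n - 1 := by
  have h1 := finrank_ker_mulVecLin (shiftM n K)
  have h2 : LinearMap.ker (Matrix.mulVecLin (shiftM n K))
      = Submodule.span K {(Pi.single ⟨n - 1, by omega⟩ 1 : Fin n → K)} := by
    apply le_antisymm
    · intro x hx
      rw [Submodule.mem_span_singleton]
      refine ⟨x ⟨n - 1, by omega⟩, ?_⟩
      ext j
      by_cases hj : j = ⟨n - 1, by omega⟩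
      · subst hj; simp
      · have hj' : (j : ℕ) + 1 < n := by
          have := j.2
          have : (j : ℕ) ≠ n - 1 := fun h => hj (Fin.ext h)
          omega
        have h3 : (shiftM n K *ᵥ x) ⟨j + 1, hj'⟩ = 0 := by
          have : shiftM n K *ᵥ x = 0 := hx
          rw [this]; rfl
        rw [shiftM_mulVec] at h3
        simp at h3
        simp [hj, h3]
    · rw [Submodule.span_singleton_le_iff_mem, LinearMap.mem_ker, Matrix.mulVecLin_apply]
      ext i
      rw [shiftM_mulVec]
      split_ifs with h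
      · have : (⟨(i : ℕ) - 1, by have := i.2; omega⟩ : Fin n) ≠ ⟨n - 1, by omega⟩ := by
          intro h'
          have := i.2
          have := congrArg Fin.val h'
          simp at this
          omega
        simp [this]
      · rfl
  rw [h2, finrank_span_singleton (by
    intro h
    have := congrFun h ⟨n - 1, by omega⟩
    simp at this)] at h1
  have h3 := Matrix.rank_le_card_width (shiftM n K)
  simp at h1 h3
  omega

/-- A matrix commuting with the shift is lower triangular with constant diagonal. -/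
theorem det_of_commute_shiftM (hn : 0 < n) (z : Matrix (Fin n) (Fin n) K)
    (h : z * shiftM n K = shiftM n K * z) : z.det = (z ⟨0, hn⟩ ⟨0, hn⟩) ^ n := by
  have key : ∀ (i j : ℕ) (hi : i + 1 < n) (hj : j + 1 < n),
      z ⟨i + 1, hi⟩ ⟨j + 1, hj⟩ = z ⟨i, by omega⟩ ⟨j, by omega⟩ := by
    intro i j hi hj
    have := congrFun (congrFun h ⟨i + 1, hi⟩) ⟨j, by omega⟩
    rw [mul_shiftM, shiftM_mul] at this
    simpa [hj] using this
  have key0 : ∀ (j : ℕ) (hj : j + 1 < n), z ⟨0, hn⟩ ⟨j + 1, hj⟩ = 0 := by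
    intro j hj
    have := congrFun (congrFun h ⟨0, hn⟩) ⟨j, by omega⟩
    rw [mul_shiftM, shiftM_mul] at this
    simpa [hj] using this
  have tri : ∀ (i j : ℕ) (hi : i < n) (hj : j < n), i < j → z ⟨i, hi⟩ ⟨j, hj⟩ = 0 := by
    intro i
    induction i with
    | zero =>
      intro j hi hj hij
      obtain ⟨j, rfl⟩ : ∃ j', j = j' + 1 := ⟨j - 1, by omega⟩
      exact key0 j hj
    | succ i ih =>
      intro j hi hj hij
      obtain ⟨j, rfl⟩ : ∃ j', j = j' + 1 := ⟨j - 1, by omega⟩
      rw [key i j hi hj]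
      exact ih j _ _ (by omega)
  have diag : ∀ (i : ℕ) (hi : i < n), z ⟨i, hi⟩ ⟨i, hi⟩ = z ⟨0, hn⟩ ⟨0, hn⟩ := by
    intro i
    induction i with
    | zero => intro _; rfl
    | succ i ih =>
      intro hi
      rw [key i i hi hi]
      exact ih _
  rw [Matrix.det_of_isLowerTriangular z (by
    intro i j hij
    exact tri i j i.2 j.2 hij)]
  rw [Finset.prod_congr rfl (fun (i : Fin n) _ => diag (i : ℕ) i.2)]
  simp

/-- A regular nilpotent matrix is similar to the shift matrix. -/
theorem exists_conj_shiftM (hn : 0 < n) (N : Matrix (Fin n) (Fin n) K) (hnil : N ^ n = 0)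
    (hreg : N.rank = n - 1) : ∃ g : Matrix (Fin n) (Fin n) K, IsUnit g ∧ g * shiftM n K = N * g := by
  set N' : End K (Fin n → K) := Matrix.mulVecLin N with hN'
  have hfr : finrank K (Fin n → K) = n := by simp
  have hpw : ∀ (k : ℕ), N' ^ k = Matrix.mulVecLin (N ^ k) := fun k => (mulVecLin_pow N k).symm
  have hNpow : N' ^ n = 0 := by rw [hpw, hnil]; simp
  have hNil : IsNilpotent N' := ⟨n, hNpow⟩
  have hNreg : finrank K (LinearMap.ker N') ≤ 1 := by
    rw [hN', finrank_ker_mulVecLin, hreg]
    simp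
    omega
  have hKrfin : finrank K (LinearMap.ker (N' ^ (n - 1))) = n - 1 := by
    have := finrank_ker_pow_pred N' (by rw [hfr]; exact hn) (by rw [hfr]; exact hNpow) hNreg
    rw [hfr] at this; exact this
  obtain ⟨v0, hv0⟩ : ∃ v0, (N' ^ (n - 1)) v0 ≠ 0 := by
    by_contra h
    push Not at h
    have : LinearMap.ker (N' ^ (n - 1)) = ⊤ := by
      rw [eq_top_iff]; intro x _; exact h x
    rw [this, finrank_top, hfr] at hKrfin
    omega
  set g : Matrix (Fin n) (Fin n) K := Matrix.of fun r i => ((N ^ (i : ℕ)) *ᵥ v0) r with hg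
  have hgS : g * shiftM n K = N * g := by
    ext r j
    rw [mul_shiftM]
    have h1 : (N * g) r j = ((N ^ ((j : ℕ) + 1)) *ᵥ v0) r := by
      rw [pow_succ', ← Matrix.mulVec_mulVec]
      rfl
    rw [h1]
    split_ifs with h
    · rfl
    · have : (j : ℕ) + 1 = n := by have := j.2; omega
      rw [this, hnil]; simp
  refine ⟨g, ?_, hgS⟩
  rw [← Matrix.mulVec_surjective_iff_isUnit]
  set W := LinearMap.range (Matrix.mulVecLin g) with hW
  have hWinv : ∀ w ∈ W, N' w ∈ W := by
    rintro _ ⟨x, rfl⟩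
    refine ⟨shiftM n K *ᵥ x, ?_⟩
    simp only [Matrix.mulVecLin_apply, hN', Matrix.mulVec_mulVec, hgS]
  have hWeq := eq_ker_pow_finrank_of_invariant N' hNil hNreg W hWinv
  have hv0W : v0 ∈ W := by
    refine ⟨Pi.single ⟨0, hn⟩ 1, ?_⟩
    rw [Matrix.mulVecLin_apply, Matrix.mulVec_single_one]
    ext r
    simp [hg]
  have hfW : finrank K W = n := by
    by_contra hne
    have hle : finrank K W ≤ n := by
      have := Submodule.finrank_le W
      rwa [hfr] at this
    have hlt : finrank K W ≤ n - 1 := by omega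
    rw [hWeq, LinearMap.mem_ker] at hv0W
    apply hv0
    have : n - 1 = (n - 1 - finrank K W) + finrank K W := by omega
    rw [this, pow_add, Module.End.mul_apply, hv0W, map_zero]
  have hWtop : W = ⊤ := Submodule.eq_top_of_finrank_eq (by rw [hfW, hfr])
  intro y
  have : y ∈ W := by rw [hWtop]; trivial
  obtain ⟨x, hx⟩ := this
  exact ⟨x, hx⟩

end Cfsg.Agent.Lib.Helper14
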