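import Mathlib
import Cfsg.Agent.Lib.Helper5.Symp
import Cfsg.Agent.S0752

set_option autoImplicit false

namespace Cfsg.Agent.Lib.Helper14

open Matrix Cfsg.Agent.Lib.Helper5

variable {F V : Type*} [Field F] [AddCommGroup V] [Module F V]

/-- `sympForm` as a bilinear expansion over the coordinates -/
theorem sympForm_single_single (m : ℕ) (i j : Fin m ⊕ Fin m) :
    Cfsg.sympForm m F (Pi.single i 1) (Pi.single j 1) = Matrix.J (Fin m) F i j := by
  unfold Cfsg.sympForm
  simp

/-- A basis whose Gram matrix is `J` identifies the form with `sympForm`. -/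
theorem eq_sympForm_of_gram {m : ℕ} (B : LinearMap.BilinForm F V)
    (b : Module.Basis (Fin m ⊕ Fin m) F V) (hb : ∀ i j, B (b i) (b j) = Matrix.J (Fin m) F i j)
    (x y : V) : B x y = Cfsg.sympForm m F (b.equivFun x) (b.equivFun y) := by
  conv_lhs => rw [← b.sum_equivFun x, ← b.sum_equivFun y]
  simp only [map_sum, LinearMap.sum_apply, map_smul, LinearMap.smul_apply, hb, smul_eq_mul]
  unfold Cfsg.sympForm
  simp only [dotProduct, Matrix.mulVec, Finset.mul_sum]
  rw [Finset.sum_comm]
  refine Finset.sum_congr rfl fun i _ => Finset.sum_congr rfl fun j _ => ?_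
  ring

/-- Existence of a symplectic basis. -/
theorem exists_symplectic_basis [FiniteDimensional F V] (B : LinearMap.BilinForm F V)
    (hB : B.Nondegenerate) (hA : B.IsAlt) (m : ℕ) (hm : Module.finrank F V = 2 * m) :
    ∃ b : Module.Basis (Fin m ⊕ Fin m) F V,
      ∀ x y, B x y = Cfsg.sympForm m F (b.equivFun x) (b.equivFun y) := by
  obtain ⟨m', k, b, h1, h2, h3, h4⟩ := Cfsg.Agent.S0752.result B hA
  have hk : k = 0 := by
    by_contra hk
    have hk' : 0 < k := Nat.pos_of_ne_zero hk
    have h5 := h4 ⟨0, hk'⟩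
    have h6 : b (Sum.inr ⟨0, hk'⟩) = 0 := hB.1 _ h5
    exact b.ne_zero _ h6
  subst hk
  have hcard := Module.finrank_eq_card_basis b
  simp only [Fintype.card_sum, Fintype.card_fin] at hcard
  have hmm : m' = m := by omega
  subst hmm
  let e : (Fin m' ⊕ Fin m') ⊕ Fin 0 ≃ Fin m' ⊕ Fin m' :=
    (Equiv.sumEmpty _ _).trans (Equiv.sumComm _ _)
  refine ⟨b.reindex e, eq_sympForm_of_gram B _ ?_⟩
  have hskew : ∀ x y, B x y = - B y x := fun x y => by
    have := hA.neg_eq x y
    rw [← this, neg_neg]
  intro i j
  rw [Module.Basis.reindex_apply, Module.Basis.reindex_apply]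
  rcases i with i | i <;> rcases j with j | j
  · simpa [e, Matrix.J] using h3 i j
  · have : B (b (Sum.inl (Sum.inr i))) (b (Sum.inl (Sum.inl j))) = -(if j = i then 1 else 0) := by
      rw [hskew, h1]
    simpa [e, Matrix.J, Matrix.one_apply, eq_comm] using this
  · simpa [e, Matrix.J, Matrix.one_apply] using h1 i j
  · simpa [e, Matrix.J] using h2 i j

/-- A form preserving representation on a symplectic space gives a homomorphism to `Sp`. -/
theorem exists_hom_sp_of_basis {G : Type*} [Group G] {m : ℕ} (B : LinearMap.BilinForm F V)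
    (b : Module.Basis (Fin m ⊕ Fin m) F V)
    (hb : ∀ x y, B x y = Cfsg.sympForm m F (b.equivFun x) (b.equivFun y))
    (ρ : G →* Module.End F V) (hρ : ∀ g u v, B (ρ g u) (ρ g v) = B u v) :
    ∃ φ : G →* Matrix.symplecticGroup (Fin m) F,
      ∀ g, (φ g).1 = LinearMap.toMatrix b b (ρ g) := by
  have hmem : ∀ g, LinearMap.toMatrix b b (ρ g) ∈ Matrix.symplecticGroup (Fin m) F := by
    intro g
    rw [mem_symplecticGroup_iff_preserves]
    intro u v
    have h1 := hρ g (b.equivFun.symm u) (b.equivFun.symm v)
    rw [hb, hb] at h1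
    simp only [LinearEquiv.apply_symm_apply] at h1
    rw [← h1]
    congr 1
    · have := LinearMap.toMatrix_mulVec_repr b b (ρ g) (b.equivFun.symm u)
      have h2 : (b.repr (b.equivFun.symm u) : Fin m ⊕ Fin m → F) = u := by
        have := b.equivFun.apply_symm_apply u
        exact this
      rw [h2] at this
      rw [this]; rfl
    · have := LinearMap.toMatrix_mulVec_repr b b (ρ g) (b.equivFun.symm v)
      have h2 : (b.repr (b.equivFun.symm v) : Fin m ⊕ Fin m → F) = v := by
        have := b.equivFun.apply_symm_apply v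
        exact this
      rw [h2] at this
      rw [this]; rfl
  refine ⟨{ toFun := fun g => ⟨_, hmem g⟩, map_one' := ?_, map_mul' := ?_ }, fun g => rfl⟩
  · apply Subtype.ext
    change LinearMap.toMatrix b b (ρ 1) = 1
    rw [map_one]
    exact LinearMap.toMatrix_one b
  · intro g h
    apply Subtype.ext
    change LinearMap.toMatrix b b (ρ (g * h)) =
      LinearMap.toMatrix b b (ρ g) * LinearMap.toMatrix b b (ρ h)
    rw [map_mul]
    exact LinearMap.toMatrix_mul b _ _

/-- A faithful form preserving representation on a non-degenerate alternating space of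
dimension `2m` embeds the group in `Sp_{2m}`. -/
theorem exists_injective_hom_sp {G : Type*} [Group G] [FiniteDimensional F V]
    (B : LinearMap.BilinForm F V) (hB : B.Nondegenerate) (hA : B.IsAlt) (m : ℕ)
    (hm : Module.finrank F V = 2 * m)
    (ρ : G →* Module.End F V) (hρ : ∀ g u v, B (ρ g u) (ρ g v) = B u v)
    (hinj : Function.Injective ρ) :
    ∃ φ : G →* Matrix.symplecticGroup (Fin m) F, Function.Injective φ := by
  obtain ⟨b, hb⟩ := exists_symplectic_basis B hB hA m hm
  obtain ⟨φ, hφ⟩ := exists_hom_sp_of_basis B b hb ρ hρ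
  refine ⟨φ, fun g h hgh => hinj ?_⟩
  have := congrArg Subtype.val hgh
  rw [hφ, hφ] at this
  exact (LinearMap.toMatrix b b).injective this

end Cfsg.Agent.Lib.Helper14
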