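import Mathlib
import Cfsg.Agent.Lib.Helper14.SpFrames
import Cfsg.Agent.Lib.Helper14.SpOrder
import Cfsg.Agent.Lib.Helper5.Stab

set_option autoImplicit false

namespace Cfsg.Agent.Lib.Helper14

open Module Matrix Cfsg.Agent.Lib.Helper5

variable {F : Type*} [Field F] {m : ℕ}

local notation "VV" => (Fin m ⊕ Fin m → F)

/-- the action on families of vectors -/
@[reducible] def spFunAction (F : Type*) [Field F] (m k : ℕ) :
    MulAction (Matrix.symplecticGroup (Fin m) F) (Fin k → (Fin m ⊕ Fin m → F)) where
  smul g x := fun i => g.1 *ᵥ x i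
  one_smul x := funext fun i => Matrix.one_mulVec (x i)
  mul_smul g h x := funext fun i => (Matrix.mulVec_mulVec (x i) g.1 h.1).symm

theorem sp_mulVec_injective (g : Matrix.symplecticGroup (Fin m) F) :
    Function.Injective (fun v : VV => g.1 *ᵥ v) := by
  intro u v h
  have h' : g.1 *ᵥ u = g.1 *ᵥ v := h
  rw [← symp_inv_mulVec g u, h', symp_inv_mulVec]

theorem sp_linearIndependent {k : ℕ} (g : Matrix.symplecticGroup (Fin m) F) (s : Fin k → VV)
    (hs : LinearIndependent F s) : LinearIndependent F (fun i => g.1 *ᵥ s i) := by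
  have := hs.map' (Matrix.mulVecLin g.1) (LinearMap.ker_eq_bot.2 (sp_mulVec_injective g))
  exact this

variable [Fintype F]

theorem triangle_succ (k : ℕ) : (k + 1) * (k + 1 + 1) / 2 = k * (k + 1) / 2 + (k + 1) := by
  have : (k + 1) * (k + 1 + 1) = k * (k + 1) + 2 * (k + 1) := by ring
  rw [this, Nat.add_mul_div_left _ _ (by norm_num)]

/-- order of the pointwise stabiliser of a totally isotropic frame, in product form -/
theorem card_sp_eq_XS (k : ℕ) (hk : k ≤ m) :
    Nat.card (Matrix.symplecticGroup (Fin m) F) =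
      Nat.card (XS F m k) * (Fintype.card F ^ (k * (k + 1) / 2 + 2 * k * (m - k)) *
        Nat.card (Matrix.symplecticGroup (Fin (m - k)) F)) := by
  induction k with
  | zero =>
    rw [card_XS]
    simp
  | succ k ih =>
    rw [ih (by omega), card_XS_succ]
    obtain ⟨r, hr⟩ : ∃ r, m - k = r + 1 := ⟨m - k - 1, by omega⟩
    have hr' : m - (k + 1) = r := by omega
    rw [hr, hr', card_sp_succ, triangle_succ]
    set q := Fintype.card F with hq
    have hm : 2 * m - k = k + 2 * (r + 1) := by omega
    have e1 : q ^ (2 * m - k) - q ^ k = q ^ k * (q ^ (2 * (r + 1)) - 1) := by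
      rw [hm, pow_add, Nat.mul_sub, mul_one]
    rw [e1]
    have e2 : q ^ (k * (k + 1) / 2 + 2 * k * (r + 1)) * q ^ (2 * r + 1) =
        q ^ k * q ^ (k * (k + 1) / 2 + (k + 1) + 2 * (k + 1) * r) := by
      rw [← pow_add, ← pow_add]
      congr 1
      ring
    calc Nat.card (XS F m k) * (q ^ (k * (k + 1) / 2 + 2 * k * (r + 1)) *
          ((q ^ (2 * (r + 1)) - 1) * q ^ (2 * r + 1) *
            Nat.card (Matrix.symplecticGroup (Fin r) F)))
        = Nat.card (XS F m k) * (q ^ (2 * (r + 1)) - 1) *
            (q ^ (k * (k + 1) / 2 + 2 * k * (r + 1)) * q ^ (2 * r + 1)) *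
            Nat.card (Matrix.symplecticGroup (Fin r) F) := by ring
      _ = _ := by rw [e2]; ring

theorem card_XS_pos (k : ℕ) (hk : k ≤ m) : 0 < Nat.card (XS F m k) := by
  have h1 := card_sp_eq_XS (F := F) k hk
  have h2 : 0 < Nat.card (Matrix.symplecticGroup (Fin m) F) := Nat.card_pos
  rw [h1] at h2
  exact Nat.pos_of_mul_pos_right h2 |> fun h => by
    by_contra h0
    have : Nat.card (XS F m k) = 0 := by omega
    rw [this, zero_mul] at h2
    exact lt_irrefl _ h2

/-- order of the pointwise stabiliser of a totally isotropic frame -/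
theorem card_sp_fix_frame (k : ℕ) (hk : k ≤ m) (s : XS F m k) :
    Nat.card {g : Matrix.symplecticGroup (Fin m) F // ∀ i, g.1 *ᵥ s.1 i = s.1 i} =
      Fintype.card F ^ (k * (k + 1) / 2 + 2 * k * (m - k)) *
        Nat.card (Matrix.symplecticGroup (Fin (m - k)) F) := by
  letI := spFunAction F m k
  have h1 := card_eq_card_mul_of_transitive (G := Matrix.symplecticGroup (Fin m) F) s.1
    (fun x => LinearIndependent F x ∧ ∀ i j, Cfsg.sympForm m F (x i) (x j) = 0) (fun x => by
      constructor
      · intro hx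
        obtain ⟨g, hg⟩ := sp_transitive_XS s ⟨x, hx⟩
        exact ⟨g, funext hg⟩
      · rintro ⟨g, rfl⟩
        refine ⟨sp_linearIndependent g s.1 s.2.1, fun i j => ?_⟩
        change Cfsg.sympForm m F (g.1 *ᵥ s.1 i) (g.1 *ᵥ s.1 j) = 0
        rw [symp_preserves]
        exact s.2.2 i j)
  rw [card_sp_eq_XS k hk] at h1
  have h2 := Nat.eq_of_mul_eq_mul_left (card_XS_pos k hk) h1
  rw [h2]
  exact Nat.card_congr (Equiv.subtypeEquivRight fun g => funext_iff.symm)

/-- order of the stabiliser of a totally isotropic subspace -/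
theorem card_sp_stabilizer_isotropic (k : ℕ) (hk : k ≤ m) (W : Submodule F VV)
    (hWk : finrank F W = k) (hW : ∀ u ∈ W, ∀ v ∈ W, Cfsg.sympForm m F u v = 0) :
    Nat.card (Cfsg.stabilizing (Cfsg.spToMat m F) (W : Set VV)) =
      (∏ i : Fin k, (Fintype.card F ^ k - Fintype.card F ^ (i : ℕ))) *
      (Fintype.card F ^ (k * (k + 1) / 2 + 2 * k * (m - k)) *
        Nat.card (Matrix.symplecticGroup (Fin (m - k)) F)) := by
  classical
  let b := Module.finBasisOfFinrankEq F W hWk
  have hLI : LinearIndependent F (fun i => (b i : VV)) :=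
    b.linearIndependent.map' W.subtype (Submodule.ker_subtype _)
  have hle0 : Submodule.span F (Set.range fun i => (b i : VV)) ≤ W := by
    rw [Submodule.span_le]
    rintro _ ⟨i, rfl⟩
    exact (b i).2
  have hspan : Submodule.span F (Set.range fun i => (b i : VV)) = W :=
    Submodule.eq_of_le_of_finrank_eq hle0 (by
      rw [finrank_span_eq_card hLI, Fintype.card_fin, hWk])
  let s : XS F m k := ⟨fun i => (b i : VV), hLI, fun i j => hW _ (b i).2 _ (b j).2⟩
  letI := spFunAction F m k
  set S := Cfsg.stabilizing (Cfsg.spToMat m F) (W : Set VV) with hS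
  have hmap : ∀ (g : Matrix.symplecticGroup (Fin m) F) (x : Fin k → VV),
      Submodule.span F (Set.range x) = W → (∀ i, g.1 *ᵥ s.1 i = x i) → g ∈ S := by
    intro g x hx hg
    rw [hS, mem_stabilizing_submodule]
    intro v hv
    rw [← hspan] at hv
    have h1 : Submodule.span F (Set.range fun i => (b i : VV)) ≤
        W.comap (Matrix.mulVecLin g.1) := by
      rw [Submodule.span_le]
      rintro _ ⟨i, rfl⟩
      change g.1 *ᵥ (b i : VV) ∈ W
      have := hg i
      change g.1 *ᵥ (b i : VV) = x i at this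
      rw [this]
      exact hx ▸ Submodule.subset_span ⟨i, rfl⟩
    exact h1 hv
  have h1 := card_eq_card_mul_of_transitive (G := S) s.1
    (fun x => LinearIndependent F x ∧ Submodule.span F (Set.range x) = W) (fun x => by
      constructor
      · rintro ⟨hx1, hx2⟩
        have hxW : ∀ i, x i ∈ W := fun i => hx2 ▸ Submodule.subset_span ⟨i, rfl⟩
        obtain ⟨g, hg⟩ := sp_transitive_XS s ⟨x, hx1, fun i j => hW _ (hxW i) _ (hxW j)⟩
        exact ⟨⟨g, hmap g x hx2 hg⟩, funext hg⟩
      · rintro ⟨g, rfl⟩
        have hLI' := sp_linearIndependent g.1 s.1 s.2.1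
        refine ⟨hLI', ?_⟩
        apply Submodule.eq_of_le_of_finrank_eq
        · rw [Submodule.span_le]
          rintro _ ⟨i, rfl⟩
          exact ((mem_stabilizing_submodule _ W g.1).1 g.2) _ (b i).2
        · have := finrank_span_eq_card hLI'
          rw [Fintype.card_fin] at this
          rw [hWk]
          exact this)
  have h2 := card_frames (K := F) (V := VV) k (fun W' => W' = W)
  have h3 : Nat.card {W' : Submodule F VV // finrank F W' = k ∧ W' = W} = 1 := by
    haveI : Unique {W' : Submodule F VV // finrank F W' = k ∧ W' = W} :=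
      { default := ⟨W, hWk, rfl⟩
        uniq := fun a => Subtype.ext a.2.2 }
    exact Nat.card_unique
  rw [h3, one_mul] at h2
  rw [h1, h2, ← card_sp_fix_frame k hk s]
  congr 1
  refine Nat.card_congr
    { toFun := fun g => ⟨g.1.1, fun i => congrFun g.2 i⟩
      invFun := fun g => ⟨⟨g.1, hmap g.1 s.1 hspan g.2⟩, funext g.2⟩
      left_inv := fun g => rfl
      right_inv := fun g => rfl }

end Cfsg.Agent.Lib.Helper14
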