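import Mathlib
import Cfsg.Agent.Lib.Helper14.SpParab

set_option autoImplicit false

namespace Cfsg.Agent.Lib.Helper14

open Module Matrix Cfsg.Agent.Lib.Helper5

variable {F : Type*} [Field F] {m : ℕ}

local notation "VV" => (Fin m ⊕ Fin m → F)

/-- the coordinate flag of totally isotropic subspaces -/
def flagE (F : Type*) [Field F] (m : ℕ) (k : Fin m) : Submodule F (Fin m ⊕ Fin m → F) where
  carrier := {v | (∀ i : Fin m, (k : ℕ) < (i : ℕ) → v (Sum.inl i) = 0) ∧
    ∀ i : Fin m, v (Sum.inr i) = 0}
  add_mem' := by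
    rintro a b ⟨h1, h2⟩ ⟨h3, h4⟩
    exact ⟨fun i hi => by simp [h1 i hi, h3 i hi], fun i => by simp [h2 i, h4 i]⟩
  zero_mem' := ⟨fun _ _ => rfl, fun _ => rfl⟩
  smul_mem' := by
    rintro c a ⟨h1, h2⟩
    exact ⟨fun i hi => by simp [h1 i hi], fun i => by simp [h2 i]⟩

theorem flagE_mono {j k : Fin m} (h : j ≤ k) : flagE F m j ≤ flagE F m k := by
  rintro v ⟨h1, h2⟩
  exact ⟨fun i hi => h1 i (lt_of_le_of_lt h hi), h2⟩

/-- the standard frame -/
noncomputable def stdFrame (F : Type*) [Field F] (m : ℕ) : XS F m m :=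
  ⟨fun i => Pi.single (Sum.inl i) 1, by
    have := (Pi.basisFun F (Fin m ⊕ Fin m)).linearIndependent.comp Sum.inl Sum.inl_injective
    convert this using 1
    ext i j
    simp [Pi.basisFun_apply], fun i j => by
    rw [sympForm_eq_sum]
    simp⟩

theorem stdFrame_apply (i : Fin m) : (stdFrame F m).1 i = Pi.single (Sum.inl i) 1 := rfl

theorem eq_sum_of_inr_zero (v : VV) (hv : ∀ i, v (Sum.inr i) = 0) :
    v = ∑ i, v (Sum.inl i) • (stdFrame F m).1 i := by
  classical
  ext x
  rcases x with x | x
  · simp [Finset.sum_apply, stdFrame_apply, Pi.single_apply]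
  · simp [Finset.sum_apply, stdFrame_apply, hv x]

/-- adapted frames -/
def IsAdapted (x : Fin m → VV) : Prop := ∀ j, x j ∈ flagE F m j ∧ x j (Sum.inl j) ≠ 0

theorem IsAdapted.linearIndependent {x : Fin m → VV} (hx : IsAdapted x) :
    LinearIndependent F x := by
  classical
  let M : Matrix (Fin m) (Fin m) F := fun i j => x j (Sum.inl i)
  have hM : M.BlockTriangular id := by
    intro i j hij
    exact (hx j).1.1 i hij
  have hdet : M.det ≠ 0 := by
    rw [Matrix.det_of_isUpperTriangular hM]
    exact Finset.prod_ne_zero_iff.2 fun i _ => (hx i).2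
  have hu : IsUnit M := (Matrix.isUnit_iff_isUnit_det M).2 (isUnit_iff_ne_zero.2 hdet)
  have hc := Matrix.linearIndependent_cols_of_isUnit hu
  apply LinearIndependent.of_comp (LinearMap.funLeft F F (Sum.inl : Fin m → Fin m ⊕ Fin m))
  exact hc

theorem IsAdapted.isotropic {x : Fin m → VV} (hx : IsAdapted x) (i j : Fin m) :
    Cfsg.sympForm m F (x i) (x j) = 0 := by
  rw [sympForm_eq_sum]
  refine Finset.sum_eq_zero fun a _ => ?_
  rw [(hx i).1.2 a, (hx j).1.2 a]
  ring

theorem stdFrame_isAdapted : IsAdapted (stdFrame F m).1 := by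
  intro j
  refine ⟨⟨fun i hi => ?_, fun i => ?_⟩, ?_⟩
  · rw [stdFrame_apply, Pi.single_apply, if_neg]
    intro h
    have := Sum.inl_injective h
    rw [this] at hi
    exact lt_irrefl _ hi
  · rw [stdFrame_apply]; simp
  · rw [stdFrame_apply]; simp

/-- the Borel subgroup -/
def spBorel (F : Type*) [Field F] (m : ℕ) : Subgroup (Matrix.symplecticGroup (Fin m) F) :=
  ⨅ k : Fin m, Cfsg.stabilizing (Cfsg.spToMat m F) (flagE F m k : Set (Fin m ⊕ Fin m → F))

theorem mem_spBorel_of_adapted (g : Matrix.symplecticGroup (Fin m) F) (x : Fin m → VV)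
    (hx : IsAdapted x) (hg : ∀ i, g.1 *ᵥ (stdFrame F m).1 i = x i) : g ∈ spBorel F m := by
  rw [spBorel, Subgroup.mem_iInf]
  intro k
  rw [mem_stabilizing_submodule]
  intro v hv
  change g.1 *ᵥ v ∈ flagE F m k
  rw [eq_sum_of_inr_zero v hv.2, Matrix.mulVec_sum]
  refine Submodule.sum_mem _ fun i _ => ?_
  rw [Matrix.mulVec_smul, hg]
  by_cases hik : i ≤ k
  · exact Submodule.smul_mem _ _ (flagE_mono hik (hx i).1)
  · rw [hv.1 i (not_le.1 hik), zero_smul]
    exact Submodule.zero_mem _

theorem adapted_of_mem_spBorel (g : Matrix.symplecticGroup (Fin m) F) (hg : g ∈ spBorel F m) :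
    IsAdapted (fun i => g.1 *ᵥ (stdFrame F m).1 i) := by
  rw [spBorel, Subgroup.mem_iInf] at hg
  intro j
  have h1 : g.1 *ᵥ (stdFrame F m).1 j ∈ flagE F m j :=
    ((hg j) _).1 (stdFrame_isAdapted j).1
  refine ⟨h1, fun h0 => ?_⟩
  rcases Nat.eq_zero_or_pos (j : ℕ) with hj | hj
  · -- the vector is zero
    have hz : g.1 *ᵥ (stdFrame F m).1 j = 0 := by
      ext x
      rcases x with x | x
      · by_cases hx : x = j
        · rw [hx]; exact h0
        · apply h1.1 x
          rw [hj]
          apply Nat.pos_of_ne_zero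
          intro hx0
          apply hx
          apply Fin.ext
          rw [hx0, hj]
      · exact h1.2 x
    have h2 := symp_inv_mulVec g ((stdFrame F m).1 j)
    rw [hz, Matrix.mulVec_zero] at h2
    have h3 := congrFun h2 (Sum.inl j)
    rw [stdFrame_apply] at h3
    simp at h3
  · let j' : Fin m := ⟨j - 1, by omega⟩
    have h2 : g.1 *ᵥ (stdFrame F m).1 j ∈ flagE F m j' := by
      refine ⟨fun i hi => ?_, h1.2⟩
      by_cases hx : i = j
      · rw [hx]; exact h0
      · apply h1.1 i
        have h3 : (j : ℕ) - 1 < i := hi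
        have h4 : (i : ℕ) ≠ j := fun h => hx (Fin.ext h)
        omega
    have h3 : (stdFrame F m).1 j ∈ flagE F m j' := ((hg j') _).2 h2
    have h4 := h3.1 j (by change (j : ℕ) - 1 < j; omega)
    rw [stdFrame_apply] at h4
    simp at h4

variable [Fintype F]

theorem card_flag_step (j : Fin m) :
    Nat.card {v : VV // v ∈ flagE F m j ∧ v (Sum.inl j) ≠ 0} =
      (Fintype.card F - 1) * Fintype.card F ^ (j : ℕ) := by
  classical
  have e : {v : VV // v ∈ flagE F m j ∧ v (Sum.inl j) ≠ 0} ≃ {c : F // c ≠ 0} × (Fin j → F) :=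
    { toFun := fun v => (⟨v.1 (Sum.inl j), v.2.2⟩, fun i => v.1 (Sum.inl ⟨i, lt_trans i.2 j.2⟩))
      invFun := fun p => ⟨Sum.elim
          (fun i => if h : (i : ℕ) < j then p.2 ⟨i, h⟩ else if i = j then p.1.1 else 0)
          (fun _ => 0), ⟨fun i hi => by
            have h1 : ¬ (i : ℕ) < j := by omega
            have h2 : i ≠ j := fun h => by rw [h] at hi; exact lt_irrefl _ hi
            change (if h : (i : ℕ) < j then p.2 ⟨i, h⟩ else if i = j then p.1.1 else 0) = 0
            rw [dif_neg h1, if_neg h2], fun i => rfl⟩, by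
            change (if h : (j : ℕ) < j then p.2 ⟨j, h⟩ else if j = j then p.1.1 else 0) ≠ 0
            rw [dif_neg (lt_irrefl _), if_pos rfl]
            exact p.1.2⟩
      left_inv := fun v => by
        apply Subtype.ext
        ext x
        rcases x with i | i
        · change (if h : (i : ℕ) < j then v.1 (Sum.inl ⟨i, _⟩)
            else if i = j then v.1 (Sum.inl j) else 0) = v.1 (Sum.inl i)
          by_cases h1 : (i : ℕ) < j
          · rw [dif_pos h1]
          · rw [dif_neg h1]
            by_cases h2 : i = j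
            · rw [if_pos h2, h2]
            · have h3 : (j : ℕ) < i := by
                have : (i : ℕ) ≠ j := fun h => h2 (Fin.ext h)
                omega
              rw [if_neg h2, v.2.1.1 i h3]
        · exact (v.2.1.2 i).symm
      right_inv := fun p => by
        apply Prod.ext
        · apply Subtype.ext
          change (if h : (j : ℕ) < j then p.2 ⟨j, h⟩ else if j = j then p.1.1 else 0) = p.1.1
          rw [dif_neg (lt_irrefl _), if_pos rfl]
        · ext i
          change (if h : (i : ℕ) < j then p.2 ⟨i, h⟩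
            else if (⟨i, lt_trans i.2 j.2⟩ : Fin m) = j then p.1.1 else 0) = p.2 i
          rw [dif_pos i.2] }
  rw [Nat.card_congr e, Nat.card_prod, Nat.card_eq_fintype_card, Nat.card_eq_fintype_card,
    Fintype.card_subtype_compl, Fintype.card_fun, Fintype.card_fin]
  simp

theorem card_adapted :
    Nat.card {x : Fin m → VV // IsAdapted x} =
      (Fintype.card F - 1) ^ m * Fintype.card F ^ (∑ i ∈ Finset.range m, i) := by
  classical
  have e : {x : Fin m → VV // IsAdapted x} ≃
      ∀ j : Fin m, {v : VV // v ∈ flagE F m j ∧ v (Sum.inl j) ≠ 0} :=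
    Equiv.subtypePiEquivPi (p := fun (j : Fin m) (v : VV) => v ∈ flagE F m j ∧ v (Sum.inl j) ≠ 0)
  rw [Nat.card_congr e, Nat.card_pi]
  simp only [card_flag_step]
  rw [Finset.prod_mul_distrib, Finset.prod_const, Finset.card_univ, Fintype.card_fin,
    Finset.prod_pow_eq_pow_sum, Fin.sum_univ_eq_sum_range (fun i => i)]

/-- order of the Borel subgroup of `Sp` -/
theorem card_spBorel :
    Nat.card (spBorel F m) = Fintype.card F ^ (m ^ 2) * (Fintype.card F - 1) ^ m := by
  classical
  letI := spFunAction F m m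
  have h1 := card_eq_card_mul_of_transitive (G := spBorel F m) (stdFrame F m).1
    (fun x => IsAdapted x) (fun x => by
      constructor
      · intro hx
        obtain ⟨g, hg⟩ := sp_transitive_XS (stdFrame F m) ⟨x, hx.linearIndependent, hx.isotropic⟩
        exact ⟨⟨g, mem_spBorel_of_adapted g x hx hg⟩, funext hg⟩
      · rintro ⟨g, rfl⟩
        exact adapted_of_mem_spBorel g.1 g.2)
  have h2 : Nat.card {g : spBorel F m // g • (stdFrame F m).1 = (stdFrame F m).1} =
      Nat.card {g : Matrix.symplecticGroup (Fin m) F //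
        ∀ i, g.1 *ᵥ (stdFrame F m).1 i = (stdFrame F m).1 i} :=
    Nat.card_congr
      { toFun := fun g => ⟨g.1.1, fun i => congrFun g.2 i⟩
        invFun := fun g => ⟨⟨g.1, mem_spBorel_of_adapted g.1 _ stdFrame_isAdapted g.2⟩,
          funext g.2⟩
        left_inv := fun g => rfl
        right_inv := fun g => rfl }
  rw [h1, h2, card_sp_fix_frame m le_rfl, card_adapted, Nat.sub_self, card_sp]
  simp only [mul_zero, add_zero, Finset.range_zero, Finset.prod_empty, mul_one, ne_eq,
    OfNat.ofNat_ne_zero, not_false_eq_true, zero_pow, pow_zero]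
  have h3 : m * (m + 1) / 2 = ∑ i ∈ Finset.range (m + 1), i := by
    rw [Finset.sum_range_id, Nat.add_sub_cancel, mul_comm]
  have h4 := Finset.sum_range_id_mul_two m
  have h5 : (∑ i ∈ Finset.range m, i) + m * (m + 1) / 2 = m ^ 2 := by
    rw [h3, Finset.sum_range_succ]
    have : m * (m - 1) + m = m ^ 2 := by
      cases m with
      | zero => rfl
      | succ n => simp; ring
    omega
  rw [mul_assoc, ← pow_add, h5, mul_comm]

end Cfsg.Agent.Lib.Helper14
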