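import Mathlib
import Cfsg.Agent.Lib.Helper14.SpAbstract
import Cfsg.Agent.Lib.Helper14.SubField

set_option autoImplicit false

namespace Cfsg.Agent.Lib.Helper14

open Matrix

/-- Restriction of scalars: a group of `K`-matrices preserving a form `β` whose composite with an
`F`-linear functional is alternating embeds in a symplectic group over `F`. -/
theorem exists_injective_hom_sp_restrict {F K ι G : Type*} [Field F] [Field K]
    [Algebra F K] [FiniteDimensional F K] [Fintype ι] [DecidableEq ι] [Group G]
    (β : (ι → K) → (ι → K) → K)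
    (hadd_l : ∀ u u' v, β (u + u') v = β u v + β u' v)
    (hadd_r : ∀ u v v', β u (v + v') = β u v + β u v')
    (hsmul_l : ∀ (c : F) u v, β (c • u) v = c • β u v)
    (hsmul_r : ∀ (c : F) u v, β u (c • v) = c • β u v)
    (lam : K →ₗ[F] F) (halt : ∀ u, lam (β u u) = 0) (hlam : lam ≠ 0)
    (hnd : ∀ u, u ≠ 0 → ∀ z : K, ∃ v, β u v = z)
    (toMat : G →* Matrix ι ι K) (hinj : Function.Injective toMat)
    (hpres : ∀ g u v, β (toMat g *ᵥ u) (toMat g *ᵥ v) = β u v)
    (m : ℕ) (hm : Module.finrank F (ι → K) = 2 * m) :
    ∃ φ : G →* Matrix.symplecticGroup (Fin m) F, Function.Injective φ := by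
  let B : LinearMap.BilinForm F (ι → K) :=
    LinearMap.mk₂ F (fun u v => lam (β u v))
      (fun u u' v => by rw [hadd_l, map_add])
      (fun c u v => by rw [hsmul_l, map_smul])
      (fun u v v' => by rw [hadd_r, map_add])
      (fun c u v => by rw [hsmul_r, map_smul])
  have hBapp : ∀ u v, B u v = lam (β u v) := fun u v => rfl
  have hA : B.IsAlt := fun u => halt u
  have hskew : ∀ x y, B x y = - B y x := fun x y => by
    have := hA.neg_eq x y
    rw [← this, neg_neg]
  have key : ∀ u, (∀ v, B u v = 0) → u = 0 := by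
    intro u hu
    by_contra hu0
    apply hlam
    ext z
    obtain ⟨v, hv⟩ := hnd u hu0 z
    rw [← hv, ← hBapp, hu v]; rfl
  have hB : B.Nondegenerate :=
    ⟨key, fun y hy => key y fun x => by rw [hskew, hy x, neg_zero]⟩
  let ρ : G →* Module.End F (ι → K) :=
    { toFun := fun g => (Matrix.toLin' (toMat g)).restrictScalars F
      map_one' := by
        ext x i
        simp
      map_mul' := fun g h => by
        apply LinearMap.ext
        intro x
        simp [Matrix.toLin'_mul] }
  have hρapp : ∀ g x, ρ g x = toMat g *ᵥ x := fun g x => rfl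
  refine exists_injective_hom_sp B hB hA m hm ρ (fun g u v => ?_) ?_
  · rw [hBapp, hBapp, hρapp, hρapp, hpres]
  · intro g h hgh
    apply hinj
    apply Cfsg.Agent.Lib.Helper5.ext_mulVec
    intro x
    rw [← hρapp, ← hρapp, hgh]

/-- a nonzero `F`-linear functional on a proper extension vanishing on `F` -/
theorem exists_functional_vanishing_on_base {F K : Type*} [Field F] [Field K] [Algebra F K]
    (h : 1 < Module.finrank F K) :
    ∃ lam : K →ₗ[F] F, lam ≠ 0 ∧ ∀ c : F, lam (algebraMap F K c) = 0 := by
  haveI : FiniteDimensional F K := Module.finite_of_finrank_pos (by omega)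
  have hlt : (Submodule.span F {(1 : K)}) < ⊤ := by
    rw [lt_top_iff_ne_top]
    intro htop
    have h1 := finrank_span_singleton (K := F) (one_ne_zero : (1 : K) ≠ 0)
    rw [htop, finrank_top] at h1
    omega
  obtain ⟨f, hf0, hf⟩ := Submodule.exists_le_ker_of_lt_top _ hlt
  refine ⟨f, hf0, fun c => ?_⟩
  have h1 : (1 : K) ∈ LinearMap.ker f := hf (Submodule.mem_span_singleton_self 1)
  rw [Algebra.algebraMap_eq_smul_one, map_smul, LinearMap.mem_ker.1 h1, smul_zero]

/-- dimension of `K ^ ι` over `F` by counting -/
theorem finrank_pi_of_card {F K ι : Type*} [Field F] [Fintype F] [Field K] [Fintype K]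
    [Algebra F K] [Fintype ι] {q k : ℕ} (hF : Fintype.card F = q) (hK : Fintype.card K = q ^ k) :
    Module.finrank F (ι → K) = k * Fintype.card ι := by
  classical
  have hq : 2 ≤ q := by rw [← hF]; exact Fintype.one_lt_card
  apply Nat.pow_right_injective hq
  change q ^ _ = q ^ _
  have := Module.card_eq_pow_finrank (K := F) (V := ι → K)
  rw [hF] at this
  rw [← this, Fintype.card_fun, hK, pow_mul]

end Cfsg.Agent.Lib.Helper14
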