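import Mathlib
import Cfsg.Agent.Lib.Helper14.SpPerf
import Cfsg.Agent.Lib.Helper14.Orders
import Cfsg.Agent.S0768
import Cfsg.Agent.S0767

set_option autoImplicit false

namespace Cfsg.Agent.Lib.Helper14

open Matrix Cfsg.Agent.Lib.Helper5
open scoped LinearAlgebra.Projectivization Pointwise

/-- Iwasawa criterion for the quotient by the centre. -/
theorem isSimpleGroup_quotient_center_of_iwasawa {G α : Type*} [Group G] [MulAction G α]
    [MulAction.IsQuasiPreprimitive G α] (I : MulAction.IwasawaStructure G α)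
    (hperf : commutator G = ⊤) (hker : ∀ g : G, (∀ x : α, g • x = x) → g ∈ Subgroup.center G)
    (hnt : Subgroup.center G ≠ ⊤) : IsSimpleGroup (G ⧸ Subgroup.center G) := by
  haveI : Nontrivial (G ⧸ Subgroup.center G) := by
    by_contra hcon
    rw [not_nontrivial_iff_subsingleton] at hcon
    apply hnt
    rw [eq_top_iff]
    intro g _
    rw [← QuotientGroup.eq_one_iff]
    exact Subsingleton.elim _ _
  refine ⟨fun N hN => ?_⟩
  set N' : Subgroup G := N.comap (QuotientGroup.mk' (Subgroup.center G)) with hN'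
  haveI : N'.Normal := hN.comap _
  by_cases hfix : MulAction.fixedPoints N' α = Set.univ
  · left
    rw [eq_bot_iff]
    intro x hx
    obtain ⟨g, rfl⟩ := QuotientGroup.mk_surjective x
    rw [Subgroup.mem_bot, QuotientGroup.eq_one_iff]
    apply hker
    intro a
    have : a ∈ MulAction.fixedPoints N' α := by rw [hfix]; trivial
    exact this ⟨g, hx⟩
  · right
    have h1 := I.commutator_le N' hfix
    rw [hperf, top_le_iff] at h1
    rw [eq_top_iff]
    intro x _
    obtain ⟨g, rfl⟩ := QuotientGroup.mk_surjective x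
    have : g ∈ N' := by rw [h1]; trivial
    exact this

variable {F : Type*} [Field F] {m : ℕ}

local notation "Sp" => Matrix.symplecticGroup (Fin m) F
local notation "MM" => Matrix (Fin m ⊕ Fin m) (Fin m ⊕ Fin m) F
local notation "VV" => (Fin m ⊕ Fin m → F)

theorem spT_add (w : VV) (c d : F) : spT w (c + d) = spT w c * spT w d :=
  Subtype.ext ((Cfsg.Agent.S0767.result m w).1 c d).symm

theorem spT_smul (w : VV) (a c : F) : spT (a • w) c = spT w (a ^ 2 * c) := by
  apply Subtype.ext
  apply ext_mulVec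
  intro x
  change Cfsg.sympTransvection m (a • w) c *ᵥ x = Cfsg.sympTransvection m w (a ^ 2 * c) *ᵥ x
  rw [sympTransvection_mulVec, sympTransvection_mulVec, sympForm_smul_right, smul_smul]
  congr 2
  ring

/-- the root group hom at `w` -/
noncomputable def spTHom (w : VV) : Multiplicative F →* Sp where
  toFun c := spT w c.toAdd
  map_one' := by
    apply Subtype.ext
    change Cfsg.sympTransvection m w 0 = 1
    simp [Cfsg.sympTransvection]
  map_mul' c d := spT_add w _ _

/-- `Sp → GL` -/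
noncomputable def spToGL : Sp →* GL (Fin m ⊕ Fin m) F :=
  MonoidHom.toHomUnits (Matrix.symplecticGroup (Fin m) F).subtype

theorem spToGL_coe (g : Sp) : ((spToGL g : GL (Fin m ⊕ Fin m) F) : MM) = (g : MM) := rfl

/-- the action of `Sp` on the projective space -/
@[reducible] noncomputable def spAction : MulAction Sp (ℙ F VV) := MulAction.compHom _ spToGL

attribute [local instance] spAction

theorem sp_smul_mk (g : Sp) (v : VV) (hv : v ≠ 0) (hgv : (g : MM) *ᵥ v ≠ 0) :
    g • (Projectivization.mk F v hv) = Projectivization.mk F ((g : MM) *ᵥ v) hgv := by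
  change (spToGL g) • (Projectivization.mk F v hv) = _
  rw [Projectivization.smul_mk]
  rfl

theorem sp_mulVec_ne_zero (g : Sp) {v : VV} (hv : v ≠ 0) : (g : MM) *ᵥ v ≠ 0 := by
  intro h
  apply hv
  have := symp_inv_mulVec g v
  rw [h, mulVec_zero] at this
  exact this.symm

theorem sp_isPreprimitive [Finite F] (hm : 1 ≤ m) : MulAction.IsPreprimitive Sp (ℙ F VV) := by
  haveI := Cfsg.Agent.S0768.result (F := F) m hm
  let φ : ↥(Cfsg.spGL m F) → Sp := fun g =>
    ⟨(g : GL (Fin m ⊕ Fin m) F).1, (mem_symplecticGroup_iff_preserves _).2 g.2⟩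
  let f : ℙ F VV →ₑ[φ] ℙ F VV :=
    { toFun := id
      map_smul' := fun g x => by
        change (g : GL (Fin m ⊕ Fin m) F) • x = spToGL (φ g) • x
        congr 1
        exact Units.ext rfl }
  exact MulAction.IsPreprimitive.of_surjective (f := f) Function.surjective_id

/-- The Iwasawa structure of `Sp` on the projective space. -/
noncomputable def spIwasawa : MulAction.IwasawaStructure Sp (ℙ F VV) where
  T p := (spTHom p.rep).range
  is_comm p := ⟨⟨by
    rintro ⟨a, ⟨x, hx⟩⟩ ⟨b, ⟨y, hy⟩⟩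
    apply Subtype.ext
    change a * b = b * a
    rw [← hx, ← hy, ← map_mul, ← map_mul, mul_comm]⟩⟩
  is_conj g p := by
    have hw := p.rep_nonzero
    have hgp : g • p = Projectivization.mk F ((g : MM) *ᵥ p.rep) (sp_mulVec_ne_zero g hw) := by
      conv_lhs => rw [← p.mk_rep]
      exact sp_smul_mk g _ _ _
    obtain ⟨a, ha⟩ := Projectivization.exists_smul_eq_mk_rep F ((g : MM) *ᵥ p.rep)
      (sp_mulVec_ne_zero g hw)
    rw [← hgp] at ha
    ext x
    rw [Subgroup.mem_pointwise_smul_iff_inv_smul_mem]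
    simp only [MulAut.smul_def, MulAut.inv_apply, MulAut.conj_symm_apply]
    constructor
    · rintro ⟨c, rfl⟩
      refine ⟨Multiplicative.ofAdd ((a : F) ^ 2 * c.toAdd), ?_⟩
      change spT p.rep ((a : F) ^ 2 * c.toAdd) = g⁻¹ * spT (g • p).rep c.toAdd * g
      rw [← ha]
      change _ = g⁻¹ * spT ((a : F) • ((g : MM) *ᵥ p.rep)) c.toAdd * g
      rw [spT_smul, ← spT_conj]
      group
    · rintro ⟨c, hc⟩
      refine ⟨Multiplicative.ofAdd (((a : F)⁻¹) ^ 2 * c.toAdd), ?_⟩
      change spT (g • p).rep (((a : F)⁻¹) ^ 2 * c.toAdd) = x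
      change spT p.rep c.toAdd = g⁻¹ * x * g at hc
      rw [← ha]
      change spT ((a : F) • ((g : MM) *ᵥ p.rep)) _ = x
      rw [spT_smul, ← spT_conj]
      have : (a : F) ^ 2 * (((a : F)⁻¹) ^ 2 * c.toAdd) = c.toAdd := by
        have := a.ne_zero
        field_simp
      rw [this, hc]
      group
  is_generator := by
    rw [eq_top_iff, ← tvGroup_eq_top, tvGroup, Subgroup.closure_le]
    rintro A ⟨w, c, hA⟩
    have hA' : A = spT w c := Subtype.ext hA
    rw [hA']
    by_cases hw : w = 0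
    · rw [hw, spT_zero]; exact one_mem _
    obtain ⟨a, ha⟩ := Projectivization.exists_smul_eq_mk_rep F w hw
    refine Subgroup.mem_iSup_of_mem (Projectivization.mk F w hw)
      ⟨Multiplicative.ofAdd (((a : F)⁻¹) ^ 2 * c), ?_⟩
    change spT (Projectivization.mk F w hw).rep (((a : F)⁻¹) ^ 2 * c) = spT w c
    rw [← ha]
    change spT ((a : F) • w) _ = _
    rw [spT_smul]
    congr 1
    have := a.ne_zero
    field_simp

/-- an element of `Sp` fixing all lines is a scalar -/
theorem sp_scalar_of_fix (g : Sp) (h : ∀ v : VV, v ≠ 0 → ∃ a : F, a • v = (g : MM) *ᵥ v) :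
    ∃ a : F, (g : MM) = Matrix.scalar _ a := by
  obtain ⟨a, ha⟩ := (Matrix.toLin' (g : MM)).exists_eq_smul_id_of_forall_notLinearIndependent
    fun (v : VV) ↦ by
      by_cases hv : v = 0
      · simp [hv, linearIndependent_fin2]
      · simpa [LinearIndependent.pair_iff' hv] using h v hv
  refine ⟨a, ?_⟩
  calc (g : MM) = LinearMap.toMatrix' (Matrix.toLin' (g : MM)) := by
        rw [LinearMap.toMatrix'_toLin']
    _ = (algebraMap F (Module.End F VV) a).toMatrix' := congrArg LinearMap.toMatrix' ha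
    _ = Matrix.scalar _ a := LinearMap.toMatrix'_algebraMap a

theorem sp_mem_center_of_scalar (g : Sp) {a : F} (h : (g : MM) = Matrix.scalar _ a) :
    g ∈ Subgroup.center Sp := by
  rw [Subgroup.mem_center_iff]
  intro x
  apply Subtype.ext
  change (x : MM) * (g : MM) = (g : MM) * (x : MM)
  rw [h]
  exact ((Matrix.scalar_commute a (fun r => mul_comm _ _)) (x : MM)).eq.symm

theorem sp_ker_le_center (g : Sp) (h : ∀ x : ℙ F VV, g • x = x) : g ∈ Subgroup.center Sp := by
  obtain ⟨a, ha⟩ := sp_scalar_of_fix g (fun v hv => by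
    have := h (Projectivization.mk F v hv)
    rw [sp_smul_mk g v hv (sp_mulVec_ne_zero g hv), Projectivization.mk_eq_mk_iff'] at this
    exact this)
  exact sp_mem_center_of_scalar g ha

theorem spT_single_ne_one (i : Fin m) : spT (Pi.single (Sum.inl i) 1 : VV) (1 : F) ≠ 1 := by
  intro h
  rw [spT_single] at h
  have := congrArg (fun g : Sp => (g : MM) (Sum.inl i) (Sum.inr i)) h
  change (fromBlocks 1 (single i i (1 : F)) 0 1 : MM) (Sum.inl i) (Sum.inr i) =
    (1 : MM) (Sum.inl i) (Sum.inr i) at this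
  simp at this

theorem sp_center_fix (g : Sp) (hg : g ∈ Subgroup.center Sp) (v : VV) (hv : v ≠ 0) :
    ∃ a : F, a • v = (g : MM) *ᵥ v := by
  have h1 : spT ((g : MM) *ᵥ v) (1 : F) = spT v 1 := by
    rw [← spT_conj, ← (Subgroup.mem_center_iff.1 hg (spT v 1)), mul_inv_cancel_right]
  obtain ⟨x, hx⟩ : ∃ x, Cfsg.sympForm m F x v ≠ 0 := by
    by_contra hcon
    push Not at hcon
    exact hv (sympB_sepRight v hcon)
  have h2 := congrArg (fun t : Sp => (t : MM) *ᵥ x) h1
  change Cfsg.sympTransvection m _ 1 *ᵥ x = Cfsg.sympTransvection m _ 1 *ᵥ x at h2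
  rw [sympTransvection_mulVec, sympTransvection_mulVec, one_mul, one_mul] at h2
  have h3 := add_left_cancel h2
  have hb : Cfsg.sympForm m F x ((g : MM) *ᵥ v) ≠ 0 := by
    intro hb
    rw [hb, zero_smul] at h3
    exact (smul_ne_zero hx hv) h3.symm
  refine ⟨(Cfsg.sympForm m F x ((g : MM) *ᵥ v))⁻¹ * Cfsg.sympForm m F x v, ?_⟩
  rw [mul_smul, ← h3, smul_smul, inv_mul_cancel₀ hb, one_smul]

theorem scalar_mem_sp {a : F} (ha : a ^ 2 = 1) :
    (Matrix.scalar (Fin m ⊕ Fin m) a : MM) ∈ Matrix.symplecticGroup (Fin m) F := by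
  rw [mem_symplecticGroup_iff_preserves]
  intro u v
  have : ∀ w : VV, (Matrix.scalar (Fin m ⊕ Fin m) a : MM) *ᵥ w = a • w := by
    intro w
    rw [Matrix.scalar_apply, ← Matrix.smul_one_eq_diagonal, Matrix.smul_mulVec, Matrix.one_mulVec]
  rw [this, this, sympForm_smul_left, sympForm_smul_right, ← mul_assoc, ← pow_two, ha, one_mul]

theorem card_center_sp [Fintype F] (hm : 1 ≤ m) :
    Nat.card (Subgroup.center Sp) = Nat.gcd 2 (Fintype.card F - 1) := by
  rw [← card_rootsOfUnity_field]
  symm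
  have hz : ∀ z : rootsOfUnity 2 F, ((z : Fˣ) : F) ^ 2 = 1 := by
    intro z
    have := (mem_rootsOfUnity _ _).1 z.2
    have h2 := congrArg Units.val this
    simpa using h2
  let φ : rootsOfUnity 2 F → Subgroup.center Sp := fun z =>
    ⟨⟨Matrix.scalar _ ((z : Fˣ) : F), scalar_mem_sp (hz z)⟩, sp_mem_center_of_scalar _ rfl⟩
  refine Nat.card_congr (Equiv.ofBijective φ ⟨?_, ?_⟩)
  · intro z z' h
    have h1 := congrArg (fun t : Subgroup.center Sp =>
      ((t : Sp) : MM) (Sum.inl ⟨0, hm⟩) (Sum.inl ⟨0, hm⟩)) h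
    change (Matrix.scalar _ ((z : Fˣ) : F) : MM) _ _ = (Matrix.scalar _ ((z' : Fˣ) : F) : MM) _ _ at h1
    simp at h1
    exact Subtype.ext (Units.ext h1)
  · rintro ⟨g, hg⟩
    obtain ⟨a, ha⟩ := sp_scalar_of_fix g (sp_center_fix g hg)
    have ha2 : a ^ 2 = 1 := by
      have h1 := symp_preserves g (Pi.single (Sum.inl ⟨0, hm⟩) 1) (Pi.single (Sum.inr ⟨0, hm⟩) 1)
      have : ∀ w : VV, (g : MM) *ᵥ w = a • w := by
        intro w
        rw [ha, Matrix.scalar_apply, ← Matrix.smul_one_eq_diagonal, Matrix.smul_mulVec,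
          Matrix.one_mulVec]
      rw [this, this, sympForm_smul_left, sympForm_smul_right, ← mul_assoc, ← pow_two] at h1
      have h0 : Cfsg.sympForm m F (Pi.single (Sum.inl ⟨0, hm⟩) 1) (Pi.single (Sum.inr ⟨0, hm⟩) 1)
          ≠ 0 := by
        rw [sympForm_eq_sum]
        simp [Pi.single_apply]
      exact mul_right_cancel₀ h0 (h1.trans (one_mul _).symm)
    have ha0 : a ≠ 0 := by rintro rfl; simp at ha2
    refine ⟨⟨Units.mk0 a ha0, (mem_rootsOfUnity _ _).2 (Units.ext (by simpa using ha2))⟩, ?_⟩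
    apply Subtype.ext
    apply Subtype.ext
    exact ha.symm

theorem PSp_isSimpleGroup [Fintype F] (hm : 2 ≤ m) (h : m = 2 → 3 ≤ Fintype.card F) :
    IsSimpleGroup (Cfsg.PSp m F) := by
  haveI := sp_isPreprimitive (F := F) (m := m) (by omega)
  have hperf : commutator Sp = ⊤ := sp_commutator_eq_top (by
    rcases Nat.lt_or_ge 2 m with h3 | h3
    · left; omega
    · right; left; exact ⟨by omega, h (by omega)⟩)
  refine isSimpleGroup_quotient_center_of_iwasawa spIwasawa hperf sp_ker_le_center ?_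
  intro hc
  rw [← commutator_eq_bot_iff_center_eq_top, hperf] at hc
  apply spT_single_ne_one (F := F) (⟨0, by omega⟩ : Fin m)
  have : spT (Pi.single (Sum.inl ⟨0, by omega⟩) 1 : VV) (1 : F) ∈ (⊤ : Subgroup Sp) := trivial
  rw [hc] at this
  exact this

end Cfsg.Agent.Lib.Helper14
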