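import Mathlib
import Cfsg.Agent.Lib.Helper14.SpOrder
import Cfsg.Agent.Lib.Helper14.SpPerf
import Cfsg.Agent.Lib.Helper14.Transit

set_option autoImplicit false

namespace Cfsg.Agent.Lib.Helper14

open Matrix Cfsg.Agent.Lib.Helper5

variable {F : Type*} [Field F] {m : ℕ}

/-- A symplectic matrix with `rank (t - 1) = 1` is a symplectic transvection. -/
theorem exists_eq_spT_of_rank_one (t : Matrix.symplecticGroup (Fin m) F)
    (ht : ((t : Matrix (Fin m ⊕ Fin m) (Fin m ⊕ Fin m) F) - 1).rank = 1) :
    ∃ (v : Fin m ⊕ Fin m → F) (a : F), v ≠ 0 ∧ a ≠ 0 ∧ t = spT v a := by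
  obtain ⟨v, φ, hv, hφ, hM⟩ := exists_rankOne_decomp
    (Matrix.toLin' ((t : Matrix (Fin m ⊕ Fin m) (Fin m ⊕ Fin m) F) - 1)) (by
      rw [← ht, Matrix.rank, Matrix.toLin'_apply']; )
  have ht' : ∀ x, t.1 *ᵥ x = x + φ x • v := by
    intro x
    have := hM x
    rw [Matrix.toLin'_apply, Matrix.sub_mulVec, Matrix.one_mulVec] at this
    rw [← this]; abel
  have h1 : ∀ x y, φ y * Cfsg.sympForm m F x v = φ x * Cfsg.sympForm m F y v := by
    intro x y
    have := symp_preserves t x y
    rw [ht', ht'] at this
    simp only [sympForm_add_left, sympForm_add_right, sympForm_smul_left, sympForm_smul_right,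
      sympForm_self] at this
    rw [sympForm_swap v y] at this
    linear_combination this
  obtain ⟨y0, hy0⟩ : ∃ y, φ y ≠ 0 := by
    by_contra hcon
    push Not at hcon
    exact hφ (LinearMap.ext hcon)
  have hc : Cfsg.sympForm m F y0 v ≠ 0 := by
    intro hc
    apply hv
    apply sympB_sepRight v
    intro x
    have := h1 x y0
    rw [hc, mul_zero] at this
    exact (mul_eq_zero.1 this).resolve_left hy0
  refine ⟨v, φ y0 / Cfsg.sympForm m F y0 v, hv, div_ne_zero hy0 hc, ?_⟩
  apply Subtype.ext
  apply ext_mulVec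
  intro x
  change t.1 *ᵥ x = Cfsg.sympTransvection m v _ *ᵥ x
  rw [ht', sympTransvection_mulVec]
  congr 2
  have := h1 x y0
  field_simp
  linear_combination -this

theorem spT_smul_sq (v : Fin m ⊕ Fin m → F) (s a : F) : spT (s • v) a = spT v (s ^ 2 * a) := by
  apply Subtype.ext
  apply ext_mulVec
  intro x
  change Cfsg.sympTransvection m _ _ *ᵥ x = Cfsg.sympTransvection m _ _ *ᵥ x
  rw [sympTransvection_mulVec, sympTransvection_mulVec, sympForm_smul_right, smul_smul]
  congr 2
  ring

theorem spT_eq_iff_of_char_two [CharP F 2] (u v : Fin m ⊕ Fin m → F) (hv : v ≠ 0) :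
    spT u (1 : F) = spT v 1 ↔ u = v := by
  constructor
  · intro h
    have h1 : ∀ x, Cfsg.sympForm m F x u • u = Cfsg.sympForm m F x v • v := by
      intro x
      have := congrArg (fun s : Matrix.symplecticGroup (Fin m) F => s.1 *ᵥ x) h
      change Cfsg.sympTransvection m _ _ *ᵥ x = Cfsg.sympTransvection m _ _ *ᵥ x at this
      rw [sympTransvection_mulVec, sympTransvection_mulVec, one_mul, one_mul] at this
      exact add_left_cancel this
    obtain ⟨x, hx⟩ : ∃ x, Cfsg.sympForm m F x v ≠ 0 := by
      by_contra hcon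
      push Not at hcon
      exact hv (sympB_sepRight v hcon)
    -- `v = l • u`
    have h2 : v = ((Cfsg.sympForm m F x v)⁻¹ * Cfsg.sympForm m F x u) • u := by
      rw [mul_smul, h1 x, smul_smul, inv_mul_cancel₀ hx, one_smul]
    set l := (Cfsg.sympForm m F x v)⁻¹ * Cfsg.sympForm m F x u with hl
    have hu : u ≠ 0 := by
      rintro rfl
      rw [smul_zero] at h2
      exact hv h2
    have h3 := h1 x
    rw [h2, sympForm_smul_right, smul_smul] at h3
    have h4 : Cfsg.sympForm m F x u ≠ 0 := by
      intro h0
      rw [h2, sympForm_smul_right, h0, mul_zero] at hx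
      exact hx rfl
    have h5 : Cfsg.sympForm m F x u = l * Cfsg.sympForm m F x u * l := by
      by_contra hne
      have : (Cfsg.sympForm m F x u - l * Cfsg.sympForm m F x u * l) • u = 0 := by
        rw [sub_smul, h3, sub_self]
      rcases smul_eq_zero.1 this with h | h
      · exact hne (sub_eq_zero.1 h)
      · exact hu h
    have h6 : l * l = 1 := by
      have : Cfsg.sympForm m F x u * (l * l - 1) = 0 := by linear_combination -h5
      have := (mul_eq_zero.1 this).resolve_left h4
      linear_combination this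
    have h7 : (l + 1) * (l + 1) = 0 := by
      have h2' : (2 : F) = 0 := by
        have := CharP.cast_eq_zero F 2
        exact_mod_cast this
      linear_combination h6 + (l + 1) * h2'
    have h8 : l + 1 = 0 := by
      rcases mul_eq_zero.1 h7 with h | h <;> exact h
    have h9 : l = 1 := by
      have h2' : (2 : F) = 0 := by
        have := CharP.cast_eq_zero F 2
        exact_mod_cast this
      linear_combination h8 - h2'
    rw [h2, h9, one_smul]
  · rintro rfl; rfl

/-- the natural action on vectors -/
@[reducible] def spVecAction (F : Type*) [Field F] (m : ℕ) :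
    MulAction (Matrix.symplecticGroup (Fin m) F) (Fin m ⊕ Fin m → F) where
  smul g v := g.1 *ᵥ v
  one_smul v := Matrix.one_mulVec v
  mul_smul g h v := (Matrix.mulVec_mulVec v g.1 h.1).symm

/-- order of a vector stabiliser -/
theorem card_sp_stabilizer_vector [Fintype F] (m : ℕ) (v : Fin (m + 1) ⊕ Fin (m + 1) → F)
    (hv : v ≠ 0) :
    Nat.card {g : Matrix.symplecticGroup (Fin (m + 1)) F // g.1 *ᵥ v = v} =
      Fintype.card F ^ (2 * m + 1) * Nat.card (Matrix.symplecticGroup (Fin m) F) := by
  classical
  letI := spVecAction F (m + 1)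
  have h1 := card_eq_card_mul_of_transitive (G := Matrix.symplecticGroup (Fin (m + 1)) F) v
    (fun x => x ≠ 0) (fun x => by
      constructor
      · intro hx
        exact sp_transitive v x hv hx
      · rintro ⟨g, rfl⟩ h0
        apply hv
        have := symp_inv_mulVec g v
        change g.1 *ᵥ v = 0 at h0
        rw [h0, mulVec_zero] at this
        exact this.symm)
  rw [card_sp_succ] at h1
  have h2 : Nat.card {x : Fin (m + 1) ⊕ Fin (m + 1) → F // x ≠ 0} =
      Fintype.card F ^ (2 * (m + 1)) - 1 := by
    rw [Nat.card_eq_fintype_card, Fintype.card_subtype_compl, Fintype.card_fun]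
    simp [two_mul]
  rw [h2, mul_assoc] at h1
  have hpos : 0 < Fintype.card F ^ (2 * (m + 1)) - 1 := by
    have : 1 < Fintype.card F ^ (2 * (m + 1)) :=
      Nat.one_lt_pow (by omega) Fintype.one_lt_card
    omega
  exact (Nat.eq_of_mul_eq_mul_left hpos h1).symm

end Cfsg.Agent.Lib.Helper14
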