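import Mathlib
import Cfsg.Agent.Lib.Helper14.SLGen

set_option autoImplicit false

namespace Cfsg.Agent.Lib.Helper14

open Matrix Matrix.SpecialLinearGroup

namespace StGen

variable {K : Type*} [Field K] {n : ℕ}

/-- the monomial matrix of the long cycle -/
def Wmat (K : Type*) [Field K] (n : ℕ) : Matrix (Fin (n + 1)) (Fin (n + 1)) K :=
  Matrix.of (fun i j => if j.val = i.val + 1 then 1 else if i.val = n ∧ j.val = 0 then (-1) ^ n else 0)

/-- its non-zero entries -/
def dsgn (K : Type*) [Field K] {n : ℕ} (i : Fin (n + 1)) : K := if i.val = n then (-1) ^ n else 1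

theorem dsgn_ne_zero (i : Fin (n + 1)) : dsgn K i ≠ 0 := by
  unfold dsgn
  split_ifs
  · exact pow_ne_zero _ (neg_ne_zero.2 one_ne_zero)
  · exact one_ne_zero

theorem Wmat_apply (i j : Fin (n + 1)) : Wmat K n i j = if j = i + 1 then dsgn K i else 0 := by
  have hv : (i + 1).val = if i = Fin.last n then 0 else i.val + 1 := Fin.val_add_one i
  have hl : i = Fin.last n ↔ i.val = n := by rw [Fin.ext_iff]; rfl
  simp only [Wmat, Matrix.of_apply, dsgn]
  by_cases hj : j = i + 1
  · rw [if_pos hj]
    have hjv : j.val = (i + 1).val := congrArg Fin.val hj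
    rw [hv] at hjv
    by_cases hi : i.val = n
    · rw [if_pos (hl.2 hi)] at hjv
      rw [if_neg (by omega), if_pos ⟨hi, hjv⟩, if_pos hi]
    · rw [if_neg (fun h => hi (hl.1 h))] at hjv
      rw [if_pos hjv, if_neg hi]
  · rw [if_neg hj]
    have h1 : ¬ j.val = i.val + 1 := by
      intro h
      apply hj
      apply Fin.ext
      rw [hv, if_neg (fun h' => by have := hl.1 h'; have := j.2; omega)]
      exact h
    have h2 : ¬ (i.val = n ∧ j.val = 0) := by
      rintro ⟨h, h'⟩
      apply hj
      apply Fin.ext
      rw [hv, if_pos (hl.2 h)]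
      exact h'
    rw [if_neg h1, if_neg h2]

theorem single_mul_Wmat (a b : Fin (n + 1)) (c c' : K) (h : c * dsgn K b = dsgn K a * c') :
    single a b c * Wmat K n = Wmat K n * single (a + 1) (b + 1) c' := by
  ext i j
  by_cases hi : i = a
  · subst hi
    rw [single_mul_apply_same, Wmat_apply]
    by_cases hj : j = b + 1
    · subst hj
      rw [mul_single_apply_same, Wmat_apply, if_pos rfl, if_pos rfl, h]
    · rw [if_neg hj, mul_zero, mul_single_apply_of_ne _ _ _ _ _ hj]
  · rw [single_mul_apply_of_ne _ _ _ _ _ hi]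
    by_cases hj : j = b + 1
    · subst hj
      rw [mul_single_apply_same, Wmat_apply, if_neg (fun h' => hi (add_right_cancel h').symm), zero_mul]
    · rw [mul_single_apply_of_ne _ _ _ _ _ hj]

theorem conj_transvection (w : SpecialLinearGroup (Fin (n + 1)) K) (hw : w.1 = Wmat K n)
    {a b : Fin (n + 1)} (hab : a ≠ b) (hab' : a + 1 ≠ b + 1) (c c' : K)
    (h : c * dsgn K b = dsgn K a * c') :
    w⁻¹ * transvection hab c * w = transvection hab' c' := by
  rw [mul_assoc, inv_mul_eq_iff_eq_mul]
  apply Subtype.ext
  simp only [coe_mul, transvection_coe, hw]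
  rw [add_mul, mul_add, one_mul, mul_one, single_mul_Wmat a b c c' h]

/-- a subgroup containing the long cycle and one simple root group is everything -/
theorem eq_top_of_root (hn : 1 ≤ n) (H : Subgroup (SpecialLinearGroup (Fin (n + 1)) K))
    (w : SpecialLinearGroup (Fin (n + 1)) K) (hw : w.1 = Wmat K n) (hwH : w ∈ H)
    (h01 : ∀ (h : (0 : Fin (n + 1)) ≠ 1) (c : K), transvection h c ∈ H) : H = ⊤ := by
  have : Nontrivial (Fin (n + 1)) := Fin.nontrivial_iff_two_le.2 (by omega)
  have shift : ∀ a b : Fin (n + 1), (∀ (h : a ≠ b) (c : K), transvection h c ∈ H) →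
      ∀ (h : a + 1 ≠ b + 1) (c : K), transvection h c ∈ H := by
    intro a b hP h c'
    have hab : a ≠ b := fun h' => h (by rw [h'])
    rw [← conj_transvection w hw hab h (dsgn K a * c' * (dsgn K b)⁻¹) c' (by
      rw [mul_assoc, inv_mul_cancel₀ (dsgn_ne_zero b), mul_one])]
    exact H.mul_mem (H.mul_mem (H.inv_mem hwH) (hP hab _)) hwH
  have h10 : (1 : Fin (n + 1)) ≠ 0 := by
    intro h
    have := congrArg Fin.val h
    rw [Fin.val_one', Fin.val_zero, Nat.mod_eq_of_lt (by omega)] at this
    exact one_ne_zero this
  have adj' : ∀ i : Fin (n + 1), ∀ (h : i ≠ i + 1) (c : K), transvection h c ∈ H := by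
    intro i
    induction i using Fin.induction with
    | zero =>
      rw [zero_add]
      exact h01
    | succ i ih =>
      rw [← Fin.coeSucc_eq_succ]
      exact shift _ _ ih
  have hne : ∀ d : Fin (n + 1), d ≠ 0 → ∀ i : Fin (n + 1), i ≠ i + d := by
    intro d hd i h
    apply hd
    have : i + 0 = i + d := by rw [add_zero]; exact h
    exact (add_left_cancel this).symm
  have dist : ∀ d : Fin (n + 1), d ≠ 0 → ∀ i : Fin (n + 1),
      ∀ (h : i ≠ i + d) (c : K), transvection h c ∈ H := by
    intro d
    induction d using Fin.induction with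
    | zero => intro h; exact absurd rfl h
    | succ e ih =>
      intro _ i
      rw [← Fin.coeSucc_eq_succ]
      by_cases he : e.castSucc = 0
      · rw [he, zero_add]
        exact adj' i
      · intro h c
        have hik := hne _ he i
        have hkj : i + e.castSucc ≠ i + (e.castSucc + 1) := by
          rw [← add_assoc]
          exact hne 1 h10 _
        have e1 := commutator_transvection h hik hkj c 1
        rw [mul_one] at e1
        rw [← e1, commutatorElement_def]
        have m1 := ih he i hik c
        have m2 : transvection hkj (1 : K) ∈ H := by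
          have := adj' (i + e.castSucc)
          rw [add_assoc] at this
          exact this hkj 1
        exact H.mul_mem (H.mul_mem (H.mul_mem m1 m2) (H.inv_mem m1)) (H.inv_mem m2)
  rw [eq_top_iff, ← SL_closure_transvection, Subgroup.closure_le]
  rintro t ⟨i, j, h, c, rfl⟩
  have hd : j - i ≠ 0 := sub_ne_zero.2 h.symm
  have := dist (j - i) hd i
  rw [add_sub_cancel] at this
  exact this h c

theorem eq_zero_or_one_or_neg_one [Fintype K] (hK : Fintype.card K ≤ 3) (c : K) :
    c = 0 ∨ c = 1 ∨ c = -1 := by
  by_cases hc : c = 0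
  · exact Or.inl hc
  · right
    have h1 := FiniteField.pow_card_sub_one_eq_one c hc
    have h2 : 1 < Fintype.card K := Fintype.one_lt_card
    have h3 : Fintype.card K = 2 ∨ Fintype.card K = 3 := by omega
    rcases h3 with h3 | h3
    · rw [h3] at h1
      left
      simpa using h1
    · rw [h3] at h1
      apply mul_self_eq_one_iff.1
      rw [← h1]
      ring

/-- generation of `SL_{n+1}` over the fields with two or three elements -/
theorem closure_small_field [Fintype K] (hK : Fintype.card K ≤ 3) (hn : 1 ≤ n)
    (x w : SpecialLinearGroup (Fin (n + 1)) K)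
    (hx : x.1 = Matrix.transvection (0 : Fin (n + 1)) (1 : Fin (n + 1)) 1) (hw : w.1 = Wmat K n) :
    Subgroup.closure ({x, w} : Set (SpecialLinearGroup (Fin (n + 1)) K)) = ⊤ := by
  apply eq_top_of_root hn _ w hw (Subgroup.subset_closure (by simp))
  intro h c
  have hx' : x = transvection h 1 := Subtype.ext hx
  have hxm : x ∈ Subgroup.closure ({x, w} : Set (SpecialLinearGroup (Fin (n + 1)) K)) :=
    Subgroup.subset_closure (by simp)
  rcases eq_zero_or_one_or_neg_one hK c with rfl | rfl | rfl
  · rw [transvection_coeff_zero]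
    exact Subgroup.one_mem _
  · rw [← hx']; exact hxm
  · rw [← transvection_inv, ← hx']
    exact Subgroup.inv_mem _ hxm

end StGen

end Cfsg.Agent.Lib.Helper14
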