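import Mathlib
import Cfsg.Agent.Lib.Helper14.SteinbergGen

set_option autoImplicit false

namespace Cfsg.Agent.Lib.Helper14

open Matrix Matrix.SpecialLinearGroup

namespace StGen

variable {K : Type*} [Field K] {n : ℕ}

/-- diagonal elements of `SL` -/
def dg (δ : Fin (n + 1) → K) (hδ : ∏ i, δ i = 1) : SpecialLinearGroup (Fin (n + 1)) K :=
  ⟨diagonal δ, by rw [det_diagonal]; exact hδ⟩

theorem dg_coe (δ : Fin (n + 1) → K) (hδ : ∏ i, δ i = 1) :
    ((dg δ hδ : SpecialLinearGroup (Fin (n + 1)) K) : Matrix (Fin (n + 1)) (Fin (n + 1)) K) = diagonal δ := rfl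

theorem prod_shift (δ : Fin (n + 1) → K) : ∏ i, δ (i + 1) = ∏ i, δ i :=
  Equiv.prod_comp (Equiv.addRight (1 : Fin (n + 1))) δ

theorem w_mul_dg (w : SpecialLinearGroup (Fin (n + 1)) K) (hw : w.1 = Wmat K n)
    (δ : Fin (n + 1) → K) (hδ : ∏ i, δ i = 1) :
    w * dg δ hδ = dg (fun i => δ (i + 1)) ((prod_shift δ).trans hδ) * w := by
  apply Subtype.ext
  simp only [coe_mul, dg_coe, hw]
  ext i j
  rw [mul_diagonal, diagonal_mul, Wmat_apply]
  by_cases h : j = i + 1
  · subst h; rw [if_pos rfl]; ring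
  · rw [if_neg h]; ring

theorem dg_mul_transvection (δ : Fin (n + 1) → K) (hδ : ∏ i, δ i = 1) {a b : Fin (n + 1)} (hab : a ≠ b)
    (c c' : K) (h : δ a * c = c' * δ b) :
    dg δ hδ * transvection hab c = transvection hab c' * dg δ hδ := by
  apply Subtype.ext
  simp only [coe_mul, dg_coe, transvection_coe]
  rw [mul_add, add_mul, mul_one, one_mul]
  congr 1
  ext i j
  rw [diagonal_mul, mul_diagonal, single_apply, single_apply]
  by_cases hij : a = i ∧ b = j
  · obtain ⟨rfl, rfl⟩ := hij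
    simp [h]
  · rw [if_neg hij, if_neg hij]; ring

theorem dg_comm (δ δ' : Fin (n + 1) → K) (hδ : ∏ i, δ i = 1) (hδ' : ∏ i, δ' i = 1) :
    dg δ hδ * dg δ' hδ' = dg δ' hδ' * dg δ hδ := by
  apply Subtype.ext
  simp only [coe_mul, dg_coe, diagonal_mul_diagonal]
  congr 1
  ext i
  ring

/-- an additive subgroup stable under multiplication by `k^{±2}`, `k` a generator, is an ideal -/
theorem mul_mem_of_sq_stable [Finite K] (A : AddSubgroup K) (k : Kˣ) (hk : ∀ u : Kˣ, u ∈ Subgroup.zpowers k)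
    (h1 : ∀ a ∈ A, (k : K) ^ 2 * a ∈ A) (h2 : ∀ a ∈ A, ((k⁻¹ : Kˣ) : K) ^ 2 * a ∈ A) (x a : K) (ha : a ∈ A) :
    x * a ∈ A := by
  have hpow : ∀ j : ℕ, ∀ a ∈ A, ((k ^ j : Kˣ) : K) ^ 2 * a ∈ A ∧ (((k⁻¹) ^ j : Kˣ) : K) ^ 2 * a ∈ A := by
    intro j
    induction j with
    | zero => intro a ha; simpa using ha
    | succ j ih =>
      intro a ha
      constructor
      · have := h1 _ (ih a ha).1
        rw [pow_succ k j, Units.val_mul]
        convert this using 1
        ring
      · have := h2 _ (ih a ha).2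
        rw [pow_succ k⁻¹ j, Units.val_mul]
        convert this using 1
        ring
  have hsq : ∀ s : K, ∀ a ∈ A, s ^ 2 * a ∈ A := by
    intro s a ha
    by_cases hs : s = 0
    · subst hs; simp [A.zero_mem]
    · obtain ⟨j, hj⟩ := hk (Units.mk0 s hs)
      have hs' : s = ((k ^ j : Kˣ) : K) := by simp only at hj; rw [hj]; rfl
      rw [hs']
      rcases Int.eq_nat_or_neg j with ⟨m, rfl | rfl⟩
      · rw [zpow_natCast]; exact (hpow m a ha).1
      · rw [_root_.zpow_neg, zpow_natCast, ← inv_pow]; exact (hpow m a ha).2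
  by_cases h2' : (2 : K) = 0
  · have : CharP K 2 := CharTwo.of_one_ne_zero_of_two_eq_zero one_ne_zero h2'
    obtain ⟨s, hs⟩ := FiniteField.isSquare_of_char_two (F := K) (CharP.ringChar_of_prime_eq_zero Nat.prime_two (by exact_mod_cast h2')) x
    rw [hs, ← pow_two]
    exact hsq s a ha
  · have e : x * a = ((x + 1) / 2) ^ 2 * a - ((x - 1) / 2) ^ 2 * a := by
      field_simp
      ring
    rw [e]
    exact A.sub_mem (hsq _ a ha) (hsq _ a ha)

/-- Steinberg's generators of `SL_{n+1}(K)`, `|K| > 3` -/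
theorem closure_large_field [Fintype K] (hK : 3 < Fintype.card K) (hn : 1 ≤ n) (k : Kˣ)
    (hk : ∀ u : Kˣ, u ∈ Subgroup.zpowers k) (h x w : SpecialLinearGroup (Fin (n + 1)) K)
    (hh : h.1 = diagonal (fun i : Fin (n + 1) =>
      if i.val = 0 then (k : K) else if i.val = 1 then ((k⁻¹ : Kˣ) : K) else 1))
    (hx : x.1 = Matrix.transvection (0 : Fin (n + 1)) (1 : Fin (n + 1)) 1) (hw : w.1 = Wmat K n) :
    Subgroup.closure ({h, x * w} : Set (SpecialLinearGroup (Fin (n + 1)) K)) = ⊤ := by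
  classical
  obtain ⟨δ, hδdef⟩ : ∃ δ : Fin (n + 1) → K, δ = fun i : Fin (n + 1) =>
      if i.val = 0 then (k : K) else if i.val = 1 then ((k⁻¹ : Kˣ) : K) else 1 := ⟨_, rfl⟩
  rw [← hδdef] at hh
  have hδ : ∏ i, δ i = 1 := by
    have := h.2
    rwa [hh, det_diagonal] at this
  have hh' : h = dg δ hδ := Subtype.ext hh
  have hv1 : (1 : Fin (n + 1)).val = 1 := by rw [Fin.val_one', Nat.mod_eq_of_lt (by omega)]
  have h01 : (0 : Fin (n + 1)) ≠ 1 := by
    intro h'
    have := congrArg Fin.val h'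
    rw [hv1, Fin.val_zero] at this
    exact zero_ne_one this
  have hx' : x = transvection h01 1 := Subtype.ext hx
  have δ0 : δ 0 = k := by rw [hδdef]; simp
  have δ1 : δ 1 = ((k⁻¹ : Kˣ) : K) := by
    rw [hδdef]
    show (if (1 : Fin (n + 1)).val = 0 then (k : K) else if (1 : Fin (n + 1)).val = 1 then
      ((k⁻¹ : Kˣ) : K) else 1) = _
    rw [hv1, if_neg one_ne_zero, if_pos rfl]
  have δ2 : δ (1 + 1) = k ∨ δ (1 + 1) = 1 := by
    have hv2 : (1 + 1 : Fin (n + 1)).val = 2 % (n + 1) := by rw [Fin.val_add, hv1]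
    rcases Nat.lt_or_ge 1 n with h2 | h2
    · right
      rw [Nat.mod_eq_of_lt (by omega)] at hv2
      rw [hδdef]; simp [hv2]
    · left
      have : n = 1 := by omega
      subst this
      rw [hδdef]; simp [hv2]
  have hk0 : (k : K) ≠ 0 := k.ne_zero
  have hord : orderOf k = Fintype.card K - 1 := by
    rw [orderOf_eq_card_of_forall_mem_zpowers hk, Nat.card_eq_fintype_card, Fintype.card_units]
  have hk2 : (k : K) ^ 2 ≠ 1 := by
    intro h2
    have : k ^ 2 = 1 := Units.ext (by rw [Units.val_pow_eq_pow_val, h2]; rfl)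
    have := Nat.le_of_dvd (by norm_num) (orderOf_dvd_of_pow_eq_one this)
    omega
  have hk1 : (k : K) ≠ 1 := fun h1 => hk2 (by rw [h1, one_pow])
  have hkinv : ((k⁻¹ : Kˣ) : K) = (k : K)⁻¹ := Units.val_inv_eq_inv_val k
  set H := Subgroup.closure ({h, x * w} : Set (SpecialLinearGroup (Fin (n + 1)) K)) with hH
  have hhH : h ∈ H := Subgroup.subset_closure (by simp)
  have hgH : x * w ∈ H := Subgroup.subset_closure (by simp)
  -- the shifted diagonal element
  set d' := dg (fun i => δ (i + 1)) ((prod_shift δ).trans hδ) with hd'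
  have hwh : w * h = d' * w := by rw [hh']; exact w_mul_dg w hw δ hδ
  have e0 : δ (0 + 1) = (k : K)⁻¹ := by rw [zero_add, δ1, hkinv]
  have hd2 : δ (1 + 1) ≠ 0 := by rcases δ2 with h2 | h2 <;> rw [h2] <;> simp
  have hy : (x * w) * h * (x * w)⁻¹ = d' * transvection h01 ((k : K) * δ (1 + 1) - 1) := by
    have h1 : (x * w) * h * (x * w)⁻¹ = x * d' * x⁻¹ := by
      rw [mul_assoc x w h, hwh]; group
    have h2 : d' * transvection h01 ((k : K) * δ (1 + 1)) = transvection h01 1 * d' :=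
      dg_mul_transvection _ _ h01 _ _ (by
        show δ (0 + 1) * _ = 1 * δ (1 + 1)
        rw [e0]; field_simp)
    rw [h1, hx', ← h2, transvection_inv, mul_assoc, ← transvection_add, sub_eq_add_neg]
  have hconj : ∀ c : K, h * transvection h01 c = transvection h01 ((k : K) ^ 2 * c) * h := by
    intro c
    rw [hh']
    exact dg_mul_transvection _ _ h01 _ _ (by rw [δ0, δ1, hkinv]; field_simp)
  obtain ⟨μ, hμ⟩ : ∃ μ : K, μ = (k : K) * δ (1 + 1) - 1 := ⟨_, rfl⟩
  have hμ0 : μ ≠ 0 := by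
    rw [hμ]
    rcases δ2 with h2 | h2
    · rw [h2, ← pow_two]; exact sub_ne_zero.2 hk2
    · rw [h2, mul_one]; exact sub_ne_zero.2 hk1
  rw [← hμ] at hy
  obtain ⟨c₀, hc₀⟩ : ∃ c₀ : K, c₀ = (k : K)⁻¹ * ((k : K) ^ 2 * μ - μ) * (δ (1 + 1))⁻¹ := ⟨_, rfl⟩
  have hc₀0 : c₀ ≠ 0 := by
    rw [hc₀]
    refine mul_ne_zero (mul_ne_zero (inv_ne_zero hk0) ?_) (inv_ne_zero hd2)
    have : (k : K) ^ 2 * μ - μ = ((k : K) ^ 2 - 1) * μ := by ring
    rw [this]
    exact mul_ne_zero (sub_ne_zero.2 hk2) hμ0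
  have hz : transvection h01 c₀ ∈ H := by
    have hyH : d' * transvection h01 μ ∈ H := by
      rw [← hy]; exact H.mul_mem (H.mul_mem hgH hhH) (H.inv_mem hgH)
    have hcomm : h * d' = d' * h := by rw [hh']; exact dg_comm _ _ _ _
    have h3 : d' * transvection h01 ((k : K) ^ 2 * μ - μ) = transvection h01 c₀ * d' :=
      dg_mul_transvection _ _ h01 _ _ (by
        show δ (0 + 1) * _ = c₀ * δ (1 + 1)
        rw [e0, hc₀]; field_simp)
    have h4 : h * (d' * transvection h01 μ) * h⁻¹ * (d' * transvection h01 μ)⁻¹ = transvection h01 c₀ := by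
      rw [← mul_assoc h, hcomm, mul_assoc d' h, hconj, _root_.mul_inv_rev, transvection_inv]
      have : d' * (transvection h01 ((k : K) ^ 2 * μ) * h) * h⁻¹ * (transvection h01 (-μ) * d'⁻¹) =
          d' * (transvection h01 ((k : K) ^ 2 * μ) * transvection h01 (-μ)) * d'⁻¹ := by group
      rw [this, ← transvection_add, ← sub_eq_add_neg, h3]
      group
    rw [← h4]
    exact H.mul_mem (H.mul_mem (H.mul_mem hhH hyH) (H.inv_mem hhH)) (H.inv_mem hyH)
  let A : AddSubgroup K :=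
    { carrier := {a | transvection h01 a ∈ H}
      add_mem' := fun {a b} ha hb => by
        show transvection h01 (a + b) ∈ H
        rw [transvection_add]; exact H.mul_mem ha hb
      zero_mem' := by
        show transvection h01 (0 : K) ∈ H
        rw [transvection_coeff_zero]; exact H.one_mem
      neg_mem' := fun {a} ha => by
        show transvection h01 (-a) ∈ H
        rw [← transvection_inv]; exact H.inv_mem ha }
  have hA1 : ∀ a ∈ A, (k : K) ^ 2 * a ∈ A := by
    intro a ha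
    show transvection h01 ((k : K) ^ 2 * a) ∈ H
    have : transvection h01 ((k : K) ^ 2 * a) = h * transvection h01 a * h⁻¹ := by
      rw [hconj]; group
    rw [this]
    exact H.mul_mem (H.mul_mem hhH ha) (H.inv_mem hhH)
  have hA2 : ∀ a ∈ A, ((k⁻¹ : Kˣ) : K) ^ 2 * a ∈ A := by
    intro a ha
    show transvection h01 (((k⁻¹ : Kˣ) : K) ^ 2 * a) ∈ H
    have h5 := hconj (((k⁻¹ : Kˣ) : K) ^ 2 * a)
    have h6 : (k : K) ^ 2 * (((k⁻¹ : Kˣ) : K) ^ 2 * a) = a := by rw [hkinv]; field_simp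
    rw [h6] at h5
    have : transvection h01 (((k⁻¹ : Kˣ) : K) ^ 2 * a) = h⁻¹ * transvection h01 a * h := by
      rw [mul_assoc, ← h5]; group
    rw [this]
    exact H.mul_mem (H.mul_mem (H.inv_mem hhH) ha) hhH
  have hall : ∀ c : K, transvection h01 c ∈ H := by
    intro c
    have := mul_mem_of_sq_stable A k hk hA1 hA2 (c * c₀⁻¹) c₀ hz
    rw [mul_assoc, inv_mul_cancel₀ hc₀0, mul_one] at this
    exact this
  have hxH : x ∈ H := by rw [hx']; exact hall 1
  have hwH : w ∈ H := by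
    have : w = x⁻¹ * (x * w) := by group
    rw [this]
    exact H.mul_mem (H.inv_mem hxH) hgH
  exact eq_top_of_root hn H w hw hwH (fun _ c => hall c)

end StGen

end Cfsg.Agent.Lib.Helper14
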