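import Mathlib
import Cfsg.Agent.Lib.Helper14.SubField
import Cfsg.Agent.Lib.Helper14.Orders
import Cfsg.Agent.Lib.Helper13.SL2
import Cfsg.Agent.Lib.Helper2.PSL2Small

set_option autoImplicit false

namespace Cfsg.Agent.Lib.Helper14.SubPSL

open Matrix

variable {F K : Type*} [Field F] [Field K]

/-! ### `PSL₂(K) ↪ PSL₂(F)` -/

noncomputable def phi (ι : K →+* F) :
    SpecialLinearGroup (Fin 2) K →* ProjectiveSpecialLinearGroup (Fin 2) F :=
  (QuotientGroup.mk' (Subgroup.center (SpecialLinearGroup (Fin 2) F))).comp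
    (SpecialLinearGroup.map ι)

theorem ker_phi (ι : K →+* F) : (phi ι).ker = Subgroup.center (SpecialLinearGroup (Fin 2) K) := by
  ext x
  rw [MonoidHom.mem_ker, phi, MonoidHom.comp_apply, ← MonoidHom.mem_ker, QuotientGroup.ker_mk',
    Matrix.SpecialLinearGroup.mem_center_iff, Matrix.SpecialLinearGroup.mem_center_iff]
  constructor
  · rintro ⟨s, hs, h⟩
    have h00 : s = ι (x.1 0 0) := by simpa using congrFun (congrFun h 0) 0
    have h01 : 0 = ι (x.1 0 1) := by simpa using congrFun (congrFun h 0) 1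
    have h10 : 0 = ι (x.1 1 0) := by simpa using congrFun (congrFun h 1) 0
    have h11 : s = ι (x.1 1 1) := by simpa using congrFun (congrFun h 1) 1
    have e01 : x.1 0 1 = 0 := ι.injective (by rw [← h01, map_zero])
    have e10 : x.1 1 0 = 0 := ι.injective (by rw [← h10, map_zero])
    have e11 : x.1 1 1 = x.1 0 0 := ι.injective (by rw [← h11, h00])
    refine ⟨x.1 0 0, ?_, ?_⟩
    · apply ι.injective
      rw [map_pow, ← h00, hs, map_one]
    · ext i j
      fin_cases i <;> fin_cases j <;> simp [e01, e10, e11]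
  · rintro ⟨r, hr, h⟩
    refine ⟨ι r, by rw [← map_pow, hr, map_one], ?_⟩
    ext i j
    have := congrFun (congrFun h i) j
    simp only [SpecialLinearGroup.map_apply_coe, RingHom.mapMatrix_apply, Matrix.map_apply]
    rw [← this]
    fin_cases i <;> fin_cases j <;> simp

theorem exists_PSL (ι : K →+* F) :
    ∃ H : Subgroup (ProjectiveSpecialLinearGroup (Fin 2) F),
      Nonempty (H ≃* ProjectiveSpecialLinearGroup (Fin 2) K) :=
  ⟨(phi ι).range, ⟨((QuotientGroup.quotientMulEquivOfEq (ker_phi ι)).symm.trans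
    (QuotientGroup.quotientKerEquivRange (phi ι))).symm⟩⟩

/-! ### `PGL₂(K) ↪ PSL₂(F)` when the elements of `K` are squares in `F` -/

noncomputable def psi (ι : K →+* F) : GL (Fin 2) K →* ProjGenLinGroup (Fin 2) F :=
  ProjGenLinGroup.mk.comp (GeneralLinearGroup.map ι)

theorem ker_psi (ι : K →+* F) : (psi ι).ker = Subgroup.center (GL (Fin 2) K) := by
  ext x
  rw [MonoidHom.mem_ker, psi, MonoidHom.comp_apply, ProjGenLinGroup.mk_eq_one,
    Matrix.GeneralLinearGroup.center_eq_range_scalar,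
    Matrix.GeneralLinearGroup.center_eq_range_scalar, MonoidHom.mem_range, MonoidHom.mem_range]
  constructor
  · rintro ⟨u, h⟩
    have h' : ∀ i j, ((GeneralLinearGroup.scalar (Fin 2) u : GL (Fin 2) F) :
        Matrix (Fin 2) (Fin 2) F) i j = ι (x.1 i j) := by
      intro i j
      rw [h]; rfl
    have h00 : (u : F) = ι (x.1 0 0) := by simpa using h' 0 0
    have h01 : 0 = ι (x.1 0 1) := by simpa using h' 0 1
    have h10 : 0 = ι (x.1 1 0) := by simpa using h' 1 0
    have h11 : (u : F) = ι (x.1 1 1) := by simpa using h' 1 1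
    have e01 : x.1 0 1 = 0 := ι.injective (by rw [← h01, map_zero])
    have e10 : x.1 1 0 = 0 := ι.injective (by rw [← h10, map_zero])
    have e11 : x.1 1 1 = x.1 0 0 := ι.injective (by rw [← h11, h00])
    have hne : x.1 0 0 ≠ 0 := by
      intro h0
      rw [h0, map_zero] at h00
      exact u.ne_zero h00
    refine ⟨Units.mk0 _ hne, ?_⟩
    apply Units.ext
    ext i j
    fin_cases i <;> fin_cases j <;> simp [e01, e10, e11]
  · rintro ⟨u, rfl⟩
    refine ⟨Units.map ι.toMonoidHom u, ?_⟩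
    apply Units.ext
    ext i j
    change _ = ι (((GeneralLinearGroup.scalar (Fin 2) u : GL (Fin 2) K) :
        Matrix (Fin 2) (Fin 2) K) i j)
    fin_cases i <;> fin_cases j <;> simp

theorem range_psi_le (ι : K →+* F) (hsq : ∀ a : K, a ≠ 0 → IsSquare (ι a)) :
    (psi ι).range ≤ (ProjectiveSpecialLinearGroup.toPGL (n := Fin 2) (R := F)).range := by
  rintro _ ⟨g, rfl⟩
  have hd : g.1.det ≠ 0 := by
    have := g.isUnit.map (Matrix.detMonoidHom (n := Fin 2) (R := K))
    exact this.ne_zero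
  obtain ⟨l, hl⟩ := hsq (g.1.det)⁻¹ (inv_ne_zero hd)
  have hl0 : l ≠ 0 := by
    rintro rfl
    rw [mul_zero, map_inv₀, inv_eq_zero] at hl
    exact hd (ι.injective (by rw [hl, map_zero]))
  have hdet : (l • ι.mapMatrix g.1).det = 1 := by
    rw [Matrix.det_smul, ← RingHom.map_det, Fintype.card_fin, pow_two, ← hl, ← map_mul,
      inv_mul_cancel₀ hd, map_one]
  let X : Matrix.SpecialLinearGroup (Fin 2) F := ⟨l • ι.mapMatrix g.1, hdet⟩
  refine ⟨QuotientGroup.mk X, ?_⟩
  rw [ProjectiveSpecialLinearGroup.toPGL_mk, psi, MonoidHom.comp_apply,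
    ProjGenLinGroup.mk_eq_mk_iff]
  refine ⟨(Units.mk0 l hl0)⁻¹, Units.ext ?_⟩
  ext i j
  simp only [Units.val_mul, SpecialLinearGroup.coe_GL_coe_matrix, GeneralLinearGroup.coe_scalar]
  have hX : ∀ a b, X.1 a b = l * ι (g.1 a b) := fun a b => rfl
  have hR : ((GeneralLinearGroup.map ι) g).1 i j = ι (g.1 i j) := rfl
  rw [hR]
  fin_cases i <;> fin_cases j <;>
    simp [Matrix.mul_apply, Fin.sum_univ_two, hX, hl0, mul_comm, mul_assoc]

theorem exists_PGL (ι : K →+* F) (hsq : ∀ a : K, a ≠ 0 → IsSquare (ι a)) :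
    ∃ H : Subgroup (ProjectiveSpecialLinearGroup (Fin 2) F),
      Nonempty (H ≃* ProjGenLinGroup (Fin 2) K) := by
  refine ⟨(psi ι).range.comap ProjectiveSpecialLinearGroup.toPGL, ⟨?_⟩⟩
  have e1 := Subgroup.equivMapOfInjective
    ((psi ι).range.comap (ProjectiveSpecialLinearGroup.toPGL (n := Fin 2) (R := F)))
    ProjectiveSpecialLinearGroup.toPGL ProjectiveSpecialLinearGroup.toPGL_injective
  have e2 := MulEquiv.subgroupCongr (Subgroup.map_comap_eq_self (range_psi_le ι hsq))
  have e3 := (QuotientGroup.quotientMulEquivOfEq (ker_psi ι)).symm.trans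
    (QuotientGroup.quotientKerEquivRange (psi ι))
  exact (e1.trans e2).trans e3.symm

/-! ### arithmetic -/

theorem isSquare_of_even [Fintype F] [Fintype K] (ι : K →+* F) (hodd : Odd (Fintype.card F)) (k : ℕ)
    (hK : Fintype.card K ^ (2 * k) = Fintype.card F) (a : K) (ha : a ≠ 0) : IsSquare (ι a) := by
  have hchar : ringChar F ≠ 2 := by
    intro h
    have := FiniteField.even_card_of_char_two h
    rw [Nat.odd_iff] at hodd
    omega
  have hk0 : 2 * k ≠ 0 := by
    intro h
    rw [h, pow_zero] at hK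
    have := Fintype.one_lt_card (α := F)
    omega
  have hrodd : Odd (Fintype.card K) := by
    rw [← hK] at hodd
    exact (Nat.odd_pow_iff hk0).1 hodd
  obtain ⟨s, hs⟩ := hrodd
  have hιa : ι a ≠ 0 := by
    intro h
    exact ha (ι.injective (by rw [h, map_zero]))
  rw [FiniteField.isSquare_iff hchar hιa, ← map_pow]
  have h1 := geom_sum_mul_add (4 * s ^ 2 + 4 * s) k
  have h2 : Fintype.card F = (4 * s ^ 2 + 4 * s + 1) ^ k := by
    rw [← hK, pow_mul, hs]
    congr 1
    ring
  have h3 : Fintype.card F / 2 =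
      (Fintype.card K - 1) * ((s + 1) * ∑ i ∈ Finset.range k, (4 * s ^ 2 + 4 * s + 1) ^ i) := by
    rw [h2, ← h1, hs]
    simp only [Nat.add_sub_cancel]
    set S := ∑ i ∈ Finset.range k, (4 * s ^ 2 + 4 * s + 1) ^ i
    have : S * (4 * s ^ 2 + 4 * s) + 1 = 2 * (2 * s * ((s + 1) * S)) + 1 := by ring
    rw [this]
    omega
  rw [h3, pow_mul, FiniteField.pow_card_sub_one_eq_one a ha, one_pow, map_one]

theorem odd_geom_sum (y m : ℕ) (hy : Odd y) (hm : Odd m) : Odd (∑ i ∈ Finset.range m, y ^ i) := by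
  rw [Finset.odd_sum_iff_odd_card_odd]
  have : (Finset.range m).filter (fun i => Odd (y ^ i)) = Finset.range m := by
    apply Finset.filter_true_of_mem
    intro i _
    exact hy.pow
  rw [this, Finset.card_range]
  exact hm

theorem not_exists_PGL [Fintype F] [Fintype K] (hodd : Odd (Fintype.card F)) (m : ℕ) (hm : Odd m)
    (hK : Fintype.card K ^ m = Fintype.card F)
    (H : Subgroup (ProjectiveSpecialLinearGroup (Fin 2) F))
    (e : H ≃* ProjGenLinGroup (Fin 2) K) : False := by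
  have hm0 : m ≠ 0 := by
    rintro rfl
    exact absurd hm (by decide)
  have hrodd : Odd (Fintype.card K) := by
    rw [← hK] at hodd
    exact (Nat.odd_pow_iff hm0).1 hodd
  have hr1 : 1 < Fintype.card K := Fintype.one_lt_card
  obtain ⟨s, hs⟩ := hrodd
  have hs1 : 1 ≤ s := by omega
  obtain ⟨u, hu⟩ := hodd
  have hq1 : 1 < Fintype.card F := Fintype.one_lt_card
  have hu1 : 1 ≤ u := by omega
  have hH : Nat.card H = Fintype.card K * (Fintype.card K ^ 2 - 1) := by
    rw [Nat.card_congr e.toEquiv, card_PGL_eq_card_SL, Cfsg.Agent.Lib.Helper13.card_SL2]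
  obtain ⟨t, ht⟩ := Subgroup.card_subgroup_dvd_card H
  have hP := Cfsg.Agent.Lib.Helper2.card_PSL2_mul (F := F)
  have h1 := geom_sum_mul_add (4 * s ^ 2 + 4 * s) m
  have hS := odd_geom_sum (4 * s ^ 2 + 4 * s + 1) m ⟨2 * s ^ 2 + 2 * s, by ring⟩ hm
  set S := ∑ i ∈ Finset.range m, (4 * s ^ 2 + 4 * s + 1) ^ i
  have hq2 : Fintype.card F ^ 2 = S * (4 * s ^ 2 + 4 * s) + 1 := by
    rw [h1, ← hK, ← pow_mul, mul_comm m 2, pow_mul, hs]
    congr 1
    ring
  have hr2 : Fintype.card K ^ 2 - 1 = 4 * s ^ 2 + 4 * s := by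
    rw [hs]
    have : (2 * s + 1) ^ 2 = 4 * s ^ 2 + 4 * s + 1 := by ring
    rw [this, Nat.add_sub_cancel]
  have hg : Nat.gcd 2 (Fintype.card F - 1) = 2 := by
    rw [hu, Nat.add_sub_cancel]
    exact Nat.gcd_eq_left (dvd_mul_right 2 u)
  have hqq : Fintype.card F ^ 2 - Fintype.card F = Fintype.card F * (2 * u) := by
    have : Fintype.card F ^ 2 = Fintype.card F * (2 * u) + Fintype.card F := by
      rw [hu]; ring
    rw [this, Nat.add_sub_cancel]
  rw [hg, hqq, hq2, Nat.add_sub_cancel, ht, hH, hr2] at hP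
  have hq1' : Fintype.card F - 1 = 2 * u := by rw [hu, Nat.add_sub_cancel]
  rw [hq1'] at hP
  -- cancel
  have hx : 0 < (2 * u) * (4 * s ^ 2 + 4 * s) := by positivity
  have hfin : 2 * (Fintype.card K * t) = S * Fintype.card F := by
    apply Nat.eq_of_mul_eq_mul_left hx
    linear_combination hP
  have hodd2 : Odd (S * Fintype.card F) := hS.mul ⟨u, hu⟩
  rw [← hfin] at hodd2
  exact (Nat.not_odd_iff_even.2 (even_two_mul _)) hodd2

end Cfsg.Agent.Lib.Helper14.SubPSL
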