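import Mathlib

set_option autoImplicit false

namespace Cfsg.Agent.Lib.Helper14.SumSq

open Module

variable {F : Type*} [Field F]

/-- existence of a totally singular subspace of dimension `k` for the sum of squares on `ι → F` -/
def TS (F : Type*) [Field F] (ι : Type*) [Fintype ι] (k : ℕ) : Prop :=
  ∃ W : Submodule F (ι → F), finrank F W = k ∧ ∀ w ∈ W, ∑ i, w i ^ 2 = 0

theorem TS.congr {ι ι' : Type*} [Fintype ι] [Fintype ι'] (e : ι ≃ ι') {k : ℕ} (h : TS F ι k) : TS F ι' k := by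
  obtain ⟨W, hW1, hW2⟩ := h
  refine ⟨W.map ((LinearEquiv.funCongrLeft F F e.symm : (ι → F) ≃ₗ[F] (ι' → F)) : (ι → F) →ₗ[F] (ι' → F)), ?_, ?_⟩
  · rw [LinearEquiv.finrank_map_eq, hW1]
  · rintro _ ⟨w, hw, rfl⟩
    rw [← hW2 w hw]
    exact Equiv.sum_comp e.symm (fun i => w i ^ 2)

theorem TS.of_graph {κ : Type*} [Fintype κ] (T : (κ → F) →ₗ[F] (κ → F))
    (hT : ∀ x, ∑ p, T x p ^ 2 = - ∑ p, x p ^ 2) : TS F (κ ⊕ κ) (Fintype.card κ) := by
  let φ : (κ → F) →ₗ[F] (κ ⊕ κ → F) :=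
    { toFun := fun x => Sum.elim x (T x)
      map_add' := by
        intro x y; ext (i | i) <;> simp
      map_smul' := by
        intro c x; ext (i | i) <;> simp }
  have hφ : Function.Injective φ := by
    intro x y h
    ext i
    exact congrFun h (Sum.inl i)
  refine ⟨LinearMap.range φ, ?_, ?_⟩
  · rw [LinearMap.finrank_range_of_inj hφ, Module.finrank_fintype_fun_eq_card]
  · rintro _ ⟨x, rfl⟩
    rw [Fintype.sum_sum_type]
    show ∑ p, x p ^ 2 + ∑ p, T x p ^ 2 = 0
    rw [hT, add_neg_cancel]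

theorem TS.of_sq (m : ℕ) (i : F) (hi : i * i = -1) : TS F (Fin m ⊕ Fin m) m := by
  have := TS.of_graph (κ := Fin m) (i • LinearMap.id : (Fin m → F) →ₗ[F] (Fin m → F)) (by
    intro x
    simp only [LinearMap.smul_apply, LinearMap.id_apply, Pi.smul_apply, smul_eq_mul, mul_pow]
    rw [← Finset.mul_sum, sq, hi, neg_one_mul])
  simpa using this

theorem TS.of_sum_sq (l : ℕ) (a b : F) (hab : a ^ 2 + b ^ 2 = -1) :
    TS F ((Fin 2 × Fin l) ⊕ (Fin 2 × Fin l)) (2 * l) := by
  let T : (Fin 2 × Fin l → F) →ₗ[F] (Fin 2 × Fin l → F) :=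
    { toFun := fun x p => if p.1 = 0 then a * x (0, p.2) - b * x (1, p.2) else b * x (0, p.2) + a * x (1, p.2)
      map_add' := by
        intro x y; ext p
        by_cases hp : p.1 = 0 <;> simp [hp] <;> ring
      map_smul' := by
        intro c x; ext p
        by_cases hp : p.1 = 0 <;> simp [hp] <;> ring }
  have := TS.of_graph T (by
    intro x
    rw [Fintype.sum_prod_type, Fintype.sum_prod_type, Fin.sum_univ_two, Fin.sum_univ_two,
      ← Finset.sum_add_distrib, ← Finset.sum_add_distrib, ← Finset.sum_neg_distrib]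
    apply Finset.sum_congr rfl
    intro j _
    show (a * x (0, j) - b * x (1, j)) ^ 2 + (b * x (0, j) + a * x (1, j)) ^ 2 = _
    have : (a * x (0, j) - b * x (1, j)) ^ 2 + (b * x (0, j) + a * x (1, j)) ^ 2
        = (a ^ 2 + b ^ 2) * (x (0, j) ^ 2 + x (1, j) ^ 2) := by ring
    rw [this, hab]; ring)
  simpa using this

/-- determinant of the block swap -/
theorem det_swap (h2 : (2 : F) ≠ 0) (m : ℕ) :
    (Matrix.fromBlocks (0 : Matrix (Fin m) (Fin m) F) (1 : Matrix (Fin m) (Fin m) F) (1 : Matrix (Fin m) (Fin m) F) (0 : Matrix (Fin m) (Fin m) F)).det = (-1) ^ m := by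
  have h1 : Matrix.fromBlocks (0 : Matrix (Fin m) (Fin m) F) (1 : Matrix (Fin m) (Fin m) F) (1 : Matrix (Fin m) (Fin m) F) (0 : Matrix (Fin m) (Fin m) F) *
        Matrix.fromBlocks (1 : Matrix (Fin m) (Fin m) F) (1 : Matrix (Fin m) (Fin m) F) (1 : Matrix (Fin m) (Fin m) F) (-1 : Matrix (Fin m) (Fin m) F)
      = Matrix.fromBlocks (1 : Matrix (Fin m) (Fin m) F) (1 : Matrix (Fin m) (Fin m) F) (1 : Matrix (Fin m) (Fin m) F) (-1 : Matrix (Fin m) (Fin m) F) *
        Matrix.fromBlocks (1 : Matrix (Fin m) (Fin m) F) (0 : Matrix (Fin m) (Fin m) F) (0 : Matrix (Fin m) (Fin m) F) (-1 : Matrix (Fin m) (Fin m) F) := by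
    simp [Matrix.fromBlocks_multiply]
  have h3 : (Matrix.fromBlocks (1 : Matrix (Fin m) (Fin m) F) (1 : Matrix (Fin m) (Fin m) F) (1 : Matrix (Fin m) (Fin m) F) (-1 : Matrix (Fin m) (Fin m) F)).det ≠ 0 := by
    intro h0
    have h4 : Matrix.fromBlocks (1 : Matrix (Fin m) (Fin m) F) (1 : Matrix (Fin m) (Fin m) F) (1 : Matrix (Fin m) (Fin m) F) (-1 : Matrix (Fin m) (Fin m) F) *
          Matrix.fromBlocks (1 : Matrix (Fin m) (Fin m) F) (1 : Matrix (Fin m) (Fin m) F) (1 : Matrix (Fin m) (Fin m) F) (-1 : Matrix (Fin m) (Fin m) F)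
        = (2 : F) • (1 : Matrix (Fin m ⊕ Fin m) (Fin m ⊕ Fin m) F) := by
      rw [Matrix.fromBlocks_multiply, ← Matrix.fromBlocks_one, Matrix.fromBlocks_smul]
      congr 1 <;> simp [two_smul]
    have h5 := congrArg Matrix.det h4
    rw [Matrix.det_mul, h0, zero_mul, Matrix.det_smul, Matrix.det_one, mul_one] at h5
    exact pow_ne_zero _ h2 h5.symm
  have h6 := congrArg Matrix.det h1
  rw [Matrix.det_mul, Matrix.det_mul, Matrix.det_fromBlocks_zero₂₁, Matrix.det_one, Matrix.det_neg, Matrix.det_one,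
    one_mul, mul_one, Fintype.card_fin, mul_comm] at h6
  exact mul_left_cancel₀ h3 h6

theorem det_anti (h2 : (2 : F) ≠ 0) (m : ℕ) (C C' D : Matrix (Fin m) (Fin m) F) :
    (Matrix.fromBlocks 0 C C' D).det = (-1) ^ m * (C.det * C'.det) := by
  have h1 : Matrix.fromBlocks 0 C C' D = Matrix.fromBlocks C 0 D C' * Matrix.fromBlocks (0 : Matrix (Fin m) (Fin m) F) (1 : Matrix (Fin m) (Fin m) F) (1 : Matrix (Fin m) (Fin m) F) (0 : Matrix (Fin m) (Fin m) F) := by
    simp [Matrix.fromBlocks_multiply]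
  rw [h1, Matrix.det_mul, det_swap h2, Matrix.det_fromBlocks_zero₁₂, mul_comm]

/-- A totally singular subspace of half the dimension forces `(-1)^m` to be a square. -/
theorem isSquare_of_TS (h2 : (2 : F) ≠ 0) (m : ℕ) (h : TS F (Fin m ⊕ Fin m) m) : IsSquare ((-1 : F) ^ m) := by
  classical
  obtain ⟨W, hW1, hW2⟩ := h
  have hB : ∀ x ∈ W, ∀ y ∈ W, ∑ i, x i * y i = 0 := by
    intro x hx y hy
    have h3 := hW2 (x + y) (W.add_mem hx hy)
    have h4 : ∑ i, (x + y) i ^ 2 = ∑ i, x i ^ 2 + ∑ i, y i ^ 2 + 2 * ∑ i, x i * y i := by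
      rw [Finset.mul_sum, ← Finset.sum_add_distrib, ← Finset.sum_add_distrib]
      apply Finset.sum_congr rfl
      intro i _
      simp only [Pi.add_apply]; ring
    rw [h4, hW2 x hx, hW2 y hy, zero_add, zero_add] at h3
    exact (mul_eq_zero.mp h3).resolve_left h2
  obtain ⟨U, hU⟩ := Submodule.exists_isCompl W
  have hU1 : finrank F U = m := by
    have := Submodule.finrank_add_eq_of_isCompl hU
    rw [Module.finrank_fintype_fun_eq_card] at this
    simp at this
    omega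
  let bW : Basis (Fin m) F W := Module.finBasisOfFinrankEq F W hW1
  let bU : Basis (Fin m) F U := Module.finBasisOfFinrankEq F U hU1
  let b : Basis (Fin m ⊕ Fin m) F (Fin m ⊕ Fin m → F) := (bW.prod bU).map (Submodule.prodEquivOfIsCompl W U hU)
  have hb : ∀ i, b (Sum.inl i) ∈ W := by
    intro i
    have : b (Sum.inl i) = (bW i : Fin m ⊕ Fin m → F) := by
      simp [b, Submodule.coe_prodEquivOfIsCompl']
    rw [this]; exact (bW i).2
  let P : Matrix (Fin m ⊕ Fin m) (Fin m ⊕ Fin m) F := (Pi.basisFun F (Fin m ⊕ Fin m)).toMatrix b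
  have hP : ∀ k j, P k j = b j k := fun k j => by simp [P, Basis.toMatrix_apply]
  have hPdet : P.det ≠ 0 := by
    have := (Pi.basisFun F (Fin m ⊕ Fin m)).isUnit_det b
    rw [Basis.det_apply] at this
    exact this.ne_zero
  have hG : (P.transpose * P).toBlocks₁₁ = 0 := by
    ext i j
    simp only [Matrix.toBlocks₁₁, Matrix.of_apply, Matrix.mul_apply, Matrix.transpose_apply, hP, Matrix.zero_apply]
    exact hB _ (hb i) _ (hb j)
  have hG2 : (P.transpose * P).toBlocks₂₁ = ((P.transpose * P).toBlocks₁₂).transpose := by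
    ext i j
    simp only [Matrix.toBlocks₂₁, Matrix.toBlocks₁₂, Matrix.of_apply, Matrix.mul_apply, Matrix.transpose_apply]
    exact Finset.sum_congr rfl fun k _ => mul_comm _ _
  have hdet : (P.transpose * P).det = (-1) ^ m * ((P.transpose * P).toBlocks₁₂.det * (P.transpose * P).toBlocks₁₂.det) := by
    conv_lhs => rw [← Matrix.fromBlocks_toBlocks (P.transpose * P), hG, hG2]
    rw [det_anti h2, Matrix.det_transpose]
  rw [Matrix.det_mul, Matrix.det_transpose] at hdet
  obtain ⟨c, hc⟩ : ∃ c, c = (P.transpose * P).toBlocks₁₂.det := ⟨_, rfl⟩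
  rw [← hc] at hdet
  have hc0 : c ≠ 0 := by
    rintro rfl
    simp at hdet
    exact hPdet hdet
  refine ⟨P.det / c, ?_⟩
  field_simp
  rw [sq, sq, hdet]

end Cfsg.Agent.Lib.Helper14.SumSq
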