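import Mathlib
import Cfsg.Agent.Lib.Helper14.SpAbstract

set_option autoImplicit false

namespace Cfsg.Agent.Lib.Helper14

open Matrix

namespace SymSp

variable {F : Type*} [Field F] {ι : Type*} [Fintype ι] [DecidableEq ι]

/-- the heart of the permutation module, realised as the vectors of sum zero vanishing at `l` -/
def heart (F : Type*) [Field F] {ι : Type*} [Fintype ι] (l : ι) : Submodule F (ι → F) where
  carrier := {x | ∑ i, x i = 0 ∧ x l = 0}
  add_mem' := by
    rintro x y ⟨h1, h2⟩ ⟨h3, h4⟩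
    exact ⟨by simp [Finset.sum_add_distrib, h1, h3], by simp [h2, h4]⟩
  zero_mem' := ⟨by simp, rfl⟩
  smul_mem' := by
    rintro c x ⟨h1, h2⟩
    exact ⟨by simp [← Finset.mul_sum, h1], by simp [h2]⟩

theorem mem_heart {l : ι} {x : ι → F} : x ∈ heart F l ↔ ∑ i, x i = 0 ∧ x l = 0 := Iff.rfl

/-- the twisted permutation action on the whole space -/
def P (F : Type*) [Field F] {ι : Type*} (l : ι) (σ : Equiv.Perm ι) : (ι → F) →ₗ[F] (ι → F) where
  toFun x := fun i => x (σ⁻¹ i) - x (σ⁻¹ l)
  map_add' x y := by ext i; simp; ring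
  map_smul' c x := by ext i; simp; ring

theorem P_apply (l : ι) (σ : Equiv.Perm ι) (x : ι → F) (i : ι) :
    P F l σ x i = x (σ⁻¹ i) - x (σ⁻¹ l) := rfl

theorem P_mem (hcard : (Fintype.card ι : F) = 0) (l : ι) (σ : Equiv.Perm ι) (x : ι → F)
    (hx : x ∈ heart F l) : P F l σ x ∈ heart F l := by
  refine ⟨?_, by simp [P_apply]⟩
  simp only [P_apply, Finset.sum_sub_distrib, Finset.sum_const, Finset.card_univ, nsmul_eq_mul,
    hcard, zero_mul, sub_zero]
  rw [Equiv.sum_comp σ⁻¹ x]
  exact hx.1

/-- the representation on the heart -/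
def rho (hcard : (Fintype.card ι : F) = 0) (l : ι) : Equiv.Perm ι →* Module.End F (heart F l) where
  toFun σ := (P F l σ).restrict (P_mem hcard l σ)
  map_one' := by
    ext x i
    have := x.2.2
    simp [P_apply, this]
  map_mul' σ τ := by
    ext x i
    simp [P_apply, _root_.mul_inv_rev]

theorem rho_apply (hcard : (Fintype.card ι : F) = 0) (l : ι) (σ : Equiv.Perm ι) (x : heart F l)
    (i : ι) : (rho hcard l σ x).1 i = x.1 (σ⁻¹ i) - x.1 (σ⁻¹ l) := rfl

/-- the dot product on the heart -/
noncomputable def form (F : Type*) [Field F] {ι : Type*} [Fintype ι] [DecidableEq ι] (l : ι) :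
    LinearMap.BilinForm F (heart F l) :=
  (Matrix.toBilin' (1 : Matrix ι ι F)).restrict (heart F l)

theorem form_apply (l : ι) (x y : heart F l) : form F l x y = ∑ i, x.1 i * y.1 i := by
  simp [form, Matrix.toBilin'_apply', dotProduct]

theorem form_rho (hcard : (Fintype.card ι : F) = 0) (l : ι) (σ : Equiv.Perm ι) (x y : heart F l) :
    form F l (rho hcard l σ x) (rho hcard l σ y) = form F l x y := by
  rw [form_apply, form_apply]
  simp only [rho_apply]
  have h1 : ∀ i, (x.1 (σ⁻¹ i) - x.1 (σ⁻¹ l)) * (y.1 (σ⁻¹ i) - y.1 (σ⁻¹ l)) =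
      x.1 (σ⁻¹ i) * y.1 (σ⁻¹ i) - y.1 (σ⁻¹ l) * x.1 (σ⁻¹ i) - x.1 (σ⁻¹ l) * y.1 (σ⁻¹ i) +
        x.1 (σ⁻¹ l) * y.1 (σ⁻¹ l) := fun i => by ring
  simp only [h1, Finset.sum_add_distrib, Finset.sum_sub_distrib, ← Finset.mul_sum,
    Finset.sum_const, Finset.card_univ, nsmul_eq_mul, hcard, zero_mul, add_zero]
  rw [Equiv.sum_comp σ⁻¹ x.1, Equiv.sum_comp σ⁻¹ y.1, x.2.1, y.2.1,
    Equiv.sum_comp σ⁻¹ (fun i => x.1 i * y.1 i)]
  simp

theorem form_isAlt [CharP F 2] (l : ι) : (form F l).IsAlt := by
  intro x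
  rw [form_apply]
  have h := sum_pow_char 2 (Finset.univ : Finset ι) x.1
  rw [x.2.1] at h
  simp only [pow_two] at h
  rw [← h]; simp

/-- difference of two coordinate vectors -/
def dv (F : Type*) [Field F] {ι : Type*} [Fintype ι] [DecidableEq ι] (l a b : ι) (ha : a ≠ l)
    (hb : b ≠ l) : heart F l :=
  ⟨Pi.single a 1 - Pi.single b 1, by
    refine ⟨?_, ?_⟩
    · simp [Finset.sum_sub_distrib]
    · simp [Pi.single_apply, ha.symm, hb.symm]⟩

theorem dv_apply (l a b : ι) (ha : a ≠ l) (hb : b ≠ l) (i : ι) :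
    (dv F l a b ha hb).1 i = (if i = a then 1 else 0) - (if i = b then 1 else 0) := by
  simp [dv, Pi.single_apply]

theorem form_dv (l a b : ι) (ha : a ≠ l) (hb : b ≠ l) (x : heart F l) :
    form F l x (dv F l a b ha hb) = x.1 a - x.1 b := by
  rw [form_apply]
  simp only [dv_apply, mul_sub, Finset.sum_sub_distrib]
  simp

theorem form_symm (l : ι) (x y : heart F l) : form F l x y = form F l y x := by
  rw [form_apply, form_apply]
  exact Finset.sum_congr rfl fun i _ => mul_comm _ _

theorem form_nondegenerate (hcard : (Fintype.card ι : F) = 0) (l a : ι) (ha : a ≠ l) :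
    (form F l).Nondegenerate := by
  have key : ∀ x : heart F l, (∀ y, form F l x y = 0) → x = 0 := by
    intro x hx
    have h1 : ∀ i, i ≠ l → x.1 i = x.1 a := by
      intro i hi
      have := hx (dv F l i a hi ha)
      rw [form_dv] at this
      exact sub_eq_zero.1 this
    have h2 : ∑ i, x.1 i = (Fintype.card ι : F) * x.1 a - x.1 a := by
      have h3 : ∀ i, x.1 i = x.1 a - (if i = l then x.1 a else 0) := by
        intro i
        by_cases hi : i = l
        · subst hi; simp [x.2.2]
        · simp [hi, h1 i hi]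
      calc ∑ i, x.1 i = ∑ i, (x.1 a - (if i = l then x.1 a else 0)) :=
            Finset.sum_congr rfl fun i _ => h3 i
        _ = _ := by simp [Finset.sum_sub_distrib]
    rw [x.2.1, hcard, zero_mul, zero_sub] at h2
    have h4 : x.1 a = 0 := by
      have := h2.symm
      simpa using this
    apply Subtype.ext
    ext i
    by_cases hi : i = l
    · subst hi; exact x.2.2
    · rw [h1 i hi, h4]; rfl
  exact ⟨key, fun y hy => key y fun x => by rw [form_symm]; exact hy x⟩

theorem finrank_heart (l a : ι) (ha : a ≠ l) :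
    Module.finrank F (heart F l) + 2 = Fintype.card ι := by
  let L : (ι → F) →ₗ[F] F × F :=
    (∑ i, LinearMap.proj (R := F) (φ := fun _ : ι => F) i).prod (LinearMap.proj l)
  have hL : ∀ x, L x = (∑ i, x i, x l) := by
    intro x
    simp [L, LinearMap.sum_apply]
  have hker : LinearMap.ker L = heart F l := by
    ext x
    rw [LinearMap.mem_ker, hL, mem_heart, Prod.mk_eq_zero]
  have hsurj : LinearMap.range L = ⊤ := by
    rw [LinearMap.range_eq_top]
    rintro ⟨α, β⟩
    refine ⟨Pi.single l β + Pi.single a (α - β), ?_⟩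
    rw [hL]
    simp [Finset.sum_add_distrib, Pi.single_apply, ha.symm]
  have h := LinearMap.finrank_range_add_finrank_ker L
  rw [hsurj, hker, finrank_top, Module.finrank_prod, Module.finrank_self,
    Module.finrank_fintype_fun_eq_card] at h
  omega

theorem exists_notMem (S : Finset ι) (h : S.card < Fintype.card ι) : ∃ x, x ∉ S := by
  by_contra hcon
  push Not at hcon
  have : S = Finset.univ := Finset.eq_univ_of_forall hcon
  rw [this, Finset.card_univ] at h
  exact lt_irrefl _ h

theorem rho_injective (hcard : (Fintype.card ι : F) = 0) (h6 : 6 ≤ Fintype.card ι) (l : ι) :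
    Function.Injective (rho (F := F) hcard l) := by
  rw [injective_iff_map_eq_one]
  intro σ hσ
  have key : ∀ (x : heart F l) (i : ι), x.1 (σ⁻¹ i) - x.1 (σ⁻¹ l) = x.1 i := by
    intro x i
    rw [← rho_apply hcard, hσ]
    rfl
  have hl : σ⁻¹ l = l := by
    by_contra ha
    set a := σ⁻¹ l with ha'
    obtain ⟨b, hb⟩ := exists_notMem ({l, a} : Finset ι) (lt_of_le_of_lt Finset.card_le_two (by omega))
    obtain ⟨c, hc⟩ := exists_notMem ({l, a, b} : Finset ι)
      (lt_of_le_of_lt Finset.card_le_three (by omega))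
    obtain ⟨d, hd⟩ := exists_notMem ({l, a, b, c} : Finset ι)
      (lt_of_le_of_lt Finset.card_le_four (by omega))
    simp only [Finset.mem_insert, Finset.mem_singleton, not_or] at hb hc hd
    have hval : ∀ i, i ≠ l → i ≠ a → i ≠ b → σ⁻¹ i = b := by
      intro i hil hia hib
      have h1 := key (dv F l a b ha hb.1) i
      rw [dv_apply, dv_apply, dv_apply] at h1
      have hne : σ⁻¹ i ≠ a := fun h => hil (σ⁻¹.injective h)
      simp only [hne, if_false, if_true, hia, hib, Ne.symm hb.2, sub_zero, zero_sub] at h1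
      by_contra hcon
      rw [if_neg hcon] at h1
      simp at h1
    have h1 := hval c hc.1 hc.2.1 hc.2.2
    have h2 := hval d hd.1 hd.2.1 hd.2.2.1
    exact hd.2.2.2 (σ⁻¹.injective (h2.trans h1.symm))
  have hfix : ∀ i, σ⁻¹ i = i := by
    intro i
    by_cases hil : i = l
    · rw [hil, hl]
    by_contra hij
    set j := σ⁻¹ i with hj
    obtain ⟨k, hk⟩ := exists_notMem ({l, i, j} : Finset ι)
      (lt_of_le_of_lt Finset.card_le_three (by omega))
    simp only [Finset.mem_insert, Finset.mem_singleton, not_or] at hk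
    have h1 := key (dv F l i k hil hk.1) i
    rw [hl, ← hj, dv_apply, dv_apply, dv_apply] at h1
    simp [hij, Ne.symm hk.2.2, Ne.symm hil, Ne.symm hk.1, Ne.symm hk.2.1] at h1
  have : σ⁻¹ = 1 := Equiv.ext hfix
  exact inv_eq_one.1 this

end SymSp

/-- The symmetric group on `2n ≥ 6` letters embeds in `Sp_{2n-2}(F)`, `char F = 2`. -/
theorem exists_perm_hom_sp (F : Type*) [Field F] [CharP F 2] (n : ℕ) (hn : 3 ≤ n) :
    ∃ f : Equiv.Perm (Fin (2 * n)) →* Matrix.symplecticGroup (Fin (n - 1)) F,
      Function.Injective f := by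
  have hcard : (Fintype.card (Fin (2 * n)) : F) = 0 := by
    rw [Fintype.card_fin, Nat.cast_mul]
    have : ((2 : ℕ) : F) = 0 := CharP.cast_eq_zero F 2
    rw [this, zero_mul]
  let l : Fin (2 * n) := ⟨0, by omega⟩
  let a : Fin (2 * n) := ⟨1, by omega⟩
  have ha : a ≠ l := by
    intro h
    have := congrArg Fin.val h
    simp [a, l] at this
  refine exists_injective_hom_sp (SymSp.form F l) (SymSp.form_nondegenerate hcard l a ha)
    (SymSp.form_isAlt l) (n - 1) ?_ (SymSp.rho hcard l) (SymSp.form_rho hcard l)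
    (SymSp.rho_injective hcard (by rw [Fintype.card_fin]; omega) l)
  have := SymSp.finrank_heart (F := F) l a ha
  rw [Fintype.card_fin] at this
  omega

end Cfsg.Agent.Lib.Helper14
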