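import Mathlib
import Cfsg.Agent.Lib.Helper14.SymInSp
import Cfsg.Agent.Lib.Helper14.QuadEmbed

set_option autoImplicit false
open Cfsg
open scoped Matrix

namespace Cfsg.Agent.Lib.Helper14

open Cfsg.Agent.Lib.Helper15 Module

namespace SymOrth

open SymSp

variable {ι : Type*} [Fintype ι] [DecidableEq ι]

/-- the Hamming weight -/
def wt (x : ι → ZMod 2) : ℕ := ∑ i, (x i).val

theorem wt_add (x y : ι → ZMod 2) : wt (x + y) + 2 * wt (x * y) = wt x + wt y := by
  unfold wt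
  rw [Finset.mul_sum, ← Finset.sum_add_distrib, ← Finset.sum_add_distrib]
  refine Finset.sum_congr rfl (fun i _ => ?_)
  simp only [Pi.add_apply, Pi.mul_apply]
  generalize x i = a
  generalize y i = b
  revert a b
  decide

theorem cast_wt (x : ι → ZMod 2) : ((wt x : ℕ) : ZMod 2) = ∑ i, x i := by
  unfold wt
  rw [Nat.cast_sum]
  exact Finset.sum_congr rfl (fun i _ => ZMod.natCast_zmod_val _)

theorem wt_comp (σ : Equiv.Perm ι) (x : ι → ZMod 2) : wt (fun i => x (σ i)) = wt x := by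
  unfold wt
  exact Equiv.sum_comp σ (fun i => (x i).val)

theorem wt_add_one (x : ι → ZMod 2) : wt (fun i => x i + 1) + wt x = Fintype.card ι := by
  unfold wt
  rw [← Finset.sum_add_distrib, Fintype.card_eq_sum_ones]
  refine Finset.sum_congr rfl (fun i _ => ?_)
  show (x i + 1).val + (x i).val = 1
  generalize x i = a
  revert a
  decide

theorem wt_zero : wt (0 : ι → ZMod 2) = 0 := by simp [wt]

theorem even_wt {l : ι} (x : heart (ZMod 2) l) : 2 ∣ wt x.1 := by
  rw [← ZMod.natCast_eq_zero_iff, cast_wt]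
  exact x.2.1

theorem neg_eq_self (a : ZMod 2) : -a = a := by revert a; decide

/-- the quadratic form `wt / 2` on the heart -/
noncomputable def Qh (l : ι) : QuadraticForm (ZMod 2) (heart (ZMod 2) l) where
  toFun x := ((wt x.1 / 2 : ℕ) : ZMod 2)
  toFun_smul a x := by
    have h : a = 0 ∨ a = 1 := by revert a; decide
    rcases h with rfl | rfl
    · simp [wt_zero]
    · simp
  exists_companion' := ⟨form (ZMod 2) l, fun x y => by
    have h1 := wt_add x.1 y.1
    obtain ⟨s, hs⟩ := even_wt x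
    obtain ⟨t, ht⟩ := even_wt y
    obtain ⟨r, hr⟩ := even_wt (x + y)
    have hr' : wt (x.1 + y.1) = 2 * r := hr
    have h2 : r + wt (x.1 * y.1) = s + t := by omega
    have h3 : form (ZMod 2) l x y = ((wt (x.1 * y.1) : ℕ) : ZMod 2) := by
      rw [form_apply, cast_wt]; rfl
    rw [h3]
    show ((wt (x.1 + y.1) / 2 : ℕ) : ZMod 2) = ((wt x.1 / 2 : ℕ) : ZMod 2) + ((wt y.1 / 2 : ℕ) : ZMod 2) + _
    rw [hr', hs, ht, Nat.mul_div_cancel_left _ two_pos, Nat.mul_div_cancel_left _ two_pos,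
      Nat.mul_div_cancel_left _ two_pos]
    have h4 := congrArg (fun n : ℕ => (n : ZMod 2)) h2
    simp only [Nat.cast_add] at h4
    have h5 := neg_eq_self ((wt (x.1 * y.1) : ℕ) : ZMod 2)
    linear_combination h4 + h5⟩

theorem Qh_apply (l : ι) (x : heart (ZMod 2) l) : Qh l x = ((wt x.1 / 2 : ℕ) : ZMod 2) := rfl

theorem polar_Qh (l : ι) (x y : heart (ZMod 2) l) :
    QuadraticMap.polar (Qh l) x y = form (ZMod 2) l x y := by
  have h1 := wt_add x.1 y.1
  obtain ⟨s, hs⟩ := even_wt x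
  obtain ⟨t, ht⟩ := even_wt y
  obtain ⟨r, hr⟩ := even_wt (x + y)
  have hr' : wt (x.1 + y.1) = 2 * r := hr
  have h2 : r + wt (x.1 * y.1) = s + t := by omega
  have h3 : form (ZMod 2) l x y = ((wt (x.1 * y.1) : ℕ) : ZMod 2) := by
    rw [form_apply, cast_wt]; rfl
  rw [h3, QuadraticMap.polar, Qh_apply, Qh_apply, Qh_apply]
  show ((wt (x.1 + y.1) / 2 : ℕ) : ZMod 2) - _ - _ = _
  rw [hr', hs, ht, Nat.mul_div_cancel_left _ two_pos, Nat.mul_div_cancel_left _ two_pos,
    Nat.mul_div_cancel_left _ two_pos]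
  have h4 := congrArg (fun n : ℕ => (n : ZMod 2)) h2
  simp only [Nat.cast_add] at h4
  have h5 := neg_eq_self ((wt (x.1 * y.1) : ℕ) : ZMod 2)
  linear_combination h4 + h5

theorem Qh_nondegenerate (hcard : (Fintype.card ι : ZMod 2) = 0) (l a : ι) (ha : a ≠ l) :
    (QuadraticMap.polarBilin (Qh l)).Nondegenerate := by
  have : QuadraticMap.polarBilin (Qh l) = form (ZMod 2) l := by
    ext x y
    exact polar_Qh l x y
  rw [this]
  exact form_nondegenerate hcard l a ha

theorem Qh_rho (hcard : (Fintype.card ι : ZMod 2) = 0) (l : ι) (σ : Equiv.Perm ι)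
    (h : 4 ∣ Fintype.card ι ∨ σ l = l) (x : heart (ZMod 2) l) :
    Qh l (rho hcard l σ x) = Qh l x := by
  rw [Qh_apply, Qh_apply]
  have hc : x.1 (σ⁻¹ l) = 0 ∨ x.1 (σ⁻¹ l) = 1 := by
    generalize x.1 (σ⁻¹ l) = a
    revert a; decide
  rcases hc with hc | hc
  · have : (rho hcard l σ x).1 = fun i => x.1 (σ⁻¹ i) := by
      ext i
      rw [rho_apply, hc, sub_zero]
    rw [this, wt_comp]
  · rcases h with h | h
    · have : (rho hcard l σ x).1 = fun i => (fun j => x.1 (σ⁻¹ j)) i + 1 := by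
        ext i
        rw [rho_apply, hc, sub_eq_add_neg, neg_eq_self]
      rw [this]
      have h1 : wt (fun i => (fun j => x.1 (σ⁻¹ j)) i + 1) + wt x.1 = Fintype.card ι := by
        have h0 := wt_add_one (fun j => x.1 (σ⁻¹ j))
        rw [wt_comp σ⁻¹ x.1] at h0
        exact h0
      obtain ⟨s, hs⟩ := even_wt x
      obtain ⟨j, hj⟩ := h
      have h2 : wt (fun i => (fun j => x.1 (σ⁻¹ j)) i + 1) = 2 * (2 * j - s) := by
        generalize wt (fun i => (fun j => x.1 (σ⁻¹ j)) i + 1) = w at h1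
        omega
      rw [h2, hs, Nat.mul_div_cancel_left _ two_pos, Nat.mul_div_cancel_left _ two_pos]
      have h3 : (2 * j - s) + s = 2 * j := by omega
      have h4 := congrArg (fun n : ℕ => (n : ZMod 2)) h3
      simp only [Nat.cast_add, Nat.cast_mul] at h4
      have h5 := neg_eq_self ((s : ℕ) : ZMod 2)
      have h6 : ((2 : ℕ) : ZMod 2) = 0 := by decide
      rw [h6, zero_mul] at h4
      linear_combination h4 + h5
    · exfalso
      have : σ⁻¹ l = l := by rw [Equiv.Perm.inv_eq_iff_eq]; exact h.symm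
      rw [this, x.2.2] at hc
      exact zero_ne_one hc

/-- support -/
def supp (x : ι → ZMod 2) : Finset ι := Finset.univ.filter (fun i => x i = 1)

/-- indicator -/
def ind (s : Finset ι) : ι → ZMod 2 := fun i => if i ∈ s then 1 else 0

theorem wt_eq_card (x : ι → ZMod 2) : wt x = (supp x).card := by
  unfold wt supp
  rw [Finset.card_filter]
  refine Finset.sum_congr rfl (fun i _ => ?_)
  generalize x i = a
  revert a
  decide

theorem supp_ind (s : Finset ι) : supp (ind s) = s := by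
  ext i
  simp [supp, ind]

theorem ind_supp (x : ι → ZMod 2) : ind (supp x) = x := by
  ext i
  simp only [supp, ind, Finset.mem_filter, Finset.mem_univ, true_and]
  generalize x i = a
  revert a
  decide

theorem zero_iff (x : ι → ZMod 2) :
    (∑ i, x i = 0 ∧ ((wt x / 2 : ℕ) : ZMod 2) = 0) ↔ 4 ∣ wt x := by
  rw [← cast_wt, ZMod.natCast_eq_zero_iff, ZMod.natCast_eq_zero_iff]
  omega

theorem zeros_Qh (l : ι) : zeros (Qh l) =
    ∑ m ∈ Finset.range ((Fintype.card ι - 1) + 1),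
      (Fintype.card ι - 1).choose m * (if 4 ∣ m then 1 else 0) := by
  have e : {x : heart (ZMod 2) l // Qh l x = 0} ≃
      {s : Finset ι // s ∈ ((Finset.univ.erase l).powerset.filter (fun s => 4 ∣ s.card))} :=
    { toFun := fun x => ⟨supp x.1.1, by
        rw [Finset.mem_filter, Finset.mem_powerset, ← wt_eq_card]
        refine ⟨?_, (zero_iff _).1 ⟨x.1.2.1, x.2⟩⟩
        intro i hi
        rw [Finset.mem_erase]
        refine ⟨?_, Finset.mem_univ _⟩
        rintro rfl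
        have h1 : x.1.1 i = 1 := (Finset.mem_filter.1 hi).2
        rw [x.1.2.2] at h1
        exact zero_ne_one h1⟩
      invFun := fun s => ⟨⟨ind s.1, by
          have hs := Finset.mem_filter.1 s.2
          have h4 : 4 ∣ wt (ind s.1) := by rw [wt_eq_card, supp_ind]; exact hs.2
          refine ⟨((zero_iff _).2 h4).1, ?_⟩
          have : l ∉ s.1 := fun hl => (Finset.mem_erase.1 (Finset.mem_powerset.1 hs.1 hl)).1 rfl
          simp [ind, this]⟩, by
          have hs := Finset.mem_filter.1 s.2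
          have h4 : 4 ∣ wt (ind s.1) := by rw [wt_eq_card, supp_ind]; exact hs.2
          exact ((zero_iff _).2 h4).2⟩
      left_inv := fun x => Subtype.ext (Subtype.ext (ind_supp _))
      right_inv := fun s => Subtype.ext (supp_ind _) }
  unfold zeros
  rw [Nat.card_congr e, Nat.card_eq_fintype_card, Fintype.card_coe, Finset.card_filter,
    Finset.sum_powerset_apply_card (fun m => if 4 ∣ m then 1 else 0),
    Finset.card_erase_of_mem (Finset.mem_univ l), Finset.card_univ]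
  simp only [smul_eq_mul]

section Binom

open Complex Finset

theorem root_filter (m : ℕ) : (1 : ℂ) + I ^ m + (-1) ^ m + (-I) ^ m = if 4 ∣ m then 4 else 0 := by
  obtain ⟨t, r, hr, rfl⟩ : ∃ t r, r < 4 ∧ m = 4 * t + r :=
    ⟨m / 4, m % 4, Nat.mod_lt _ (by norm_num), (Nat.div_add_mod m 4).symm⟩
  have h1 : (I : ℂ) ^ (4 * t + r) = I ^ r := by rw [pow_add, pow_mul, I_pow_four, one_pow, one_mul]
  have h2 : (-1 : ℂ) ^ (4 * t + r) = (-1) ^ r := by rw [pow_add, pow_mul]; norm_num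
  have h3 : (-I : ℂ) ^ (4 * t + r) = (-I) ^ r := by
    have : (-I : ℂ) ^ 4 = 1 := by rw [neg_pow, I_pow_four]; norm_num
    rw [pow_add, pow_mul, this, one_pow, one_mul]
  rw [h1, h2, h3]
  interval_cases r
  · rw [if_pos (by omega)]; norm_num
  · rw [if_neg (by omega)]; norm_num
  · rw [if_neg (by omega)]; rw [neg_pow, I_sq]; norm_num
  · rw [if_neg (by omega)]
    have e1 : (I : ℂ) ^ 3 = -I := by rw [pow_succ, I_sq]; ring
    have e2 : (-I : ℂ) ^ 3 = I := by rw [neg_pow, e1]; norm_num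
    rw [e1, e2]; norm_num

theorem four_mul_sum (N : ℕ) :
    (4 : ℂ) * ((∑ m ∈ range (N + 1), N.choose m * (if 4 ∣ m then 1 else 0) : ℕ) : ℂ) =
      (1 + 1) ^ N + (I + 1) ^ N + (-1 + 1) ^ N + (-I + 1) ^ N := by
  have h : ∀ x : ℂ, (x + 1) ^ N = ∑ m ∈ range (N + 1), x ^ m * (N.choose m : ℂ) := by
    intro x; rw [add_pow]; simp
  rw [h, h, h, h, ← sum_add_distrib, ← sum_add_distrib, ← sum_add_distrib, Nat.cast_sum, mul_sum]
  refine sum_congr rfl (fun m _ => ?_)
  have := root_filter m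
  push_cast
  split_ifs at this ⊢ with h4
  · linear_combination (-(N.choose m : ℂ)) * this
  · linear_combination (-(N.choose m : ℂ)) * this

theorem four_mul_sum' (k : ℕ) :
    (4 : ℂ) * ((∑ m ∈ range (4 * k + 3 + 1), (4 * k + 3).choose m * (if 4 ∣ m then 1 else 0) : ℕ) : ℂ) =
      2 ^ (4 * k + 3) + (-4) ^ (k + 1) := by
  rw [four_mul_sum]
  have a2 : (I + 1) ^ 2 = 2 * I := by ring_nf; rw [I_sq]; ring
  have a4 : (I + 1) ^ 4 = -4 := by
    rw [show 4 = 2 * 2 by norm_num, pow_mul, a2]; ring_nf; rw [I_sq]; ring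
  have a3 : (I + 1) ^ 3 = -2 + 2 * I := by
    rw [pow_succ, a2]; ring_nf; rw [I_sq]; ring
  have b2 : (-I + 1) ^ 2 = -2 * I := by ring_nf; rw [I_sq]; ring
  have b4 : (-I + 1) ^ 4 = -4 := by
    rw [show 4 = 2 * 2 by norm_num, pow_mul, b2]; ring_nf; rw [I_sq]; ring
  have b3 : (-I + 1) ^ 3 = -2 - 2 * I := by
    rw [pow_succ, b2]; ring_nf; rw [I_sq]; ring
  rw [pow_add (I + 1), pow_mul (I + 1), a4, a3, pow_add (-I + 1), pow_mul (-I + 1), b4, b3]
  have : ((-1 : ℂ) + 1) ^ (4 * k + 3) = 0 := by norm_num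
  rw [this]
  norm_num
  ring

theorem sum_choose_odd (k : ℕ) (hk : Odd k) :
    (∑ m ∈ range (4 * k + 3 + 1), (4 * k + 3).choose m * (if 4 ∣ m then 1 else 0)) + 2 ^ (2 * k) =
      2 ^ (2 * k + 1) + 2 ^ (2 * (2 * k) + 1) := by
  have h := four_mul_sum' k
  rw [Even.neg_pow (by exact Odd.add_one hk)] at h
  have h' : 4 * (∑ m ∈ range (4 * k + 3 + 1), (4 * k + 3).choose m * (if 4 ∣ m then 1 else 0)) =
      2 ^ (4 * k + 3) + 4 ^ (k + 1) := by exact_mod_cast h
  have e1 : 2 ^ (4 * k + 3) = 4 * 2 ^ (2 * (2 * k) + 1) := by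
    rw [show 4 * k + 3 = (2 * (2 * k) + 1) + 2 by ring, pow_add]; ring
  have e2 : 4 ^ (k + 1) = 4 * 2 ^ (2 * k) := by
    rw [pow_succ, pow_mul]; norm_num; ring
  have e3 : 2 ^ (2 * k + 1) = 2 * 2 ^ (2 * k) := by rw [pow_succ]; ring
  omega

theorem sum_choose_even (k : ℕ) (hk : Even k) :
    (∑ m ∈ range (4 * k + 3 + 1), (4 * k + 3).choose m * (if 4 ∣ m then 1 else 0)) + 2 ^ (2 * k + 1) =
      2 ^ (2 * k) + 2 ^ (2 * (2 * k) + 1) := by
  have h := four_mul_sum' k
  rw [Odd.neg_pow (by exact Even.add_one hk)] at h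
  have h' : 4 * (∑ m ∈ range (4 * k + 3 + 1), (4 * k + 3).choose m * (if 4 ∣ m then 1 else 0)) +
      4 ^ (k + 1) = 2 ^ (4 * k + 3) := by
    have : (4 : ℂ) * ((∑ m ∈ range (4 * k + 3 + 1), (4 * k + 3).choose m * (if 4 ∣ m then 1 else 0) : ℕ) : ℂ)
        + 4 ^ (k + 1) = 2 ^ (4 * k + 3) := by rw [h]; ring
    exact_mod_cast this
  have e1 : 2 ^ (4 * k + 3) = 4 * 2 ^ (2 * (2 * k) + 1) := by
    rw [show 4 * k + 3 = (2 * (2 * k) + 1) + 2 by ring, pow_add]; ring
  have e2 : 4 ^ (k + 1) = 4 * 2 ^ (2 * k) := by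
    rw [pow_succ, pow_mul]; norm_num; ring
  have e3 : 2 ^ (2 * k + 1) = 2 * 2 ^ (2 * k) := by rw [pow_succ]; ring
  omega

end Binom

section Main

theorem setup (k : ℕ) :
    ∃ (hcard : (Fintype.card (Fin (4 * k + 4)) : ZMod 2) = 0) (l : Fin (4 * k + 4)),
      (QuadraticMap.polarBilin (Qh l)).Nondegenerate ∧
      finrank (ZMod 2) (heart (ZMod 2) l) = 2 * (2 * k + 1) ∧
      zeros (Qh l) = ∑ m ∈ Finset.range (4 * k + 3 + 1), (4 * k + 3).choose m * (if 4 ∣ m then 1 else 0) ∧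
      (∀ σ x, Qh l (rho hcard l σ x) = Qh l x) ∧
      (1 ≤ k → Function.Injective (rho hcard l)) := by
  have hcard : (Fintype.card (Fin (4 * k + 4)) : ZMod 2) = 0 := by
    rw [Fintype.card_fin, ZMod.natCast_eq_zero_iff]
    exact ⟨2 * k + 2, by ring⟩
  let l : Fin (4 * k + 4) := ⟨0, by omega⟩
  let a : Fin (4 * k + 4) := ⟨1, by omega⟩
  have ha : a ≠ l := by
    intro h
    have := congrArg Fin.val h
    simp [a, l] at this
  refine ⟨hcard, l, Qh_nondegenerate hcard l a ha, ?_, ?_, ?_, ?_⟩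
  · have := finrank_heart (F := ZMod 2) l a ha
    rw [Fintype.card_fin] at this
    omega
  · rw [zeros_Qh, Fintype.card_fin]
    rfl
  · intro σ x
    exact Qh_rho hcard l σ (Or.inl (by rw [Fintype.card_fin]; exact ⟨k + 1, by ring⟩)) x
  · intro hk
    exact rho_injective hcard (by rw [Fintype.card_fin]; omega) l

theorem exists_perm_hom_plus (k : ℕ) (hk1 : 1 ≤ k) (hk : Odd k) :
    ∃ φ : Equiv.Perm (Fin (4 * k + 4)) →* isometryGroup (ZMod 2) (quadFormPlus (2 * k + 1) (ZMod 2)),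
      Function.Injective φ := by
  obtain ⟨hcard, l, hQ, hV, hz, hinv, hinj⟩ := setup k
  obtain ⟨e, f, h⟩ := exists_hyp_of_zeros (2 * k) (Qh l) hQ hV (by
    rw [hz, ZMod.card]; exact sum_choose_odd k hk)
  obtain ⟨L, hL⟩ := exists_isometry_plus h hV
  rw [← coe_qPlus]
  exact exists_hom_isometryGroup (Qh l) _ (qPlus_nondegenerate _ _) L hL (rho hcard l) hinv (hinj hk1)

theorem aniso_one_one (z₁ z₂ : ZMod 2) (h : z₁ ^ 2 + 1 * z₁ * z₂ + 1 * z₂ ^ 2 = 0) : z₁ = 0 ∧ z₂ = 0 := by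
  revert z₁ z₂
  decide

theorem exists_perm_hom_minus (k : ℕ) (hk1 : 1 ≤ k) (hk : Even k) :
    ∃ φ : Equiv.Perm (Fin (4 * k + 4)) →* isometryGroup (ZMod 2) (quadFormMinus (2 * k) (ZMod 2) 1 1),
      Function.Injective φ := by
  obtain ⟨hcard, l, hQ, hV, hz, hinv, hinj⟩ := setup k
  obtain ⟨e, f, x, y, ζ, h⟩ := exists_ell_of_zeros (2 * k) (Qh l) hQ hV (by
    rw [hz, ZMod.card]; exact sum_choose_even k hk)
  have hζ : ζ = 1 := by
    have h0 := h.1 0
    revert h0
    generalize ζ = z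
    revert z
    decide
  subst hζ
  obtain ⟨L, hL⟩ := exists_isometry_minus (a := 1) (c := 1) h.2.1 h.2.2.1 h.2.2.2.1 h.2.2.2.2.1
      h.2.2.2.2.2 (by decide) hV
  rw [← coe_qMinus]
  exact exists_hom_isometryGroup (Qh l) _ (qMinus_nondegenerate _ _ _ aniso_one_one) L hL
    (rho hcard l) hinv (hinj hk1)

end Main

end SymOrth

end Cfsg.Agent.Lib.Helper14
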