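import Mathlib
import Cfsg.Agent.Lib.Helper14.SymOrth
import Cfsg.Agent.S0287
import Cfsg.Agent.S0288

set_option autoImplicit false
open Cfsg
open scoped Matrix

namespace Cfsg.Agent.Lib.Helper14

open Cfsg.Agent.Lib.Helper15 Module

namespace SymOrth

open SymSp

variable {F : Type*} [Field F] [Fintype F]

theorem charP_two_of_card_two (hF : Fintype.card F = 2) : CharP F 2 := by
  obtain ⟨p, hp⟩ := CharP.exists F
  obtain ⟨n, hpp, hn⟩ := FiniteField.card F p
  have h1 : p ∣ 2 := by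
    have : p ∣ Fintype.card F := by rw [hn]; exact dvd_pow_self p n.ne_zero
    rw [hF] at this
    exact this
  have h2 : p = 2 := (Nat.prime_dvd_prime_iff_eq hpp Nat.prime_two).1 h1
  subst h2
  exact hp

theorem eq_zero_or_one (hF : Fintype.card F = 2) (a : F) : a = 0 ∨ a = 1 := by
  classical
  have h : ({0, 1} : Finset F) = Finset.univ :=
    Finset.eq_univ_of_card _ (by rw [Finset.card_pair zero_ne_one, hF])
  have := Finset.mem_univ a
  rw [← h] at this
  simpa using this

theorem aniso_one_one' (hF : Fintype.card F = 2) (z₁ z₂ : F)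
    (h : z₁ ^ 2 + 1 * z₁ * z₂ + 1 * z₂ ^ 2 = 0) : z₁ = 0 ∧ z₂ = 0 := by
  have := charP_two_of_card_two hF
  have h2 : (1 : F) + 1 = 0 := by
    have : ((2 : ℕ) : F) = 0 := CharP.cast_eq_zero F 2
    rw [← this]; norm_num
  rcases eq_zero_or_one hF z₁ with rfl | rfl <;> rcases eq_zero_or_one hF z₂ with rfl | rfl
  · exact ⟨rfl, rfl⟩
  · simp at h
  · simp at h
  · exfalso
    have : (1 : F) = 0 := by linear_combination h - h2
    exact one_ne_zero this

/-- `O⁺₆(2) ≅ S₈` -/
theorem plus_six_two_equiv (hF : Fintype.card F = 2) :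
    Nonempty (↥(isometryGroup F (quadFormPlus 3 F)) ≃* Equiv.Perm (Fin 8)) := by
  have := charP_two_of_card_two hF
  obtain ⟨φ₁, h₁⟩ : ∃ φ : Equiv.Perm (Fin 8) →* isometryGroup (ZMod 2) (quadFormPlus 3 (ZMod 2)),
      Function.Injective φ := exists_perm_hom_plus 1 le_rfl (by decide)
  have hcard := Cfsg.Agent.S0287.result hF 3 (by norm_num)
  revert hcard φ₁
  rw [← coe_qPlus, ← coe_qPlus]
  intro φ₁ h₁ hcard
  obtain ⟨φ₂, h₂⟩ := exists_baseChange_hom (ZMod.castHom (dvd_refl 2) F) (qPlus 3 (ZMod 2)) (qPlus 3 F)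
    (qPlus_nondegenerate 3 F) (qPlus_nat _ 3)
  have hinj : Function.Injective (φ₂.comp φ₁) := h₂.comp h₁
  have hfin : Finite (isometryGroup F (qPlus 3 F)) := inferInstance
  have hbij : Function.Bijective (φ₂.comp φ₁) := by
    apply hinj.bijective_of_nat_card_le
    rw [hcard, Nat.card_eq_fintype_card, Fintype.card_perm, Fintype.card_fin]
    decide
  exact ⟨(MulEquiv.ofBijective _ hbij).symm⟩

/-- `Ω⁺₆(2) ≅ A₈` -/
theorem omega_plus_six_two :
    (Omega (ZMod 2) (quadFormPlus 3 (ZMod 2))).index = 2 ∧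
    Nonempty (↥(Omega (ZMod 2) (quadFormPlus 3 (ZMod 2))) ≃* alternatingGroup (Fin 8)) := by
  obtain ⟨e⟩ := plus_six_two_equiv (F := ZMod 2) (ZMod.card 2)
  have hmap : (Omega (ZMod 2) (quadFormPlus 3 (ZMod 2))).map (e : _ →* Equiv.Perm (Fin 8)) =
      alternatingGroup (Fin 8) := by
    unfold Omega
    rw [← alternatingGroup.commutator_perm_eq (by simp), commutator_def, commutator_def,
      Subgroup.map_commutator, Subgroup.map_top_of_surjective _ e.surjective]
  refine ⟨?_, ⟨(e.subgroupMap _).trans (MulEquiv.subgroupCongr hmap)⟩⟩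
  rw [← Subgroup.index_map_equiv _ e, hmap]
  exact alternatingGroup.index_eq_two

/-- `O⁻₄(2) ≅ S₅` -/
theorem minus_four_two_equiv (hF : Fintype.card F = 2) :
    Nonempty (↥(isometryGroup F (quadFormMinus 1 F 1 1)) ≃* Equiv.Perm (Fin 5)) := by
  have := charP_two_of_card_two hF
  have hcard6 : (Fintype.card (Fin 6) : ZMod 2) = 0 := by decide
  let l : Fin 6 := 0
  let a : Fin 6 := 1
  have ha : a ≠ l := by decide
  have hQ := Qh_nondegenerate hcard6 l a ha
  have hV : finrank (ZMod 2) (heart (ZMod 2) l) = 2 * (1 + 1) := by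
    have := finrank_heart (F := ZMod 2) l a ha
    rw [Fintype.card_fin] at this
    omega
  have hz : zeros (Qh l) = 6 := by
    rw [zeros_Qh, Fintype.card_fin]
    decide
  obtain ⟨e, f, x, y, ζ, h⟩ := exists_ell_of_zeros 1 (Qh l) hQ hV (by rw [hz, ZMod.card]; norm_num)
  have hζ : ζ = 1 := by
    have h0 := h.1 0
    revert h0
    generalize ζ = z
    revert z
    decide
  subst hζ
  obtain ⟨L, hL⟩ := exists_isometry_minus (a := 1) (c := 1) h.2.1 h.2.2.1 h.2.2.2.1 h.2.2.2.2.1
      h.2.2.2.2.2 (by decide) hV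
  let ψ : Equiv.Perm (Fin 5) →* Equiv.Perm (Fin 6) := Equiv.Perm.extendDomainHom (finSuccAboveEquiv l)
  have hψ : Function.Injective ψ := Equiv.Perm.extendDomainHom_injective _
  have hψl : ∀ σ, ψ σ l = l := fun σ =>
    Equiv.Perm.extendDomain_apply_not_subtype σ (finSuccAboveEquiv l) (by simp)
  obtain ⟨φ₁, h₁⟩ := exists_hom_isometryGroup (Qh l) _ (qMinus_nondegenerate _ _ _ aniso_one_one) L hL
    ((rho hcard6 l).comp ψ) (fun σ x => Qh_rho hcard6 l (ψ σ) (Or.inr (hψl σ)) x)
    ((rho_injective hcard6 (by rw [Fintype.card_fin]) l).comp hψ)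
  have hcard := Cfsg.Agent.S0288.result hF 2 (by norm_num) 1 1 (aniso_one_one' hF)
  revert hcard
  show Nat.card ↥(isometryGroup F (quadFormMinus 1 F 1 1)) = _ → _
  rw [← coe_qMinus]
  intro hcard
  obtain ⟨φ₂, h₂⟩ := exists_baseChange_hom (ZMod.castHom (dvd_refl 2) F) (qMinus 1 (ZMod 2) 1 1)
    (qMinus 1 F 1 1) (qMinus_nondegenerate _ _ _ (aniso_one_one' hF)) (fun v => by
      have := qMinus_nat (ZMod.castHom (dvd_refl 2) F) 1 1 1 v
      rwa [map_one] at this)
  have hinj : Function.Injective (φ₂.comp φ₁) := h₂.comp h₁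
  have hbij : Function.Bijective (φ₂.comp φ₁) := by
    apply hinj.bijective_of_nat_card_le
    rw [hcard, Nat.card_eq_fintype_card, Fintype.card_perm, Fintype.card_fin]
    decide
  exact ⟨(MulEquiv.ofBijective _ hbij).symm⟩

end SymOrth

end Cfsg.Agent.Lib.Helper14
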