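import Mathlib

/-! The elementary transvections have `t - 1` of rank one and square zero. -/

set_option autoImplicit false

namespace Cfsg.Agent.Lib.Helper14

open Module Matrix

variable {K : Type*} [Field K] {ι : Type*} [Fintype ι] [DecidableEq ι]

theorem rank_single (i j : ι) {c : K} (hc : c ≠ 0) : (Matrix.single i j c).rank = 1 := by
  apply le_antisymm
  · have h : Matrix.single i j c = Matrix.vecMulVec (Pi.single i c) (Pi.single j 1) := by
      ext a b
      simp only [Matrix.single_apply, Matrix.vecMulVec_apply, Pi.single_apply]
      by_cases h1 : i = a <;> by_cases h2 : j = b <;> simp [h1, h2, eq_comm]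
    rw [h]
    exact Matrix.rank_vecMulVec_le _ _
  · rw [Nat.one_le_iff_ne_zero]
    intro h0
    have h1 : LinearMap.range (Matrix.mulVecLin (Matrix.single i j c)) = ⊥ :=
      Submodule.finrank_eq_zero.1 h0
    have h2 : Matrix.mulVecLin (Matrix.single i j c) (Pi.single j 1) = 0 := by
      have : Matrix.mulVecLin (Matrix.single i j c) (Pi.single j 1) ∈
          LinearMap.range (Matrix.mulVecLin (Matrix.single i j c)) := LinearMap.mem_range_self _ _
      rw [h1] at this
      exact this
    have h3 := congrFun h2 i
    rw [Matrix.mulVecLin_apply, Matrix.mulVec_single_one] at h3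
    simp at h3
    exact hc h3

theorem transvection_sub_one (i j : ι) (c : K) :
    Matrix.transvection i j c - 1 = Matrix.single i j c := by
  simp [Matrix.transvection]

theorem single_mul_self {i j : ι} (hij : i ≠ j) (c : K) :
    Matrix.single i j c * Matrix.single i j c = 0 := by
  rw [Matrix.single_mul_single_of_ne _ _ _ _ (Ne.symm hij)]

end Cfsg.Agent.Lib.Helper14
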